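import Mathlib
import Cfsg.Agent.Lib.Perm.PermMulti

/-! Transitive groups of prime power degree containing a full cycle. -/

set_option autoImplicit false
open MulAction CA.PermBasic CA.PermMulti ZMod Polynomial

namespace CA.CycPP

variable {d : ℕ} [NeZero d]

noncomputable def lam (w : ZMod d → ℂ) (s : ZMod d) : ℂ := ∑ j, w j * stdAddChar (j * s)

theorem lam_inj {w : ZMod d → ℂ} (h : ∀ s, lam w s = 0) : w = 0 := by
  apply (dft (N := d) (E := ℂ)).injective
  ext k
  rw [map_zero, dft_apply, Pi.zero_apply, ← h (-k), lam]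
  simp [mul_comm]

theorem lam_shift (w : ZMod d → ℂ) (t s : ZMod d) :
    stdAddChar (t * s) * lam (fun x => w (x + t)) s = lam w s := by
  rw [lam, lam, Finset.mul_sum, ← Equiv.sum_comp (Equiv.addRight t) (fun j => w j * _)]
  refine Finset.sum_congr rfl fun j _ => ?_
  rw [Equiv.coe_addRight, add_mul, AddChar.map_add_eq_mul]
  ring

theorem lam_sub (w w' : ZMod d → ℂ) (s : ZMod d) :
    lam (fun x => w x - w' x) s = lam w s - lam w' s := by
  simp only [lam, sub_mul, Finset.sum_sub_distrib]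

theorem per_of {w : ZMod d → ℂ} {t : ZMod d} (h : ∀ s, t * s ≠ 0 → lam w s = 0) (x : ZMod d) :
    w (x + t) = w x := by
  refine sub_eq_zero.1 (congrFun (lam_inj (w := fun x => w (x + t) - w x) fun s => ?_) x)
  have h1 := lam_shift w t s
  rw [lam_sub]
  by_cases e : t * s = 0
  · rw [e, AddChar.map_zero_eq_one, one_mul] at h1
    rw [h1, sub_self]
  · rw [h s e] at h1 ⊢
    rw [(mul_eq_zero.1 h1).resolve_left (by simp [stdAddChar_apply]), sub_self]

theorem zero_of_per {w : ZMod d → ℂ} {t s : ZMod d} (h : ∀ x, w (x + t) = w x) (hs : t * s ≠ 0) :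
    lam w s = 0 := by
  have h1 := lam_shift w t s
  simp only [h] at h1
  by_contra h2
  have h3 : stdAddChar (t * s) = 1 := mul_right_cancel₀ h2 (h1.trans (one_mul _).symm)
  exact hs (injective_stdAddChar (h3.trans (AddChar.map_zero_eq_one _).symm))

theorem chi_mul (j s : ZMod d) : stdAddChar (j * s) = stdAddChar s ^ j.val := by
  rw [← AddChar.map_nsmul_eq_pow, nsmul_eq_mul, natCast_zmod_val]

theorem galois (f : ZMod d → ℤ) {u v : ZMod d} (hu : IsUnit u) (hv : IsUnit v)
    (h : lam (fun j => f j) u = 0) : lam (fun j => f j) v = 0 := by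
  have hζ : IsPrimitiveRoot (stdAddChar u : ℂ) d := by
    refine ⟨by rw [← AddChar.map_nsmul_eq_pow, nsmul_eq_mul, natCast_self, zero_mul,
      AddChar.map_zero_eq_one], fun l hl => ?_⟩
    rw [← AddChar.map_nsmul_eq_pow, nsmul_eq_mul] at hl
    have := injective_stdAddChar (hl.trans (AddChar.map_zero_eq_one _).symm)
    exact (natCast_eq_zero_iff l d).1 ((hu.mul_left_eq_zero).1 this)
  let F : ℤ[X] := ∑ j : ZMod d, C (f j) * X ^ j.val
  have hF : ∀ s : ZMod d, aeval (stdAddChar s : ℂ) F = lam (fun j => f j) s := fun s => by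
    simp [F, lam, chi_mul]
  obtain ⟨k, hk⟩ := minpoly.isIntegrallyClosed_dvd (hζ.isIntegral (NeZero.pos d)) ((hF u).trans h)
  obtain ⟨u, rfl⟩ := hu
  obtain ⟨v, rfl⟩ := hv
  have h1 := hζ.pow_isRoot_minpoly (val_coe_unit_coprime (v * u⁻¹))
  rw [← chi_mul, IsRoot.def, eval_map, Units.val_mul, Units.inv_mul_cancel_right] at h1
  rw [← hF, hk, map_mul, aeval_def, algebraMap_int_eq, h1, zero_mul]

variable {G : Type*} [Group G] [MulAction G (ZMod d)]

theorem eigen {α : ZMod d → ℂ} (hα : ∀ (h : G) x y, α (h • x - h • y) = α (x - y)) (h : G)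
    (r s : ZMod d) (hs : lam (fun y => stdAddChar (-(h • y * r))) s ≠ 0) : lam α s = lam α r := by
  refine mul_right_cancel₀ hs ?_
  have h1 : ∀ x, ∑ y, α (x - y) * stdAddChar (-(h • y * r)) = lam α r * stdAddChar (-(h • x * r)) := by
    intro x
    rw [lam, Finset.sum_mul, ← Equiv.sum_comp ((toPerm h).trans (Equiv.subLeft (h • x)))
      (fun j => α j * stdAddChar (j * r) * _)]
    refine Finset.sum_congr rfl fun y _ => ?_
    rw [Equiv.trans_apply, toPerm_apply, Equiv.subLeft_apply, hα, mul_assoc,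
      ← AddChar.map_add_eq_mul]
    congr 2
    ring
  calc _ = ∑ y, ∑ x, α (x - y) * stdAddChar (-(h • y * r)) * stdAddChar (x * s) := by
        rw [lam, lam, Finset.mul_sum]
        refine Finset.sum_congr rfl fun y _ => ?_
        rw [Finset.sum_mul, ← Equiv.sum_comp (Equiv.subRight y)]
        refine Finset.sum_congr rfl fun x _ => ?_
        rw [Equiv.subRight_apply, show x * s = (x - y) * s + y * s by ring, AddChar.map_add_eq_mul]
        ring
    _ = _ := by
        rw [Finset.sum_comm, lam.eq_1 _ s, Finset.mul_sum]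
        refine Finset.sum_congr rfl fun x _ => ?_
        rw [← Finset.sum_mul, h1, mul_assoc]

theorem pow_smul_eq {c : G} (hc : ∀ j : ZMod d, c • j = j + 1) (n : ℕ) (j : ZMod d) :
    c ^ n • j = j + n := by
  induction n with
  | zero => simp
  | succ n ih => rw [pow_succ', mul_smul, ih, hc]; push_cast; ring

theorem two {p n : ℕ} (hp : p.Prime) (hn : 0 < n) (hd : d = p ^ (n + 1)) {c : G}
    (hc : ∀ j : ZMod d, c • j = j + 1) (hc1 : c ^ p ^ (n + 1) = 1)
    (hN : IsPretransitive (Subgroup.normalClosure ({c ^ p ^ n} : Set G)) (ZMod d)) :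
    IsMultiplyPretransitive G (ZMod d) 2 := by
  classical
  have := Fact.mk hp
  set q : ZMod d := ((p ^ n : ℕ) : ZMod d) with hq
  have hz : ∀ j : ZMod d, c ^ p ^ n • j = j + q := pow_smul_eq hc _
  have q0 : q ≠ 0 := fun h => by
    have := (natCast_eq_zero_iff _ _).1 h
    rw [hd, Nat.pow_dvd_pow_iff_le_right hp.one_lt] at this
    omega
  have nu : ∀ s : ZMod d, q * s ≠ 0 → IsUnit s := fun s hs => by
    by_contra h
    rw [← natCast_zmod_val s, isUnit_iff_coprime] at h
    obtain ⟨k, hk⟩ : p ∣ s.val := by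
      generalize s.val = v at h
      rwa [hd, Nat.coprime_pow_right_iff (by omega), Nat.coprime_comm, hp.coprime_iff_not_dvd,
        not_not] at h
    apply hs
    rw [← natCast_zmod_val s, hk, hq, ← Nat.cast_mul, ← mul_assoc, ← pow_succ, ← hd, Nat.cast_mul,
      natCast_self, zero_mul]
  have qq : q * q = 0 := by
    rw [hq, ← Nat.cast_mul, ← pow_add, natCast_eq_zero_iff, hd]
    exact pow_dvd_pow _ (by omega)
  have c1 : ∀ r : ZMod d, r ≠ 0 → ∃ u, IsUnit u ∧ ∀ α : ZMod d → ℂ,
      (∀ (h : G) x y, α (h • x - h • y) = α (x - y)) → lam α u = lam α r := by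
    intro r hr
    by_contra hcon
    have h1 : ∀ (h : G) y, stdAddChar (-(h • (y + q) * r)) = stdAddChar (-(h • y * r)) :=
      fun h => per_of (w := fun y => stdAddChar (-(h • y * r))) fun s hs => by
        by_contra e
        exact hcon ⟨s, nu s hs, fun α hα => eigen hα h r s e⟩
    have h2 : ∀ g ∈ Subgroup.normalClosure ({c ^ p ^ n} : Set G), ∀ y : ZMod d,
        g • y * r = y * r := by
      intro g hg
      induction hg using Subgroup.closure_induction with
      | mem x hx =>
        obtain ⟨_, rfl, hx⟩ := Group.mem_conjugatesOfSet_iff.1 hx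
        obtain ⟨h, rfl⟩ := isConj_iff.1 hx
        intro y
        have := neg_injective (injective_stdAddChar (h1 h (h⁻¹ • y)))
        rwa [smul_inv_smul, ← hz, ← mul_smul, ← mul_smul] at this
      | one => simp
      | mul x y _ _ hx hy => intro z; rw [mul_smul, hx, hy]
      | inv x _ hx => intro z; rw [← hx, smul_inv_smul]
    obtain ⟨g, hg⟩ := hN.exists_smul_eq 0 1
    have := h2 g g.2 0
    rw [show (g : G) • (0 : ZMod d) = 1 from hg, one_mul, zero_mul] at this
    exact hr this
  have key : ∀ a : ZMod d, a ≠ 0 → ∃ g : G, g • (0 : ZMod d) = 0 ∧ g • a = q := by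
    intro a ha
    by_contra hcon
    let R : ZMod d → ZMod d → Prop := fun x y => ∃ g : G, g • (0 : ZMod d) = y ∧ g • a = x
    have R1 : ∀ (h : G) x y, R (h • x) (h • y) ↔ R x y := fun h x y =>
      ⟨fun ⟨g, e1, e2⟩ => ⟨h⁻¹ * g, by rw [mul_smul, e1, inv_smul_smul],
        by rw [mul_smul, e2, inv_smul_smul]⟩,
       fun ⟨g, e1, e2⟩ => ⟨h * g, by rw [mul_smul, e1], by rw [mul_smul, e2]⟩⟩
    have R2 : ∀ x y, R (x - y) 0 ↔ R x y := fun x y => by
      rw [← R1 (c ^ y.val), pow_smul_eq hc, pow_smul_eq hc]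
      simp
    let A : ZMod d → ℤ := fun j => if R j 0 then 1 else 0
    have hA : ∀ (h : G) x y, (A (h • x - h • y) : ℂ) = A (x - y) := fun h x y => by
      simp only [A, R2, R1]
    obtain ⟨u, hu, hu'⟩ := c1 q q0
    obtain ⟨u, rfl⟩ := hu
    let B : ZMod d → ℤ := fun i => {j | j * q * (↑u⁻¹ : ZMod d) = i ∧ R j 0}.ncard
    have hB : lam (fun i => B i) u = lam (fun j => A j) q := by
      rw [lam, lam, ← Finset.sum_fiberwise Finset.univ (fun j => j * q * (↑u⁻¹ : ZMod d))
        (fun j => (A j : ℂ) * stdAddChar (j * q))]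
      refine Finset.sum_congr rfl fun i _ => ?_
      rw [Finset.sum_congr rfl (f := fun j => (A j : ℂ) * stdAddChar (j * q))
        (g := fun j => (A j : ℂ) * stdAddChar (i * (u : ZMod d))) fun j hj => by
        rw [← (Finset.mem_filter.1 hj).2, Units.inv_mul_cancel_right], ← Finset.sum_mul]
      congr 1
      simp only [A, B, Int.cast_ite, Int.cast_one, Int.cast_zero, Finset.sum_boole,
        Finset.filter_filter, Int.cast_natCast, ← Set.ncard_coe_finset]
      simp
    have h1 : ∀ x, A (x + q) - B (x + q) = A x - B x := fun x => by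
      have := per_of (w := fun j => ((A j - B j : ℤ) : ℂ)) (t := q) (fun s hs =>
        galois (fun j => A j - B j) u.isUnit (nu s hs) (by
          simp only [Int.cast_sub]
          rw [lam_sub, hB, hu' _ hA, sub_self])) x
      exact_mod_cast this
    have B0 : ∀ i, (∀ j, j * q ≠ i) → B i = 0 := fun i hi => by
      simp only [B, Nat.cast_eq_zero]
      rw [Set.ncard_eq_zero, Set.eq_empty_iff_forall_notMem]
      exact fun j hj => hi (j * (↑u⁻¹ : ZMod d)) (by rw [← hj.1]; ring)
    have h2 : ∀ x, (∀ j, j * q ≠ x) → A (x + q) = A x := fun x hx => by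
      have := h1 x
      rwa [B0 x hx, B0 (x + q) fun j hj => hx (j - 1) (by rw [sub_mul, hj]; ring), sub_zero,
        sub_zero] at this
    have h3 : ∀ i, i ≠ 0 → (p : ℤ) ∣ B i := fun i hi => by
      have := ncard_modEq_fixedBy (g := c ^ p ^ n) (k := 1) (p := p)
        (by rw [pow_one, ← pow_mul, ← pow_succ, hc1]) {j | j * q * (↑u⁻¹ : ZMod d) = i ∧ R j 0} (Set.toFinite _)
        (fun x hx => by
          rw [hz]
          refine ⟨by rw [add_mul, qq, add_zero, hx.1], ?_⟩
          have := h2 x fun j hj => hi (by rw [← hx.1, ← hj, mul_assoc j, qq]; simp)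
          simp only [A, hx.2, if_true] at this
          by_contra h
          simp [h] at this)
      rw [show {x ∈ {j | j * q * (↑u⁻¹ : ZMod d) = i ∧ R j 0} | c ^ p ^ n • x = x} = ∅ from
        Set.eq_empty_iff_forall_notMem.2 fun x hx => q0 (by simpa [hz] using hx.2),
        Set.ncard_empty] at this
      exact Int.natCast_dvd_natCast.2 ((Nat.modEq_zero_iff_dvd).1 this)
    have h4 : ∀ k : ℕ, A (q + k * q) - B (q + k * q) = A q - B q := fun k => by
      induction k with
      | zero => simp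
      | succ k ih => rw [← ih, ← h1 (q + k * q)]; congr 2 <;> (push_cast; ring)
    have A0 : A 0 = 0 := if_neg fun ⟨g, e1, e2⟩ => ha (MulAction.injective g (e2.trans e1.symm))
    have Aq : A q = 0 := if_neg hcon
    have h5 : ∀ j, A (j * q) = 0 := fun j => by
      by_cases e : j * q = 0
      · rw [e, A0]
      have := h4 (j - 1).val
      rw [natCast_zmod_val, show q + (j - 1) * q = j * q by ring, Aq] at this
      have h6 : (p : ℤ) ∣ A (j * q) := by
        rw [show A (j * q) = B (j * q) - B q by omega]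
        exact dvd_sub (h3 _ e) (h3 _ q0)
      by_contra h
      rw [show A (j * q) = 1 from if_pos (by by_contra h'; exact h (if_neg h'))] at h6
      exact hp.one_lt.ne' (Nat.dvd_one.1 (Int.natCast_dvd_natCast.1 h6))
    have h6 : ∀ x, (A (x + q) : ℂ) = A x := fun x => by
      by_cases e : ∀ j, j * q ≠ x
      · rw [h2 x e]
      push Not at e
      obtain ⟨j, rfl⟩ := e
      rw [show j * q + q = (j + 1) * q by ring, h5, h5]
    have h7 := per_of (w := fun j => (A j : ℂ)) (t := a) (fun s hs => by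
      obtain ⟨v, hv, hv'⟩ := c1 s (by rintro rfl; simp at hs)
      rw [← hv' _ hA]
      exact zero_of_per h6 fun e => q0 (hv.mul_left_eq_zero.1 e)) 0
    rw [zero_add, A0, show A a = 1 from if_pos ⟨1, one_smul _ _, one_smul _ _⟩] at h7
    simp at h7
  have : IsPretransitive G (ZMod d) := pretransitive_of_subgroup _ hN
  refine (two_iff_stab (0 : ZMod d)).2 fun x y hx hy => ?_
  obtain ⟨g, g1, g2⟩ := key x hx
  obtain ⟨h, h1, h2⟩ := key y hy
  exact ⟨h⁻¹ * g, by rw [mul_smul, g1, inv_smul_eq_iff, h1], by rw [mul_smul, g2, inv_smul_eq_iff, h2]⟩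

theorem exists_coord {G Ω : Type*} [Group G] [MulAction G Ω] [FaithfulSMul G Ω] {p n : ℕ}
    (hp : p.Prime) (hΩ : Nat.card Ω = p ^ (n + 1)) {c : G} (hc : orderOf c = p ^ (n + 1)) :
    ∃ e : ZMod (p ^ (n + 1)) ≃ Ω, ∀ j, c • e j = e (j + 1) := by
  have : NeZero (p ^ (n + 1)) := ⟨pow_ne_zero _ hp.ne_zero⟩
  have : Finite Ω := Nat.finite_of_card_ne_zero (hΩ ▸ NeZero.ne _)
  obtain ⟨a, ha⟩ : ∃ a : Ω, c ^ p ^ n • a ≠ a := by
    by_contra h
    push Not at h
    have := orderOf_dvd_of_pow_eq_one (eq_one_of_forall_smul h)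
    rw [hc, Nat.pow_dvd_pow_iff_le_right hp.one_lt] at this
    omega
  have h1 : period c a = p ^ (n + 1) := by
    obtain ⟨k, hk, e⟩ := (Nat.dvd_prime_pow hp).1 (hc ▸ period_dvd_orderOf c a)
    by_contra h
    refine ha (pow_smul_eq_iff_period_dvd.2 (e ▸ pow_dvd_pow _ ?_))
    by_contra h'
    exact h (by rw [e, show k = n + 1 by omega])
  have hcast : ∀ k : ℕ, c ^ (k : ZMod (p ^ (n + 1))).val = c ^ k := fun k => by
    rw [ZMod.val_natCast, ← hc, pow_mod_orderOf]
  have hinj : Function.Injective (fun j : ZMod (p ^ (n + 1)) => c ^ j.val • a) := by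
    intro i j h
    have h2 : c ^ ((i.val : ℤ) - j.val) • a = a := by
      rw [sub_eq_neg_add, zpow_add, mul_smul, zpow_neg, inv_smul_eq_iff, zpow_natCast, zpow_natCast]
      exact h
    rw [zpow_smul_eq_iff_period_dvd, h1, ← intCast_zmod_eq_zero_iff_dvd] at h2
    simpa [sub_eq_zero] using h2
  refine ⟨Equiv.ofBijective _ ((Nat.bijective_iff_injective_and_card _).2
    ⟨hinj, by rw [hΩ, Nat.card_zmod]⟩), fun j => ?_⟩
  show c • c ^ j.val • a = c ^ (j + 1).val • a
  rw [← mul_smul, ← pow_succ', ← hcast (j.val + 1)]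
  simp

theorem two' {G Ω : Type*} [Group G] [MulAction G Ω] [FaithfulSMul G Ω] {p n : ℕ}
    (hp : p.Prime) (hn : 0 < n) (hΩ : Nat.card Ω = p ^ (n + 1)) {c : G}
    (hc : orderOf c = p ^ (n + 1))
    (hN : IsPretransitive (Subgroup.normalClosure ({c ^ p ^ n} : Set G)) Ω) :
    IsMultiplyPretransitive G Ω 2 := by
  have : NeZero (p ^ (n + 1)) := ⟨pow_ne_zero _ hp.ne_zero⟩
  obtain ⟨e, he⟩ := exists_coord hp hΩ hc
  letI : MulAction G (ZMod (p ^ (n + 1))) := e.mulAction G
  have hs : ∀ (g : G) j, e (g • j) = g • e j := fun g j => e.apply_symm_apply _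
  have h2 := two_iff.1 (two hp hn rfl (c := c) (fun j => e.injective (by rw [hs, he]))
    (hc ▸ pow_orderOf_eq_one c) ((subgroup_pretransitive_iff _).2 fun a b => by
      obtain ⟨g, hg⟩ := hN.exists_smul_eq (e a) (e b)
      exact ⟨g, g.2, e.injective (by rw [hs]; exact hg)⟩))
  refine two_iff.2 fun a b c d hab hcd => ?_
  obtain ⟨g, g1, g2⟩ := h2 _ _ _ _ (e.symm.injective.ne hab) (e.symm.injective.ne hcd)
  exact ⟨g, by simpa [hs] using congrArg e g1, by simpa [hs] using congrArg e g2⟩

end CA.CycPP
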