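/-
Representations of alternating groups: generic lemmas.
-/
import Mathlib.LinearAlgebra.Eigenspace.Triangularizable
import Mathlib.GroupTheory.SpecificGroups.Alternating.Simple
import Mathlib.RingTheory.RootsOfUnity.PrimitiveRoots
import Mathlib.GroupTheory.Perm.ViaEmbedding
import Cfsg.Agent.Lib.Grp.SchurCarm

set_option autoImplicit false

namespace CA.H4Alt

open Module Module.End Equiv Equiv.Perm

section Gen
variable {k V Γ : Type*} [Field k] [AddCommGroup V] [Module k V] [Group Γ]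

structure MO (H : Subgroup Γ) (R : Γ → End k V) : Prop where
  one : R 1 = 1
  mul : ∀ g ∈ H, ∀ h ∈ H, R (g * h) = R g * R h

variable {H : Subgroup Γ} {R : Γ → End k V}

theorem MO.app (M : MO H R) {g h : Γ} (hg : g ∈ H) (hh : h ∈ H) (v : V) : R g (R h v) = R (g * h) v := by
  rw [M.mul g hg h hh]; rfl

theorem MO.inv_app (M : MO H R) {g : Γ} (hg : g ∈ H) (v : V) : R g⁻¹ (R g v) = v := by
  rw [M.app (inv_mem hg) hg, inv_mul_cancel, M.one]; rfl

theorem MO.app_inv (M : MO H R) {g : Γ} (hg : g ∈ H) (v : V) : R g (R g⁻¹ v) = v := by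
  rw [M.app hg (inv_mem hg), mul_inv_cancel, M.one]; rfl

theorem MO.inj (M : MO H R) {g : Γ} (hg : g ∈ H) : Function.Injective (R g) := fun a b h => by
  rw [← M.inv_app hg a, h, M.inv_app hg]

theorem MO.ne_zero (M : MO H R) {g : Γ} (hg : g ∈ H) {v : V} (hv : v ≠ 0) : R g v ≠ 0 := fun h =>
  hv (M.inj hg (by rw [h, map_zero]))

theorem MO.pow (M : MO H R) {g : Γ} (hg : g ∈ H) (n : ℕ) : R (g ^ n) = R g ^ n := by
  induction n with
  | zero => simp [M.one]
  | succ n ih => rw [pow_succ, M.mul _ (pow_mem hg n) _ hg, ih, pow_succ]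

theorem MO.mono (M : MO H R) {H' : Subgroup Γ} (h : H' ≤ H) : MO H' R :=
  ⟨M.one, fun g hg x hx => M.mul g (h hg) x (h hx)⟩

def MO.stab (M : MO H R) (v : V) : Subgroup Γ where
  carrier := {g | g ∈ H ∧ R g v = v}
  one_mem' := ⟨one_mem _, by rw [M.one]; rfl⟩
  mul_mem' := fun {a b} ha hb => ⟨mul_mem ha.1 hb.1, by rw [← M.app ha.1 hb.1, hb.2, ha.2]⟩
  inv_mem' := fun {a} ha => ⟨inv_mem ha.1, by conv_lhs => rw [← ha.2]
                                              exact M.inv_app ha.1 v⟩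

theorem MO.res (M : MO H R) {H' : Subgroup Γ} (h : H' ≤ H) (W : Submodule k V)
    (hW : ∀ g ∈ H', ∀ w ∈ W, R g w ∈ W) :
    ∃ R' : Γ → End k W, MO H' R' ∧ ∀ g ∈ H', ∀ w : W, (R' g w : V) = R g w := by
  classical
  refine ⟨fun g => if hg : g ∈ H' then (R g).restrict (hW g hg) else 1, ⟨?_, fun a ha b hb => ?_⟩,
    fun g hg w => by simp [hg]⟩
  · ext w; simp [M.one]
  · ext w; simp [ha, hb, mul_mem ha hb, M.mul a (h ha) b (h hb)]

variable [FiniteDimensional k V]

theorem MO.le (M : MO H R) {g : Γ} (hg : g ∈ H) {A B : Submodule k V} (h : ∀ w ∈ A, R g w ∈ B) :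
    finrank k A ≤ finrank k B :=
  LinearMap.finrank_le_finrank_of_injective (f := (R g).restrict h) fun _ _ e =>
    Subtype.ext (M.inj hg (congrArg Subtype.val e))

theorem add_le {A B C : Submodule k V} (hA : A ≤ C) (hB : B ≤ C) (h : Disjoint A B) :
    finrank k A + finrank k B ≤ finrank k C := by
  rw [← Submodule.finrank_sup_add_finrank_inf_eq, h.eq_bot, finrank_bot, add_zero]
  exact Submodule.finrank_mono (sup_le hA hB)

omit [FiniteDimensional k V] in
theorem eig_disj (f : End k V) {a b : k} (h : a ≠ b) : Disjoint (f.eigenspace a) (f.eigenspace b) :=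
  f.eigenspaces_iSupIndep.pairwiseDisjoint h

theorem sum_le (f : End k V) (s : Finset k) (W : k → Submodule k V) (X : Submodule k V)
    (hW : ∀ a ∈ s, W a ≤ f.eigenspace a) (hX : ∀ a ∈ s, W a ≤ X) :
    ∑ a ∈ s, finrank k (W a) ≤ finrank k X := by
  classical
  have key : ∀ t : Finset k, t ⊆ s → ∑ a ∈ t, finrank k (W a) ≤ finrank k (⨆ a ∈ t, W a : Submodule k V) := by
    intro t
    induction t using Finset.induction_on with
    | empty => simp
    | insert a t ha ih =>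
      intro h
      rw [Finset.sum_insert ha]
      refine (Nat.add_le_add_left (ih ((Finset.subset_insert _ _).trans h)) _).trans (add_le ?_ ?_ ?_)
      · exact le_iSup₂_of_le a (Finset.mem_insert_self _ _) le_rfl
      · exact iSup₂_le fun b hb => le_iSup₂_of_le b (Finset.mem_insert_of_mem hb) le_rfl
      · refine (f.eigenspaces_iSupIndep.disjoint_biSup (y := (t : Set k)) (x := a) (by simpa using ha)).mono
          (hW a (h (Finset.mem_insert_self _ _))) (iSup₂_le fun b hb => le_iSup₂_of_le b hb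
            (hW b (h (Finset.mem_insert_of_mem hb))))
  exact (key s subset_rfl).trans (Submodule.finrank_mono (iSup₂_le hX))

theorem pos_of_ne {W : Submodule k V} (h : W ≠ ⊥) : 1 ≤ finrank k W := by
  rw [Nat.one_le_iff_ne_zero]; exact fun e => h (Submodule.finrank_eq_zero.mp e)

theorem scal {W : Submodule k V} (h : finrank k W ≤ 1) (f : End k V) (hf : ∀ w ∈ W, f w ∈ W) :
    ∃ c : k, ∀ w ∈ W, f w = c • w := by
  obtain ⟨v, hv⟩ := finrank_le_one_iff.mp h
  obtain ⟨c, hc⟩ := hv ⟨f v, hf _ v.2⟩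
  refine ⟨c, fun w hw => ?_⟩
  obtain ⟨d, hd⟩ := hv ⟨w, hw⟩
  have h1 : d • (v : V) = w := congrArg Subtype.val hd
  have h2 : c • (v : V) = f v := congrArg Subtype.val hc
  rw [← h1, map_smul, ← h2, smul_comm]

theorem exists_eig [IsAlgClosed k] (f : End k V) (W : Submodule k V) (hW : W ≠ ⊥) (hf : ∀ w ∈ W, f w ∈ W) :
    ∃ c : k, ∃ v ∈ W, v ≠ 0 ∧ f v = c • v := by
  haveI : Nontrivial W := Submodule.nontrivial_iff_ne_bot.mpr hW
  obtain ⟨c, hc⟩ := exists_eigenvalue (f.restrict hf)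
  obtain ⟨v, hv⟩ := hc.exists_hasEigenvector
  exact ⟨c, v, v.2, fun e => hv.2 (Subtype.ext e), congrArg Subtype.val hv.apply_eq_smul⟩

theorem exists_eig_ne [IsAlgClosed k] (f : End k V) {m : ℕ} (hm : (m : k) ≠ 0) (h1 : f ^ m = 1) (h2 : f ≠ 1) :
    ∃ c : k, c ≠ 1 ∧ c ^ m = 1 ∧ f.eigenspace c ≠ ⊥ := by
  obtain ⟨c, v, ⟨u, rfl⟩, hv, he⟩ := exists_eig f (LinearMap.range (f - 1))
    (fun e => h2 (sub_eq_zero.mp (LinearMap.range_eq_bot.mp e)))
    (by rintro _ ⟨u, rfl⟩; exact ⟨f u, by simp⟩)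
  have hp : ∀ n : ℕ, (f ^ n) ((f - 1) u) = c ^ n • (f - 1) u := fun n => by
    induction n with
    | zero => simp
    | succ n ih => rw [pow_succ', Module.End.mul_apply, ih, map_smul, he, smul_smul, pow_succ]
  refine ⟨c, ?_, ?_, fun e => hv ?_⟩
  · rintro rfl
    have h3 : (∑ i ∈ Finset.range m, f ^ i) ((f - 1) u) = 0 := by
      rw [← Module.End.mul_apply, geom_sum_mul, h1, sub_self]; rfl
    rw [LinearMap.sum_apply] at h3
    simp only [hp, one_pow, one_smul, Finset.sum_const, Finset.card_range] at h3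
    rw [← Nat.cast_smul_eq_nsmul k] at h3
    exact hv ((smul_eq_zero.mp h3).resolve_left hm)
  · have := hp m
    rw [h1] at this
    have h4 : (c ^ m - 1) • (f - 1) u = 0 := by rw [sub_smul, ← this]; simp
    exact sub_eq_zero.mp ((smul_eq_zero.mp h4).resolve_right hv)
  · have : (f - 1) u ∈ f.eigenspace c := mem_eigenspace_iff.mpr he
    rwa [e] at this

omit [FiniteDimensional k V] in
theorem MO.conj_eig (M : MO H R) {g g' h : Γ} (hg : g ∈ H) (hh : h ∈ H) (hg' : g' ∈ H) {j : ℕ}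
    (e : g' * h = h * g ^ j) {c : k} {v : V} (hv : v ∈ (R g).eigenspace c) :
    R h v ∈ (R g').eigenspace (c ^ j) := by
  rw [mem_eigenspace_iff] at hv ⊢
  have hp : ∀ n : ℕ, (R g ^ n) v = c ^ n • v := fun n => by
    induction n with
    | zero => simp
    | succ n ih => rw [pow_succ', Module.End.mul_apply, ih, map_smul, hv, smul_smul, pow_succ]
  rw [M.app hg' hh, e, ← M.app hh (pow_mem hg j), M.pow hg, hp, map_smul]

omit [FiniteDimensional k V] in
theorem MO.comm_eig (M : MO H R) {g g' h : Γ} (hg : g ∈ H) (hh : h ∈ H) (hg' : g' ∈ H)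
    (e : g' * h = h * g) {c : k} {v : V} (hv : v ∈ (R g).eigenspace c) :
    R h v ∈ (R g').eigenspace c := by
  simpa using M.conj_eig hg hh hg' (j := 1) (by simpa using e) hv

theorem MO.rat [IsAlgClosed k] (M : MO H R) {g h : Γ} (hg : g ∈ H) (hh : h ∈ H) {q j : ℕ} (hq : q.Prime)
    (hk : (q : k) ≠ 0) (h1 : g ^ q = 1) (h2 : R g ≠ 1) (e : g * h = h * g ^ j)
    (hj : ∀ a ∈ Finset.Ioo 0 q, ∃ t < q, j ^ t % q = a) :
    ∃ z : k, IsPrimitiveRoot z q ∧ (∀ a ∈ Finset.Ioo 0 q, (R g).eigenspace (z ^ a) ≠ ⊥) ∧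
      ∑ a ∈ Finset.Ioo 0 q, finrank k ((R g).eigenspace (z ^ a)) ≤ finrank k V := by
  classical
  obtain ⟨z, hz1, hz, hE⟩ := exists_eig_ne (R g) hk (by rw [← M.pow hg, h1, M.one]) h2
  haveI := Fact.mk hq
  have hp : IsPrimitiveRoot z q := by
    have := IsPrimitiveRoot.orderOf z
    rwa [orderOf_eq_prime hz hz1] at this
  have ht : ∀ t : ℕ, (R g).eigenspace (z ^ j ^ t) ≠ ⊥ := fun t => by
    induction t with
    | zero => simpa using hE
    | succ t ih =>
      obtain ⟨v, hv, h0⟩ := (Submodule.ne_bot_iff _).mp ih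
      exact (Submodule.ne_bot_iff _).mpr ⟨_, by rw [pow_succ, pow_mul]; exact M.conj_eig hg hh hg e hv,
        M.ne_zero hh h0⟩
  refine ⟨z, hp, fun a ha => ?_, ?_⟩
  · obtain ⟨t, -, rfl⟩ := hj a ha
    rw [← pow_eq_pow_mod _ hz]; exact ht t
  · rw [← Finset.sum_image (f := fun c => finrank k ((R g).eigenspace c)) (g := fun a => z ^ a)
      fun a ha b hb e => hp.pow_inj (Finset.mem_Ioo.mp ha).2 (Finset.mem_Ioo.mp hb).2 e, ← finrank_top k V]
    exact sum_le (R g) _ _ _ (fun _ _ => le_rfl) fun _ _ => le_top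

end Gen

section Alt
variable {α : Type*} [Fintype α] [DecidableEq α]

def Alt (A : Finset α) : Subgroup (Perm α) where
  carrier := {σ | sign σ = 1 ∧ ∀ x, x ∉ A → σ x = x}
  one_mem' := ⟨by simp, fun _ _ => rfl⟩
  mul_mem' := fun {a b} ha hb => ⟨by rw [map_mul, ha.1, hb.1, one_mul], fun x hx => by
    rw [Perm.mul_apply, hb.2 x hx, ha.2 x hx]⟩
  inv_mem' := fun {a} ha => ⟨by rw [map_inv, ha.1, inv_one], fun x hx => by
    rw [Perm.inv_eq_iff_eq, ha.2 x hx]⟩

theorem Alt_mono {A B : Finset α} (h : A ⊆ B) : Alt A ≤ Alt B := fun _ hs =>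
  ⟨hs.1, fun x hx => hs.2 x fun e => hx (h e)⟩

theorem Alt_apply {A : Finset α} {σ : Perm α} (h : σ ∈ Alt A) {x : α} (hx : x ∈ A) : σ x ∈ A := by
  by_contra e
  exact e (by rw [σ.injective (h.2 _ e)]; exact hx)

omit [Fintype α] in
theorem swap_out {A : Finset α} {a b x : α} (ha : a ∈ A) (hb : b ∈ A) (hx : x ∉ A) : swap a b x = x :=
  swap_apply_of_ne_of_ne (fun e => hx (by rw [e]; exact ha)) fun e => hx (by rw [e]; exact hb)

theorem swap2_mem {A : Finset α} {a b c d : α} (h1 : a ≠ b) (h2 : c ≠ d) (ha : a ∈ A) (hb : b ∈ A) (hc : c ∈ A)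
    (hd : d ∈ A) : swap a b * swap c d ∈ Alt A :=
  ⟨by simp [sign_swap h1, sign_swap h2], fun x hx => by
    rw [Perm.mul_apply, swap_out hc hd hx, swap_out ha hb hx]⟩

theorem Alt_comm {A B : Finset α} (h : Disjoint A B) {σ τ : Perm α} (hσ : σ ∈ Alt A) (hτ : τ ∈ Alt B) :
    σ * τ = τ * σ :=
  (show Perm.Disjoint σ τ from fun x => by
    by_cases hx : x ∈ A
    · exact Or.inr (hτ.2 x (Finset.disjoint_left.mp h hx))
    · exact Or.inl (hσ.2 x hx)).commute

theorem Alt_sub {A : Finset α} {σ : Perm α} (h : σ ∈ Alt A) :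
    ∃ t : alternatingGroup A, Perm.ofSubtype t.1 = σ := by
  obtain ⟨t, ht⟩ := (alternatingGroup.mem_range_ofSubtype_iff A ⟨σ, h.1⟩).mpr fun x hx => by
    by_contra e
    exact (mem_support.mp hx) (h.2 x e)
  exact ⟨t, congrArg Subtype.val ht⟩

theorem sub_Alt {A : Finset α} (t : alternatingGroup A) : Perm.ofSubtype t.1 ∈ Alt A :=
  ⟨by rw [sign_ofSubtype]; exact t.2, fun x hx => ofSubtype_apply_of_not_mem _ hx⟩

theorem gen {A : Finset α} {p q : α} (h : p ≠ q) (hp : p ∈ A) (hq : q ∈ A) (N : Subgroup (Perm α))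
    (hN : ∀ i ∈ A, i ≠ p → i ≠ q → swap i p * swap p q ∈ N) : Alt A ≤ N := by
  intro σ hσ
  obtain ⟨t, rfl⟩ := Alt_sub hσ
  have h' : (⟨p, hp⟩ : A) ≠ ⟨q, hq⟩ := fun e => h (congrArg Subtype.val e)
  have : (⊤ : Subgroup (alternatingGroup A)) ≤ N.comap (Perm.ofSubtype.comp (alternatingGroup A).subtype) := by
    rw [← CA.SchurCarm.closure_cyc h', Subgroup.closure_le]
    rintro _ ⟨i, rfl⟩
    show Perm.ofSubtype (CA.SchurCarm.cyc i.1 _ _).1 ∈ N
    rw [CA.SchurCarm.cyc_val i.2.1 h', map_mul, ofSubtype_swap_eq, ofSubtype_swap_eq]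
    exact hN _ i.1.2 (fun e => i.2.1 (Subtype.ext e)) fun e => i.2.2 (Subtype.ext e)
  exact this (Subgroup.mem_top t)

theorem simple {A : Finset α} (h5 : 5 ≤ A.card) (N : Subgroup (Perm α))
    (hN : ∀ g ∈ Alt A, ∀ x ∈ N, g * x * g⁻¹ ∈ N) {σ : Perm α} (hσ : σ ∈ Alt A) (h1 : σ ≠ 1) (h2 : σ ∈ N) :
    Alt A ≤ N := by
  haveI := alternatingGroup.isSimpleGroup (α := A) (by simpa using h5)
  let K := N.comap (Perm.ofSubtype.comp (alternatingGroup A).subtype)
  have hK : K.Normal := ⟨fun x hx g => by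
    show (Perm.ofSubtype.comp (alternatingGroup A).subtype) _ ∈ N
    rw [map_mul, map_mul, map_inv]
    exact hN _ (sub_Alt g) _ hx⟩
  obtain ⟨t, rfl⟩ := Alt_sub hσ
  rcases hK.eq_bot_or_eq_top with e | e
  · have : t ∈ K := h2
    rw [e, Subgroup.mem_bot] at this
    exact absurd (by rw [this]; simp) h1
  · intro τ hτ
    obtain ⟨s, rfl⟩ := Alt_sub hτ
    exact (e ▸ Subgroup.mem_top s : s ∈ K)

theorem exists_two {A : Finset α} (B : Finset α) (h : B.card + 2 ≤ A.card) :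
    ∃ p q, p ≠ q ∧ p ∈ A ∧ q ∈ A ∧ p ∉ B ∧ q ∉ B := by
  have : 1 < (A \ B).card := by have := Finset.le_card_sdiff B A; omega
  obtain ⟨p, hp, q, hq, h⟩ := Finset.one_lt_card.mp this
  rw [Finset.mem_sdiff] at hp hq
  exact ⟨p, q, h, hp.1, hq.1, hp.2, hq.2⟩

theorem trans2 {A : Finset α} (h4 : 4 ≤ A.card) {a b i j : α} (h1 : a ≠ b) (h2 : i ≠ j) (ha : a ∈ A) (hb : b ∈ A)
    (hi : i ∈ A) (hj : j ∈ A) : ∃ g ∈ Alt A, g a = i ∧ g b = j := by
  have hb' : swap a i b ∈ A := by rw [swap_apply_def]; split_ifs <;> assumption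
  have e1 : (swap (swap a i b) j * swap a i) a = i := by
    rw [Perm.mul_apply, swap_apply_left, swap_apply_of_ne_of_ne _ h2]
    exact fun e => h1 ((swap a i).injective (by rw [swap_apply_left]; exact e))
  have e2 : (swap (swap a i b) j * swap a i) b = j := by rw [Perm.mul_apply, swap_apply_left]
  have e3 : ∀ x, x ∉ A → (swap (swap a i b) j * swap a i) x = x := fun x hx => by
    rw [Perm.mul_apply, swap_out ha hi hx, swap_out hb' hj hx]
  rcases Int.units_eq_one_or (sign (swap (swap a i b) j * swap a i)) with e | e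
  · exact ⟨_, ⟨e, e3⟩, e1, e2⟩
  obtain ⟨p, q, hpq, hp, hq, hp', hq'⟩ := exists_two (A := A) {a, b} (by rw [Finset.card_pair h1]; omega)
  simp only [Finset.mem_insert, Finset.mem_singleton, not_or] at hp' hq'
  refine ⟨swap (swap a i b) j * swap a i * swap p q, ⟨by rw [map_mul, e, sign_swap hpq]; simp, fun x hx => ?_⟩, ?_, ?_⟩
  · rw [Perm.mul_apply, swap_out hp hq hx, e3 x hx]
  · rw [Perm.mul_apply, swap_apply_of_ne_of_ne (Ne.symm hp'.1) (Ne.symm hq'.1), e1]
  · rw [Perm.mul_apply, swap_apply_of_ne_of_ne (Ne.symm hp'.2) (Ne.symm hq'.2), e2]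

/-- Transport of small permutations. -/
noncomputable def E {m : ℕ} (e : Fin m ↪ α) : Perm (Fin m) →* Perm α := viaEmbeddingHom e

theorem E_inj {m : ℕ} (e : Fin m ↪ α) : Function.Injective (E e) := viaEmbeddingHom_injective e

theorem E_apply {m : ℕ} (e : Fin m ↪ α) (σ : Perm (Fin m)) (i : Fin m) : E e σ (e i) = e (σ i) :=
  viaEmbedding_apply σ e i

theorem E_mem {m : ℕ} (e : Fin m ↪ α) {σ : Perm (Fin m)} {A : Finset α} (h : sign σ = 1)
    (hA : ∀ i, σ i ≠ i → e i ∈ A) : E e σ ∈ Alt A := by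
  refine ⟨?_, fun x hx => ?_⟩
  · rw [← h]
    classical
    exact (by convert sign_extendDomain σ (e.toEquivRange) using 2
              ext x
              by_cases hx : x ∈ Set.range e
              · obtain ⟨i, rfl⟩ := hx
                rw [E_apply]
                exact (extendDomain_apply_image σ e.toEquivRange i).symm
              · rw [extendDomain_apply_not_subtype _ _ hx]
                exact viaEmbedding_apply_of_notMem σ e x hx)
  · by_cases h1 : x ∈ Set.range e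
    · obtain ⟨i, rfl⟩ := h1
      rw [E_apply]
      by_contra h2
      exact hx (hA i fun h3 => h2 (by rw [h3]))
    · exact viaEmbedding_apply_of_notMem σ e x h1

theorem E_mem' {m : ℕ} (e : Fin m ↪ α) {S : Finset α} (hS : ∀ i, e i ∈ S) {σ : Perm (Fin m)} (h : sign σ = 1) :
    E e σ ∈ Alt S := E_mem e h fun i _ => hS i

theorem E_in {m : ℕ} (e : Fin m ↪ α) {σ : Perm (Fin m)} (T : Finset (Fin m))
    (h : sign σ = 1 ∧ ∀ i, i ∉ T → σ i = i) : E e σ ∈ Alt (T.map e) :=
  E_mem e h.1 fun i hi => Finset.mem_map_of_mem e (by by_contra e; exact hi (h.2 i e))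

theorem E_out {m : ℕ} (e : Fin m ↪ α) {S : Finset α} (hS : ∀ i, e i ∈ S) {σ : Perm (Fin m)} (T : Finset (Fin m))
    (h : sign σ = 1 ∧ ∀ i ∈ T, σ i = i) : E e σ ∈ Alt (S \ T.map e) :=
  E_mem e h.1 fun i hi => Finset.mem_sdiff.mpr ⟨hS i, fun e' => hi (h.2 i (by simpa using e'))⟩

omit [Fintype α] in
theorem exists_emb {S T : Finset α} (hT : T ⊆ S) {m j : ℕ} (hj : T.card = j) (hjm : j ≤ m) (hm : m ≤ S.card) :
    ∃ e : Fin m ↪ α, (∀ i, e i ∈ S) ∧ (Finset.univ.filter fun i : Fin m => i.1 < j).map e = T := by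
  obtain ⟨U, hU, hc⟩ := Finset.exists_subset_card_eq (s := S \ T) (n := m - j) (by
    rw [Finset.card_sdiff_of_subset hT]; omega)
  let a := (Finset.equivFinOfCardEq hj).symm
  let b := (Finset.equivFinOfCardEq hc).symm
  have hb : ∀ x, (b x : α) ∉ T := fun x => (Finset.mem_sdiff.mp (hU (b x).2)).2
  refine ⟨⟨fun i => if h : i.1 < j then a ⟨i, h⟩ else b ⟨i - j, by omega⟩, fun x y h => ?_⟩, fun i => ?_, ?_⟩
  · by_cases hx : x.1 < j <;> by_cases hy : y.1 < j <;> simp only [hx, hy, dite_true, dite_false] at h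
    · exact Fin.ext (Fin.mk.inj (a.injective (Subtype.ext h)))
    · exact absurd (h ▸ (a _).2) (hb _)
    · exact absurd (h ▸ (a _).2) (hb _)
    · have := congrArg Fin.val (b.injective (Subtype.ext h))
      exact Fin.ext (by simp only at this; omega)
  · show dite _ _ _ ∈ S
    split_ifs
    exacts [hT (a _).2, (Finset.mem_sdiff.mp (hU (b _).2)).1]
  · ext x
    simp only [Finset.mem_map, Finset.mem_filter, Finset.mem_univ, true_and, Function.Embedding.coeFn_mk]
    constructor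
    · rintro ⟨i, hi, rfl⟩
      show dite _ _ _ ∈ T
      rw [dif_pos hi]; exact (a _).2
    · intro hx
      obtain ⟨i, hi⟩ := a.surjective ⟨x, hx⟩
      refine ⟨⟨i, by omega⟩, i.2, ?_⟩
      show dite _ _ _ = x
      rw [dif_pos i.2]; exact congrArg Subtype.val hi

end Alt

end CA.H4Alt
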