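/-
Representations of alternating groups: fixed spaces of Young subgroups.
-/
import Cfsg.Agent.Lib.Perm.H4Alt1

set_option autoImplicit false

namespace CA.H4Alt

open Module Module.End Equiv Equiv.Perm Finset

variable {k V α : Type*} [Field k] [AddCommGroup V] [Module k V] [Fintype α] [DecidableEq α]

def Fx (R : Perm α → End k V) (A : Finset α) : Submodule k V where
  carrier := {v | ∀ σ ∈ Alt A, R σ v = v}
  add_mem' := fun ha hb σ h => by rw [map_add, ha σ h, hb σ h]
  zero_mem' := fun _ _ => map_zero _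
  smul_mem' := fun c _ ha σ h => by rw [map_smul, ha σ h]

variable {R : Perm α → End k V} {S : Finset α}

theorem Fx_anti {A B : Finset α} (h : A ⊆ B) : Fx R B ≤ Fx R A := fun _ hv σ hσ => hv σ (Alt_mono h hσ)

theorem join (M : MO (Alt S) R) {A : Finset α} (hA : A ⊆ S) {p q : α} (h : p ≠ q) (hp : p ∈ A) (hq : q ∈ A) {v : V}
    (hv : ∀ i ∈ A, ∃ B, v ∈ Fx R B ∧ i ∈ B ∧ p ∈ B ∧ q ∈ B) : v ∈ Fx R A := fun σ hσ =>
  (gen h hp hq (M.stab v) (fun i hi h1 _ => ⟨swap2_mem h1 h (hA hi) (hA hp) (hA hp) (hA hq), by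
    obtain ⟨B, hB, a, b, c⟩ := hv i hi
    exact hB _ (swap2_mem h1 h a b b c)⟩) hσ).2

theorem conj_fix (M : MO (Alt S) R) {A B : Finset α} (hB : B ⊆ S) {g : Perm α} (hg : g ∈ Alt S) {v : V}
    (hv : v ∈ Fx R A) (h : ∀ y, g y ∈ B → y ∈ A) : R g v ∈ Fx R B := fun ξ hξ => by
  have h1 : g⁻¹ * ξ * g ∈ Alt A := ⟨by simp [hg.1, hξ.1], fun y hy => by
    rw [Perm.mul_apply, Perm.mul_apply, hξ.2 _ fun e => hy (h y e)]; simp⟩
  have h2 := Alt_mono hB hξ
  conv_rhs => rw [← hv _ h1]
  rw [M.app h2 hg, M.app hg (mul_mem (mul_mem (inv_mem hg) h2) hg)]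
  congr 2; group

theorem step (M : MO (Alt S) R) {A : Finset α} (hA : A ⊆ S) {a : α} (ha : a ∈ A) (h3 : 3 ≤ #A) (h2 : #A + 2 ≤ #S)
    (h : Fx R (A.erase a) ≤ Fx R A) : Fx R A ≤ Fx R S := fun v hv => by
  obtain ⟨p, q, hpq, hp, hq, hp', hq'⟩ := exists_two (A := A) {a} (by simpa using h3)
  rw [mem_singleton] at hp' hq'
  refine join M subset_rfl hpq (hA hp) (hA hq) fun b hb => ?_
  by_cases hbA : b ∈ A
  · exact ⟨A, hv, hbA, hp, hq⟩
  obtain ⟨c, hc, hcA⟩ : ∃ c ∈ S, c ∉ insert b A := exists_mem_notMem_of_card_lt_card (by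
    rw [card_insert_of_notMem hbA]; omega)
  rw [mem_insert, not_or] at hcA
  have hab : a ≠ b := fun e => hbA (e ▸ ha)
  have hg : swap a b * swap b c ∈ Alt S := swap2_mem hab (Ne.symm hcA.1) (hA ha) hb hb hc
  have hfix : ∀ z ∈ A.erase a, (swap a b * swap b c) z = z := fun z hz => by
    rw [mem_erase] at hz
    have h1 : z ≠ b := fun e => hbA (e ▸ hz.2)
    rw [Perm.mul_apply, swap_apply_of_ne_of_ne h1 (show z ≠ c from fun e => hcA.2 (e ▸ hz.2)),
      swap_apply_of_ne_of_ne hz.1 h1]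
  have hga : (swap a b * swap b c) a = b := by
    rw [Perm.mul_apply, swap_apply_of_ne_of_ne hab (show a ≠ c from fun e => hcA.2 (e ▸ ha)), swap_apply_left]
  refine ⟨insert b (A.erase a), ?_, mem_insert_self _ _, mem_insert_of_mem (mem_erase.mpr ⟨hp', hp⟩),
    mem_insert_of_mem (mem_erase.mpr ⟨hq', hq⟩)⟩
  rw [← M.app_inv hg v]
  refine conj_fix M (insert_subset hb ((erase_subset _ _).trans hA)) hg (h (conj_fix M
    ((erase_subset _ _).trans hA) (inv_mem hg) hv fun y hy => ?_)) fun y hy => ?_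
  · have := hfix _ hy
    rw [← Perm.mul_apply, mul_inv_cancel, Perm.one_apply] at this
    rw [this]; exact mem_of_mem_erase hy
  · rcases mem_insert.mp hy with e | e
    · rw [(swap a b * swap b c).injective (e.trans hga.symm)]; exact ha
    · rw [← (swap a b * swap b c).injective (hfix _ e)]; exact mem_of_mem_erase e

variable [FiniteDimensional k V]

theorem chain (M : MO (Alt S) R) {A' : Finset α} (h2 : 2 ≤ #A') (n : ℕ) : ∀ A : Finset α, A ⊆ S → A' ⊆ A →
    #A = #A' + n → #A + 2 ≤ #S → finrank k (Fx R S) < finrank k (Fx R A) →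
    finrank k (Fx R A) + n ≤ finrank k (Fx R A') := by
  induction n with
  | zero => intro A _ h1 h3 _ _; rw [eq_of_subset_of_card_le h1 (by omega)]; rfl
  | succ n ih =>
    intro A hA h1 h3 h4 h5
    obtain ⟨a, ha, ha'⟩ : ∃ a ∈ A, a ∉ A' := exists_mem_notMem_of_card_lt_card (by omega)
    have h6 : finrank k (Fx R A) < finrank k (Fx R (A.erase a)) :=
      Submodule.finrank_lt_finrank_of_lt (lt_of_le_not_ge (Fx_anti (erase_subset _ _)) fun h =>
        absurd (Submodule.finrank_mono (step M hA ha (by omega) h4 h)) (by omega))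
    have := ih (A.erase a) ((erase_subset _ _).trans hA) (subset_erase.mpr ⟨h1, ha'⟩)
      (by rw [card_erase_of_mem ha]; omega) (by rw [card_erase_of_mem ha]; omega) (by omega)
    omega

def PP (R : Perm α → End k V) (S : Finset α) (j : ℕ) : Prop :=
  (∀ T ⊆ S, #T = j → finrank k (Fx R (S \ T)) + 1 = j) ∧ ∀ U ⊆ S, #U = j + 1 → finrank k (Fx R (S \ U)) ≤ j

theorem descend (M : MO (Alt S) R) (h0 : finrank k (Fx R S) = 0) {j : ℕ} (hj : 2 ≤ j) (hn : j + 4 ≤ #S)
    (h : PP R S (j + 1)) : PP R S j := by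
  refine ⟨fun T hT hc => ?_, fun U hU hc => by have := h.1 U hU hc; omega⟩
  obtain ⟨a, b, hab, ha, hb, ha', hb'⟩ := exists_two (A := S) T (by omega)
  have hU : a ∉ insert b T := by simp [hab, ha']
  have c1 : #(insert a T) = j + 1 := by rw [card_insert_of_notMem ha', hc]
  have c2 : #(insert b T) = j + 1 := by rw [card_insert_of_notMem hb', hc]
  have c3 : #(insert a (insert b T)) = j + 1 + 1 := by rw [card_insert_of_notMem hU, c2]
  obtain ⟨p, q, hpq, hp, hq, hp', hq'⟩ := exists_two (A := S) (insert a (insert b T)) (by omega)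
  simp only [mem_insert, not_or] at hp' hq'
  have h1 := h.1 _ (insert_subset ha hT) c1
  have h2 := h.1 _ (insert_subset hb hT) c2
  have h3 := h.2 _ (insert_subset ha (insert_subset hb hT)) c3
  have h4 := Submodule.finrank_sup_add_finrank_inf_eq (Fx R (S \ insert a T)) (Fx R (S \ insert b T))
  have h5 : finrank k (Fx R (S \ insert a T) ⊔ Fx R (S \ insert b T) : Submodule k V) ≤ _ :=
    Submodule.finrank_mono (sup_le (Fx_anti (sdiff_subset_sdiff subset_rfl (insert_subset_insert a (subset_insert b T))))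
      (Fx_anti (sdiff_subset_sdiff subset_rfl (subset_insert a _))))
  have h6 : finrank k (Fx R (S \ insert a T) ⊓ Fx R (S \ insert b T) : Submodule k V) ≤ finrank k (Fx R (S \ T)) :=
    Submodule.finrank_mono fun v hv => join M sdiff_subset hpq (mem_sdiff.mpr ⟨hp, hp'.2.2⟩)
      (mem_sdiff.mpr ⟨hq, hq'.2.2⟩) fun i hi => by
        rw [mem_sdiff] at hi
        by_cases e : i = a
        · exact ⟨_, hv.2, by simp [e, ha, hab, ha'], by simp [hp, hp'], by simp [hq, hq']⟩
        · exact ⟨_, hv.1, by simp [e, hi], by simp [hp, hp'], by simp [hq, hq']⟩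
  have c4 := card_sdiff_of_subset hT
  have c5 := card_sdiff_of_subset (insert_subset ha hT)
  have := chain M (A' := S \ insert a T) (by omega) 1 (S \ T) sdiff_subset
    (sdiff_subset_sdiff subset_rfl (subset_insert _ _)) (by omega) (by omega) (by omega)
  omega

theorem cocycle {u : V} {P : Submodule k V} (hP : finrank k P ≤ 2) (x s : End k V) (h1 : u ∈ P) (h2 : x u ∈ P)
    (h3 : x (x u) ∈ P) (hx : x (x (x u)) = u) (hi : ∀ a b : k, a • u + b • x u = 0 → a = 0 ∧ b = 0) {c : k}
    (s1 : s u = c • u) (s2 : s (x u) = c • x (x u)) (s3 : s (x (x u)) = c • x u) (hc : c ≠ 0) :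
    u + x u + x (x u) = 0 := by
  have hd : ¬ LinearIndependent k ![(⟨u, h1⟩ : P), ⟨_, h2⟩, ⟨_, h3⟩] := fun h => by
    have := h.fintype_card_le_finrank
    rw [Fintype.card_fin] at this; omega
  obtain ⟨g, hg, i, hi'⟩ := Fintype.not_linearIndependent_iff.mp hd
  have hg' : g 0 • u + g 1 • x u + g 2 • x (x u) = 0 := by
    simpa [Fin.sum_univ_three] using congrArg Subtype.val hg
  have h2' : g 2 ≠ 0 := fun e => by
    rw [e, zero_smul, add_zero] at hg'
    obtain ⟨e0, e1⟩ := hi _ _ hg'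
    fin_cases i <;> contradiction
  obtain ⟨a, b, hab⟩ : ∃ a b : k, x (x u) = a • u + b • x u :=
    ⟨-(g 0 / g 2), -(g 1 / g 2), smul_right_injective V h2' (by
      simp only [smul_add, smul_smul, mul_neg, mul_div_cancel₀ _ h2']
      linear_combination (norm := module) hg')⟩
  have e1 := congrArg x hab
  rw [hx, map_add, map_smul, map_smul, hab] at e1
  obtain ⟨f1, f2⟩ := hi (a * b - 1) (a + b * b) (by linear_combination (norm := module) -e1)
  have e2 := congrArg s hab
  rw [s3, map_add, map_smul, map_smul, s1, s2, hab] at e2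
  obtain ⟨f3, -⟩ := hi (c * (a + a * b)) (c * (b * b - 1)) (by linear_combination (norm := module) -e2)
  have f4 : a = -1 := by linear_combination (mul_eq_zero.mp f3).resolve_left hc - f1
  have f5 : b = -1 := by rw [f4] at f1; linear_combination -f1
  rw [hab, f4, f5]; module

theorem endgame (M : MO (Alt S) R) (hn : 6 ≤ #S) (h0 : finrank k (Fx R S) = 0) (h : PP R S 2) : ((#S : ℕ) : k) = 0 := by
  have h0' : ∀ v ∈ Fx R S, v = 0 := fun v hv => by rwa [Submodule.finrank_eq_zero.mp h0] at hv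
  obtain ⟨a, b, hab, ha, hb, -⟩ := exists_two (A := S) ∅ (by simp; omega)
  have hP : ∀ i ∈ S, ∀ j ∈ S, i ≠ j → finrank k (Fx R (S \ {i, j})) = 1 := fun i hi j hj hij => by
    have := h.1 {i, j} (by simp [insert_subset_iff, hi, hj]) (card_pair hij); omega
  obtain ⟨w, hw, hw0⟩ := (Submodule.ne_bot_iff (Fx R (S \ {a, b}))).mp fun e => by
    have := hP a ha b hb hab
    rw [e, finrank_bot] at this; omega
  have hg : ∀ i j, ∃ g ∈ Alt S, (i ∈ S ∧ j ∈ S ∧ i ≠ j → g a = i ∧ g b = j) := fun i j => by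
    by_cases h : i ∈ S ∧ j ∈ S ∧ i ≠ j
    · obtain ⟨g, h1, h2⟩ := trans2 (by omega) hab h.2.2 ha hb h.1 h.2.1
      exact ⟨g, h1, fun _ => h2⟩
    · exact ⟨1, one_mem _, fun e => absurd e h⟩
  choose g hg1 hg2 using hg
  let v : α → α → V := fun i j => if i = j then 0 else R (g i j) w
  have v0 : ∀ i j, i ≠ j → v i j ≠ 0 := fun i j h => by simpa [v, h] using M.ne_zero (hg1 i j) hw0
  have ve : ∀ σ ∈ Alt S, ∀ i ∈ S, ∀ j ∈ S, R σ (v i j) = v (σ i) (σ j) := fun σ hσ i hi j hj => by
    by_cases hij : i = j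
    · simp [v, hij]
    have hij' : σ i ≠ σ j := σ.injective.ne hij
    obtain ⟨e1, e2⟩ := hg2 i j ⟨hi, hj, hij⟩
    obtain ⟨e3, e4⟩ := hg2 _ _ ⟨Alt_apply hσ hi, Alt_apply hσ hj, hij'⟩
    have h1 := mul_mem (inv_mem (hg1 (σ i) (σ j))) (mul_mem hσ (hg1 i j))
    have h2 := hw ((g (σ i) (σ j))⁻¹ * (σ * g i j)) ⟨h1.1, fun x hx => by
      by_cases hS : x ∈ S
      · rw [Perm.mul_apply, Perm.inv_eq_iff_eq, Perm.mul_apply]
        simp only [mem_sdiff, hS, true_and, not_not, mem_insert, mem_singleton] at hx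
        rcases hx with rfl | rfl
        · rw [e1, e3]
        · rw [e2, e4]
      · exact h1.2 x hS⟩
    simp only [v, hij, hij', if_false]
    conv_rhs => rw [← h2]
    rw [M.app hσ (hg1 i j), M.app (hg1 _ _) h1, mul_inv_cancel_left]
  have vf : ∀ i ∈ S, ∀ j ∈ S, v i j ∈ Fx R (S \ {i, j}) := fun i hi j hj σ hσ => by
    rw [ve σ (Alt_mono sdiff_subset hσ) i hi j hj, hσ.2 i (by simp), hσ.2 j (by simp)]
  have vc : ∀ i ∈ S, ∀ j ∈ S, ∀ l ∈ S, i ≠ j → j ≠ l → i ≠ l → v i j + v j l + v l i = 0 := by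
    intro i hi j hj l hl h1 h2 h3
    have c3 : #({i, j, l} : Finset α) = 3 := card_eq_three.mpr ⟨i, j, l, h1, h3, h2, rfl⟩
    obtain ⟨p, q, hpq, hp, hq, hp', hq'⟩ := exists_two (A := S) {i, j, l} (by omega)
    simp only [mem_insert, mem_singleton, not_or] at hp' hq'
    have hx := swap2_mem h1 h2 hi hj hj hl
    have hs := swap2_mem h1 hpq hi hj hp hq
    have x1 : (swap i j * swap j l) i = j := by simp [swap_apply_of_ne_of_ne h1 h3]
    have x2 : (swap i j * swap j l) j = l := by simp [swap_apply_of_ne_of_ne h3.symm h2.symm]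
    have x3 : (swap i j * swap j l) l = i := by simp
    have s1 : (swap i j * swap p q) i = j := by simp [swap_apply_of_ne_of_ne (Ne.symm hp'.1) (Ne.symm hq'.1)]
    have s2 : (swap i j * swap p q) j = i := by simp [swap_apply_of_ne_of_ne (Ne.symm hp'.2.1) (Ne.symm hq'.2.1)]
    have s3 : (swap i j * swap p q) l = l := by
      simp [swap_apply_of_ne_of_ne (Ne.symm hp'.2.2) (Ne.symm hq'.2.2), swap_apply_of_ne_of_ne h3.symm h2.symm]
    have y1 := ve _ hx i hi j hj
    have y2 := ve _ hx j hj l hl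
    have y3 := ve _ hx l hl i hi
    have y4 := ve _ hx j hj i hi
    have y5 := ve _ hx l hl j hj
    rw [x1, x2] at y1 y4
    rw [x2, x3] at y2 y5
    rw [x3, x1] at y3
    obtain ⟨c, hc⟩ := scal (hP i hi j hj h1).le (R (swap i j * swap p q)) fun u hu =>
      conj_fix M sdiff_subset hs hu fun y hy => by
        simp only [mem_sdiff, mem_insert, mem_singleton, not_or] at hy ⊢
        refine ⟨by_contra fun e => e (hs.2 y e ▸ hy.1), ?_, ?_⟩ <;> rintro rfl
        exacts [hy.2.2 s1, hy.2.1 s2]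
    have z1 := hc _ (vf i hi j hj)
    have z2 := z1
    rw [ve _ hs i hi j hj, s1, s2] at z2
    have z3 := congrArg (R (swap i j * swap j l)) z2
    rw [y4, map_smul, y1] at z3
    have z4 := congrArg (R (swap i j * swap j l)) z3
    rw [y5, map_smul, y2] at z4
    have sub : ∀ {a b : α}, ({a, b} : Finset α) ⊆ {i, j, l} → Fx R (S \ {a, b}) ≤ Fx R (S \ {i, j, l}) :=
      fun h => Fx_anti (sdiff_subset_sdiff subset_rfl h)
    have := cocycle (h.2 {i, j, l} (by simp [insert_subset_iff, hi, hj, hl]) c3) (R (swap i j * swap j l))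
      (R (swap i j * swap p q)) (sub (by simp) (vf i hi j hj))
      (by rw [y1]; exact sub (by simp [insert_subset_iff]) (vf j hj l hl))
      (by rw [y1, y2]; exact sub (by simp [insert_subset_iff]) (vf l hl i hi)) (by rw [y1, y2, y3]) ?_ z1
      (by rw [y1, y2, ve _ hs j hj l hl, s2, s3, z4]) (by rw [y1, y2, ve _ hs l hl i hi, s3, s1, z3])
      (fun e => v0 j i h1.symm (by rw [z2, e, zero_smul]))
    · rwa [y1, y2] at this
    intro a b hab
    rw [y1] at hab
    by_cases e : a = 0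
    · rw [e, zero_smul, zero_add] at hab
      exact ⟨e, (smul_eq_zero.mp hab).resolve_right (v0 _ _ h2)⟩
    exfalso
    have t1 : v i j = (-(b / a)) • v j l := smul_right_injective V e (by
      simp only [smul_smul, mul_neg, mul_div_cancel₀ _ e]
      linear_combination (norm := module) hab)
    have t2 := congrArg (R (swap i j * swap j l)) t1
    rw [y1, map_smul, y2] at t2
    refine v0 i j h1 (h0' _ (join M subset_rfl hpq hp hq fun y hy => ?_))
    by_cases e1 : y = i
    · exact ⟨_, t1 ▸ Submodule.smul_mem _ _ (vf j hj l hl), by simp [e1, hi, h1, h3], by simp [hp, hp'], by simp [hq, hq']⟩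
    by_cases e2 : y = j
    · exact ⟨S \ {l, i}, by rw [t1, t2]; exact Submodule.smul_mem _ _ (Submodule.smul_mem _ _ (vf l hl i hi)),
        by simp [e2, hj, h1.symm, h2], by simp [hp, hp'], by simp [hq, hq']⟩
    · exact ⟨_, vf i hi j hj, by simp [hy, e1, e2], by simp [hp, hp'], by simp [hq, hq']⟩
  have va : ∀ i ∈ S, ∀ j ∈ S, v i j + v j i = 0 := fun i hi j hj => by
    by_cases hij : i = j
    · simp [v, hij]
    obtain ⟨c, d, hcd, hc, hd, hc', hd'⟩ := exists_two (A := S) {i, j} (by rw [card_pair hij]; omega)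
    obtain ⟨p, q, hpq, hp, hq, hp', hq'⟩ := exists_two (A := S) {i, j, c, d} (by have := card_le_four (a := i) (b := j) (c := c) (d := d); omega)
    simp only [mem_insert, mem_singleton, not_or] at hp' hq' hc' hd'
    have e1 := vc i hi c hc j hj (Ne.symm hc'.1) hc'.2 hij
    have e2 := vc i hi j hj d hd hij (Ne.symm hd'.2) (Ne.symm hd'.1)
    have e3 := vc i hi c hc d hd (Ne.symm hc'.1) hcd (Ne.symm hd'.1)
    have e4 := vc c hc j hj d hd hc'.2 (Ne.symm hd'.2) hcd
    have e5 : v i j + v j i = v c d + v d c := by linear_combination (norm := module) e1 + e2 - e3 - e4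
    refine h0' _ (join M subset_rfl hpq hp hq fun y hy => ?_)
    by_cases e : y = i ∨ y = j
    · refine ⟨S \ {c, d}, e5 ▸ add_mem (vf c hc d hd) (pair_comm d c ▸ vf d hd c hc), ?_, by simp [hp, hp'], by simp [hq, hq']⟩
      rcases e with rfl | rfl <;> simp [hy, Ne.symm hc'.1, Ne.symm hc'.2, Ne.symm hd'.1, Ne.symm hd'.2]
    · exact ⟨S \ {i, j}, add_mem (vf i hi j hj) (pair_comm j i ▸ vf j hj i hi), by simpa [hy] using e,
        by simp [hp, hp'], by simp [hq, hq']⟩
  have vu : ∀ i ∈ S, ∑ j ∈ S, v i j = 0 := fun i hi => by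
    by_contra hu
    have hf : ∑ j ∈ S, v i j ∈ Fx R (S \ {i}) := fun σ hσ => by
      have hσ' := Alt_mono sdiff_subset hσ
      rw [map_sum]
      refine sum_bij (fun j _ => σ j) (fun j hj => Alt_apply hσ' hj) (fun _ _ _ _ e => σ.injective e)
        (fun j hj => ⟨σ⁻¹ j, Alt_apply (inv_mem hσ') hj, by simp⟩) fun j hj => by
          rw [ve σ hσ' i hi j hj, hσ.2 i (by simp)]
    obtain ⟨j, l, hjl, hj, hl, hj', hl'⟩ := exists_two (A := S) {i} (by simp; omega)
    obtain ⟨p, -, -, hp, -, hp', -⟩ := exists_two (A := S) {i, j, l} (by have := card_le_three (a := i) (b := j) (c := l); omega)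
    simp only [mem_insert, mem_singleton, not_or] at hp' hj' hl'
    obtain ⟨t, ht⟩ := (finrank_eq_one_iff_of_nonzero' (⟨_, Fx_anti (sdiff_subset_sdiff subset_rfl (by simp)) hf⟩ :
      Fx R (S \ {i, j})) fun e => hu (congrArg Subtype.val e)).mp (hP i hi j hj (Ne.symm hj')) ⟨_, vf i hi j hj⟩
    have ht' : t • ∑ j ∈ S, v i j = v i j := congrArg Subtype.val ht
    have hx : swap j l * swap l p ∈ Alt (S \ {i}) :=
      swap2_mem hjl (Ne.symm hp'.2.2) (by simp [hj, hj']) (by simp [hl, hl']) (by simp [hl, hl']) (by simp [hp, hp'])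
    have e1 := (ht' ▸ Submodule.smul_mem _ t hf : v i j ∈ Fx R (S \ {i})) _ hx
    rw [ve _ (Alt_mono sdiff_subset hx) i hi j hj, hx.2 i (by simp), show (swap j l * swap l p) j = l by
      simp [swap_apply_of_ne_of_ne hjl (Ne.symm hp'.2.1)]] at e1
    exact v0 j l hjl (by linear_combination (norm := module) vc i hi j hj l hl (Ne.symm hj') hjl (Ne.symm hl') - va i hi l hl + e1)
  have e : ∑ j ∈ S, v a j = ∑ j ∈ S, (v a b + v b j) := sum_congr rfl fun j hj => by
    by_cases e1 : j = a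
    · rw [e1, va a ha b hb]; simp [v]
    by_cases e2 : j = b
    · rw [e2]; simp [v]
    linear_combination (norm := module) va a ha j hj - vc a ha b hb j hj hab (Ne.symm e2) (Ne.symm e1)
  rw [sum_add_distrib, vu a ha, vu b hb, add_zero, sum_const, ← Nat.cast_smul_eq_nsmul k] at e
  exact (smul_eq_zero.mp e.symm).resolve_right (v0 a b hab)

def Bd (k : Type*) [Field k] (n d : ℕ) : Prop := n ≤ d + 1 ∨ (n ≤ d + 2 ∧ (n : k) = 0)

theorem core (M : MO (Alt S) R) {m : ℕ} (h3 : m = 3 ∨ m = 4) (hn : 9 ≤ #S)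
    (h : ∀ T ⊆ S, #T = m → finrank k (Fx R S) + m ≤ finrank k (Fx R (S \ T)) + 1 ∧
      finrank k (Fx R T) + m ≤ finrank k V + 1) : Bd k #S (finrank k V) := by
  have key : ∀ U ⊆ S, m ≤ #U → #U ≤ m + 1 → finrank k (Fx R S) + m ≤ finrank k (Fx R (S \ U)) + 1 ∧
      finrank k (Fx R (S \ U)) + #S ≤ finrank k V + 1 + #U := fun U hU h1 h2 => by
    obtain ⟨T, hT, c⟩ := exists_subset_card_eq h1
    have c1 := card_sdiff_of_subset hU
    obtain ⟨T', hT', c'⟩ := exists_subset_card_eq (s := S \ U) (n := m) (by omega)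
    have e1 := (h T (hT.trans hU) c).1
    have e2 := (h T' (hT'.trans sdiff_subset) c').2
    have e3 := Submodule.finrank_mono (Fx_anti (R := R) (sdiff_subset_sdiff (subset_refl S) hT))
    have := chain M (A' := T') (by omega) (#S - #U - m) (S \ U) sdiff_subset hT' (by omega) (by omega) (by omega)
    omega
  obtain ⟨T, hT, c⟩ := exists_subset_card_eq (s := S) (n := m) (by omega)
  have e := key T hT c.ge (by omega)
  by_cases h1 : #S ≤ finrank k V + 1
  · exact Or.inl h1
  have h0 : finrank k (Fx R S) = 0 := by omega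
  have hm : PP R S m := ⟨fun U hU c => by have := key U hU c.ge (by omega); omega,
    fun U hU c => by have := key U hU (by omega) c.le; omega⟩
  refine Or.inr ⟨by omega, endgame M (by omega) h0 (descend M h0 le_rfl (by omega) ?_)⟩
  rcases h3 with rfl | rfl
  exacts [hm, descend M h0 (by omega) (by omega) hm]

end CA.H4Alt
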