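/-
Minimal degrees of linear representations of alternating groups (Wagner).
-/
import Cfsg.Agent.Lib.Perm.H4Alt2

set_option autoImplicit false

namespace CA.H4Alt

open Module Module.End Equiv Equiv.Perm Finset

universe v

section
variable {k V : Type*} [Field k] [AddCommGroup V] [Module k V]

theorem three_le [FiniteDimensional k V] (f : End k V) {a b c : k} (h1 : a ≠ b) (h2 : a ≠ c) (h3 : b ≠ c)
    {A B C X : Submodule k V} (hA : A ≤ f.eigenspace a) (hB : B ≤ f.eigenspace b) (hC : C ≤ f.eigenspace c)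
    (hA' : A ≤ X) (hB' : B ≤ X) (hC' : C ≤ X) : finrank k A + finrank k B + finrank k C ≤ finrank k X := by
  classical
  have := sum_le f {a, b, c} (fun t => X ⊓ f.eigenspace t) X (fun _ _ => inf_le_right) fun _ _ => inf_le_left
  rw [sum_insert (by simp [h1, h2]), sum_pair h3] at this
  have e1 := Submodule.finrank_mono (le_inf hA' hA)
  have e2 := Submodule.finrank_mono (le_inf hB' hB)
  have e3 := Submodule.finrank_mono (le_inf hC' hC)
  omega

theorem decomp3 (h3 : (3 : k) ≠ 0) {f G : End k V} (hf : f ^ 3 = 1) {w : k} (hw : w ≠ 1) (hw3 : w ^ 3 = 1)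
    (h0 : ∀ v ∈ f.eigenspace 1, G v = v) (h1 : ∀ v ∈ f.eigenspace w, G v = v)
    (h2 : ∀ v ∈ f.eigenspace (w ^ 2), G v = v) : G = 1 := by
  ext v
  have e : w ^ 2 + w + 1 = 0 := (mul_eq_zero.mp (show (w - 1) * (w ^ 2 + w + 1) = 0 by
    linear_combination hw3)).resolve_left (sub_ne_zero.mpr hw)
  have e3 : f (f (f v)) = v := by simpa [pow_succ] using LinearMap.congr_fun hf v
  have a0 := h0 (v + f v + f (f v)) (mem_eigenspace_iff.mpr (by simp only [map_add, e3]; module))
  have a1 := h1 (v + w ^ 2 • f v + w • f (f v)) (mem_eigenspace_iff.mpr (by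
    simp only [map_add, map_smul, e3]; linear_combination (norm := module) -hw3 • f v))
  have a2 := h2 (v + w • f v + w ^ 2 • f (f v)) (mem_eigenspace_iff.mpr (by
    simp only [map_add, map_smul, e3]; linear_combination (norm := module) -hw3 • f v - (w * hw3) • f (f v)))
  simp only [map_add, map_smul] at a0 a1 a2
  refine smul_right_injective V h3 ?_
  show (3 : k) • G v = (3 : k) • v
  linear_combination (norm := module) a0 + a1 + a2 + e • (f v + f (f v) - G (f v) - G (f (f v)))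

theorem w_ne {w : k} (hw : w ≠ 1) (hw3 : w ^ 3 = 1) : w ≠ w ^ 2 ∧ w ^ 2 ≠ 1 ∧ (w ^ 2) ^ 2 = w :=
  ⟨fun e => hw (by linear_combination (-(w ^ 2)) * e + (1 - w) * hw3 ), fun e => hw (by linear_combination hw3 - w * e),
    by linear_combination w * hw3⟩

def MO.ker {Γ : Type*} [Group Γ] {H : Subgroup Γ} {R : Γ → End k V} (M : MO H R) : Subgroup Γ where
  carrier := {g | g ∈ H ∧ R g = 1}
  one_mem' := ⟨one_mem _, M.one⟩
  mul_mem' := fun {a b} ha hb => ⟨mul_mem ha.1 hb.1, by rw [M.mul _ ha.1 _ hb.1, ha.2, hb.2, one_mul]⟩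
  inv_mem' := fun {a} ha => ⟨inv_mem ha.1, by
    rw [← mul_one (R a⁻¹), ← ha.2, ← M.mul _ (inv_mem ha.1) _ ha.1, inv_mul_cancel, M.one, ha.2]⟩
end

variable {k α : Type*} {V : Type v} [Field k] [AddCommGroup V] [Module k V] [Fintype α] [DecidableEq α]
  {R : Perm α → End k V} {S : Finset α}

def NT (S : Finset α) (R : Perm α → End k V) : Prop := ∃ σ ∈ Alt S, R σ ≠ 1

theorem faithful (M : MO (Alt S) R) (h5 : 5 ≤ #S) (h : NT S R) {σ : Perm α} (hσ : σ ∈ Alt S) (h1 : σ ≠ 1) :
    R σ ≠ 1 := fun e => by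
  obtain ⟨τ, hτ, h2⟩ := h
  refine h2 (simple h5 M.ker (fun g hg x hx => ⟨mul_mem (mul_mem hg hx.1) (inv_mem hg), ?_⟩) hσ h1 ⟨hσ, e⟩ hτ).2
  rw [M.mul _ (mul_mem hg hx.1) _ (inv_mem hg), M.mul _ hg _ hx.1, hx.2, mul_one, ← M.mul _ hg _ (inv_mem hg),
    mul_inv_cancel, M.one]

theorem E_ne {m : ℕ} (e : Fin m ↪ α) {σ : Perm (Fin m)} (h : σ ≠ 1) : E e σ ≠ 1 := fun h' =>
  h (E_inj e (h'.trans (map_one _).symm))

theorem E_pow {m : ℕ} (e : Fin m ↪ α) {σ : Perm (Fin m)} {n : ℕ} (h : σ ^ n = 1) : E e σ ^ n = 1 := by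
  rw [← map_pow, h, map_one]

theorem E_rel {m : ℕ} (e : Fin m ↪ α) {a b c : Perm (Fin m)} {j : ℕ} (h : a * b = b * c ^ j) :
    E e a * E e b = E e b * E e c ^ j := by
  rw [← map_pow, ← map_mul, h, map_mul]

def LB (k : Type*) [Field k] (A : Finset α) (l : ℕ) : Prop :=
  ∀ (V : Type v) [AddCommGroup V] [Module k V] [FiniteDimensional k V] (R : Perm α → End k V),
    MO (Alt A) R → NT A R → l ≤ finrank k V

variable [FiniteDimensional k V]

theorem dich (M : MO (Alt S) R) {A : Finset α} (hA : A ⊆ S) {l : ℕ} (hl : LB.{v} k A l) (W : Submodule k V)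
    (hW : ∀ g ∈ Alt A, ∀ w ∈ W, R g w ∈ W) : W ≤ Fx R A ∨ l ≤ finrank k W := by
  obtain ⟨R', M', h⟩ := M.res (Alt_mono hA) W hW
  by_cases e : NT A R'
  · exact Or.inr (hl _ R' M' e)
  · refine Or.inl fun w hw σ hσ => ?_
    rw [← h σ hσ ⟨w, hw⟩, not_not.mp fun e' => e ⟨σ, hσ, e'⟩]; rfl

omit [FiniteDimensional k V] in
theorem eig_inv (M : MO (Alt S) R) {A B : Finset α} (hA : A ⊆ S) (hB : B ⊆ S) (h : Disjoint A B) {x : Perm α}
    (hx : x ∈ Alt A) (c : k) : ∀ g ∈ Alt B, ∀ w ∈ (R x).eigenspace c, R g w ∈ (R x).eigenspace c :=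
  fun _ hg _ hw => M.comm_eig (Alt_mono hA hx) (Alt_mono hB hg) (Alt_mono hA hx) (Alt_comm h hx hg) hw

omit [FiniteDimensional k V] in
theorem Fx_le {A : Finset α} {x : Perm α} (hx : x ∈ Alt A) : Fx R A ≤ (R x).eigenspace 1 := fun v hv =>
  mem_eigenspace_iff.mpr (by rw [hv x hx, one_smul])

theorem V4 (h2 : (2 : k) ≠ 0) (M : MO (Alt S) R) (h5 : 5 ≤ #S) (h : NT S R) {T : Finset α} (hT : T ⊆ S) (hc : #T = 4) :
    ∃ N : Fin 3 → Submodule k V, ∃ d, 1 ≤ d ∧ (∀ i, finrank k (N i) = d) ∧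
      (∀ i, ∀ g ∈ Alt (S \ T), ∀ w ∈ N i, R g w ∈ N i) ∧
      ∀ X C : Submodule k V, (∀ i, N i ≤ X) → C ≤ X → C ≤ Fx R T → finrank k C + 3 * d ≤ finrank k X := by
  obtain ⟨e, hS, he⟩ := exists_emb hT hc le_rfl (by omega)
  have m1 : E e (swap 0 1 * swap 2 3) ∈ Alt T := he ▸ E_in e _ (by decide)
  have m2 : E e (swap 0 2 * swap 1 3) ∈ Alt T := he ▸ E_in e _ (by decide)
  have m1' := Alt_mono hT m1
  have m2' := Alt_mono hT m2
  have mx : E e (swap 1 2 * swap 2 3) ∈ Alt S := E_mem' e hS (by decide)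
  set t1 := E e (swap 0 1 * swap 2 3) with ht1
  set t2 := E e (swap 0 2 * swap 1 3) with ht2
  let N : k → k → Submodule k V := fun a b => (R t1).eigenspace a ⊓ (R t2).eigenspace b
  have hx : ∀ a b c, b * a = c → finrank k (N a b) ≤ finrank k (N c a) := fun a b c hc => hc ▸ M.le mx fun w hw =>
    ⟨M.comm_eig (mul_mem m1' m2') mx m1' (by simp only [ht1, ht2, ← map_mul]; congr 1; decide)
      (mem_eigenspace_iff.mpr (by
        rw [← M.app m1' m2', mem_eigenspace_iff.mp hw.2, map_smul, mem_eigenspace_iff.mp hw.1, smul_smul])),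
      M.comm_eig m1' mx m2' (by simp only [ht1, ht2, ← map_mul]; congr 1; decide) hw.1⟩
  have a1 := hx 1 (-1) (-1) (by simp)
  have a2 := hx (-1) 1 (-1) (by simp)
  have a3 := hx (-1) (-1) 1 (by simp)
  have hn : (1 : k) ≠ -1 := fun e => h2 (by linear_combination e)
  have hsq : ∀ t ∈ Alt S, t * t = 1 → ∀ v, R t (R t v) = v := fun t ht e v => by rw [M.app ht ht, e, M.one]; rfl
  have q1 := hsq t1 m1' (by simp only [ht1, ← map_mul]; rw [← map_one (E e)]; congr 1; decide)
  have q2 := hsq t2 m2' (by simp only [ht2, ← map_mul]; rw [← map_one (E e)]; congr 1; decide)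
  have hpos : 1 ≤ finrank k (N (-1) 1) + finrank k (N (-1) (-1)) := by
    obtain ⟨v, hv⟩ : ∃ v, R t1 v ≠ v := by
      by_contra! e'
      exact faithful M h5 h m1' (E_ne e (by decide)) (LinearMap.ext e')
    have b1 : v - R t1 v ∈ (R t1).eigenspace (-1) := mem_eigenspace_iff.mpr (by rw [map_sub, q1]; module)
    have b2 := M.comm_eig m1' m2' m1' (by simp only [ht1, ht2, ← map_mul]; congr 1; decide) b1
    by_contra! e'
    have z1 : N (-1) 1 = ⊥ := Submodule.finrank_eq_zero.mp (by omega)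
    have z2 : N (-1) (-1) = ⊥ := Submodule.finrank_eq_zero.mp (by omega)
    have c1 : v - R t1 v + R t2 (v - R t1 v) ∈ N (-1) 1 :=
      ⟨add_mem b1 b2, mem_eigenspace_iff.mpr (by rw [map_add, q2]; module)⟩
    have c2 : v - R t1 v - R t2 (v - R t1 v) ∈ N (-1) (-1) :=
      ⟨sub_mem b1 b2, mem_eigenspace_iff.mpr (by rw [map_sub (R t2) (v - R t1 v), q2]; module)⟩
    rw [z1, Submodule.mem_bot] at c1
    rw [z2, Submodule.mem_bot] at c2
    exact hv (smul_right_injective V h2 (show (2 : k) • R t1 v = (2 : k) • v by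
      linear_combination (norm := module) -c1 - c2))
  have hi : ∀ a b, ∀ g ∈ Alt (S \ T), ∀ w ∈ N a b, R g w ∈ N a b := fun a b g hg w hw =>
    ⟨eig_inv M hT sdiff_subset disjoint_sdiff m1 a g hg w hw.1, eig_inv M hT sdiff_subset disjoint_sdiff m2 b g hg w hw.2⟩
  refine ⟨![N 1 (-1), N (-1) 1, N (-1) (-1)], finrank k (N 1 (-1)), by omega, fun i => ?_, fun i => ?_,
    fun X C hX hC hC' => ?_⟩
  · fin_cases i
    exacts [rfl, show finrank k (N (-1) 1) = _ by omega, show finrank k (N (-1) (-1)) = _ by omega]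
  · fin_cases i <;> exact hi _ _
  · have d1 := add_le (C := X ⊓ (R t1).eigenspace 1) (le_inf hC (hC'.trans (Fx_le m1))) (le_inf (hX 0) inf_le_left)
      ((eig_disj (R t2) hn).mono (hC'.trans (Fx_le m2)) inf_le_right)
    have d2 := add_le (C := X ⊓ (R t1).eigenspace (-1)) (le_inf (hX 1) inf_le_left) (le_inf (hX 2) inf_le_left)
      ((eig_disj (R t2) hn).mono inf_le_right inf_le_right)
    have d3 := add_le (C := X) inf_le_left inf_le_left ((eig_disj (R t1) hn).mono inf_le_right inf_le_right)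
    change finrank k C + finrank k (N 1 (-1)) ≤ _ at d1
    change finrank k (N (-1) 1) + finrank k (N (-1) (-1)) ≤ _ at d2
    omega

variable [IsAlgClosed k]

theorem T3 (h3 : (3 : k) ≠ 0) (M : MO (Alt S) R) (h5 : 5 ≤ #S) (h : NT S R) {T : Finset α} (hT : T ⊆ S) (hc : #T = 3) :
    ∃ x ∈ Alt T, ∃ w : k, w ≠ 1 ∧ w ^ 3 = 1 ∧ 1 ≤ finrank k ((R x).eigenspace w) ∧
      finrank k ((R x).eigenspace w) = finrank k ((R x).eigenspace (w ^ 2)) := by
  obtain ⟨e, hS, he⟩ := exists_emb hT hc (show 3 ≤ 5 by omega) h5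
  have m1 : E e (swap 0 1 * swap 1 2) ∈ Alt T := he ▸ E_in e _ (by decide)
  have m1' := Alt_mono hT m1
  have ms : E e (swap 0 1 * swap 3 4) ∈ Alt S := E_mem' e hS (by decide)
  obtain ⟨w, hw, hw3, hE⟩ := exists_eig_ne (R (E e (swap 0 1 * swap 1 2))) (m := 3) (by exact_mod_cast h3)
    (by rw [← M.pow m1', ← map_pow, ← M.one, ← map_one (E e)]; congr 2; decide) (faithful M h5 h m1' (E_ne e (by decide)))
  have hx : ∀ c : k, finrank k ((R (E e (swap 0 1 * swap 1 2))).eigenspace c) ≤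
      finrank k ((R (E e (swap 0 1 * swap 1 2))).eigenspace (c ^ 2)) := fun c => M.le ms fun v hv =>
    M.conj_eig m1' ms m1' (by simp only [← map_pow, ← map_mul]; congr 1; decide) hv
  refine ⟨_, m1, w, hw, hw3, pos_of_ne hE, le_antisymm (hx w) ?_⟩
  have := hx (w ^ 2)
  rwa [(w_ne hw hw3).2.2] at this

omit [FiniteDimensional k V] [AddCommGroup V] [Module k V] in
theorem T4 (h3 : (3 : k) ≠ 0) (h6 : 6 ≤ #S) : LB.{v} k S 4 := by
  intro V _ _ _ R M h
  obtain ⟨e, hS, -⟩ := exists_emb (empty_subset S) card_empty (Nat.zero_le 6) h6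
  have my : E e (swap 0 1 * swap 1 2) ∈ Alt S := E_mem' e hS (by decide)
  have mz : E e (swap 3 4 * swap 4 5) ∈ Alt S := E_mem' e hS (by decide)
  have ms : E e (swap 0 1 * swap 3 4) ∈ Alt S := E_mem' e hS (by decide)
  set y := E e (swap 0 1 * swap 1 2) with hy
  set z := E e (swap 3 4 * swap 4 5) with hz
  set s := E e (swap 0 1 * swap 3 4) with hs
  have y3 : R y ^ 3 = 1 := by rw [← M.pow my, ← map_pow, ← M.one, ← map_one (E e)]; congr 2; decide
  have z3 : ∀ v, R z (R z (R z v)) = v := fun v => by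
    rw [M.app mz mz, M.app (mul_mem mz mz) mz, show z * z * z = 1 by
      simp only [hz, ← map_mul]; rw [← map_one (E e)]; congr 1; decide, M.one]; rfl
  have zs : ∀ v, R z (R s v) = R s (R z (R z v)) := fun v => by
    rw [M.app mz mz, M.app mz ms, M.app ms (mul_mem mz mz)]
    simp only [hz, hs, ← map_mul]; congr 3; decide
  obtain ⟨w, hw, hw3, hE⟩ := exists_eig_ne (R y) (m := 3) (by exact_mod_cast h3) y3
    (faithful M (by omega) h my (E_ne e (by decide)))
  obtain ⟨w1, w2, w4⟩ := w_ne hw hw3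
  have hx : ∀ c : k, ∀ v ∈ (R y).eigenspace c, R s v ∈ (R y).eigenspace (c ^ 2) := fun c v hv =>
    M.conj_eig my ms my (by simp only [hy, hs, ← map_pow, ← map_mul]; congr 1; decide) hv
  have hz' : ∀ c : k, ∀ v ∈ (R y).eigenspace c, R z v ∈ (R y).eigenspace c := fun c v hv =>
    M.comm_eig my mz my (by simp only [hy, hz, ← map_mul]; congr 1; decide) hv
  by_contra! hlt
  have d1 := three_le (R y) w1 hw w2 le_rfl le_rfl le_rfl le_top le_top le_top
  have d2 := M.le ms (hx w)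
  have d3 := pos_of_ne hE
  rw [finrank_top] at d1
  obtain ⟨a, ha⟩ := scal (show finrank k ((R y).eigenspace w) ≤ 1 by omega) (R z) (hz' w)
  obtain ⟨c, hc⟩ := scal (show finrank k ((R y).eigenspace 1) ≤ 1 by omega) (R z) (hz' 1)
  have a3 : a ^ 3 = 1 := by
    obtain ⟨v, hv, h0⟩ := (Submodule.ne_bot_iff _).mp hE
    have := z3 v
    rw [ha v hv, map_smul, map_smul, ha v hv, map_smul, ha v hv] at this
    exact smul_left_injective k h0 (show _ • v = _ • v by linear_combination (norm := module) this)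
  obtain ⟨j, hj, rfl⟩ : ∃ j < 3, a = w ^ j := by
    have : (a - 1) * (a - w) * (a - w ^ 2) = 0 := by
      have e : w ^ 2 + w + 1 = 0 := (mul_eq_zero.mp (show (w - 1) * (w ^ 2 + w + 1) = 0 by
        linear_combination hw3)).resolve_left (sub_ne_zero.mpr hw)
      linear_combination a3 - hw3 + (a * w - a ^ 2) * e
    rcases mul_eq_zero.mp this with h | h
    · rcases mul_eq_zero.mp h with h | h
      exacts [⟨0, by omega, by linear_combination h⟩, ⟨1, by omega, by linear_combination h⟩]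
    · exact ⟨2, by omega, by linear_combination h⟩
  have hp : ∀ c : k, ∀ v ∈ (R y).eigenspace c, R (z * y ^ (2 * j)) v = c ^ (2 * j) • R z v := fun c v hv => by
    have := M.conj_eig my (one_mem _) (pow_mem my (2 * j)) (j := 2 * j) (by simp) hv
    rw [M.one, mem_eigenspace_iff, Module.End.one_apply] at this
    rw [← M.app mz (pow_mem my _), this, map_smul]
  refine faithful M (by omega) h (mul_mem mz (pow_mem my (2 * j))) ?_ (decomp3 h3 y3 hw hw3 (fun v hv => ?_)
    (fun v hv => ?_) fun v hv => ?_)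
  · simp only [hy, hz, ← map_pow, ← map_mul]
    exact E_ne e (by interval_cases j <;> decide)
  · rw [hp _ v hv, one_pow, one_smul]
    have b1 := zs v
    have b2 := z3 v
    rw [hc _ (by simpa using hx 1 v hv), hc v hv, map_smul, hc v hv, smul_smul, ← map_smul] at b1
    have b3 := M.inj ms b1
    rw [hc v hv, map_smul, map_smul, hc v hv, map_smul, hc v hv] at b2
    rw [hc v hv]
    linear_combination (norm := module) b2 + (1 + c) • b3
  · rw [hp _ v hv, ha v hv, smul_smul, ← pow_add, show 2 * j + j = 3 * j by ring, pow_mul, hw3, one_pow, one_smul]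
  · have b1 := zs v
    rw [ha _ (w4 ▸ hx _ v hv), ← map_smul] at b1
    have b3 := M.inj ms b1
    have b2 := z3 (R z v)
    rw [← b3, map_smul, map_smul, ← b3] at b2
    rw [hp _ v hv, ← b2, smul_smul, smul_smul, ← pow_mul, ← pow_add, ← pow_add,
      show 2 * (2 * j) + j + j = 3 * (2 * j) by ring, pow_mul, hw3, one_pow, one_smul]

omit [FiniteDimensional k V] [AddCommGroup V] [Module k V] in
theorem R5 (h5 : (5 : k) ≠ 0) (h7 : 7 ≤ #S) : LB.{v} k S 4 := by
  intro V _ _ _ R M h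
  obtain ⟨e, hS, -⟩ := exists_emb (empty_subset S) card_empty (Nat.zero_le 7) h7
  have mu : E e (swap 0 1 * swap 1 2 * swap 2 3 * swap 3 4) ∈ Alt S := E_mem' e hS (by decide)
  obtain ⟨z, -, h1, h2⟩ := M.rat mu (E_mem' e hS (σ := swap 1 3 * swap 3 4 * swap 4 2 * swap 5 6) (by decide))
    Nat.prime_five (j := 2) (by exact_mod_cast h5) (E_pow e (by decide +kernel))
    (faithful M (by omega) h mu (E_ne e (by decide))) (E_rel e (by decide +kernel)) (by decide)
  exact le_trans (by simp) ((card_nsmul_le_sum _ _ 1 fun a ha => pos_of_ne (h1 a ha)).trans h2)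

theorem eleven (h3 : (3 : k) ≠ 0) (h5 : (5 : k) ≠ 0) (M : MO (Alt S) R) (hn : 11 ≤ #S) (h : NT S R) {T : Finset α}
    (hT : T ⊆ S) (hc : #T = 3) {x : Perm α} (hx : x ∈ Alt T) :
    10 ≤ finrank k V ∨ 2 ≤ finrank k ((R x).eigenspace 1) := by
  obtain ⟨e, hS, he⟩ := exists_emb hT hc (show 3 ≤ 10 by omega) (by omega)
  have mu : E e (swap 3 4 * swap 4 5 * swap 5 6 * swap 6 7) ∈ Alt (({3, 4, 5, 6, 7} : Finset (Fin 10)).map e) :=
    E_in e _ (by decide)
  have hU : ({3, 4, 5, 6, 7} : Finset (Fin 10)).map e ⊆ S := fun _ h => by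
    obtain ⟨i, -, rfl⟩ := mem_map.mp h; exact hS i
  have mu' := Alt_mono hU mu
  obtain ⟨z, hz, h1, h2⟩ := M.rat mu' (E_mem' e hS (σ := swap 4 6 * swap 6 7 * swap 7 5 * swap 8 9) (by decide))
    Nat.prime_five (j := 2) (by exact_mod_cast h5) (E_pow e (by decide +kernel))
    (faithful M (by omega) h mu' (E_ne e (by decide))) (E_rel e (by decide +kernel)) (by decide)
  have hd := fun a : ℕ => dich M sdiff_subset (T4 h3 (by
    rw [card_sdiff_of_subset hU, card_map, show #({3, 4, 5, 6, 7} : Finset (Fin 10)) = 5 from rfl]; omega)) _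
    (eig_inv M hU sdiff_subset disjoint_sdiff mu (z ^ a))
  have hTU : T ⊆ S \ ({3, 4, 5, 6, 7} : Finset (Fin 10)).map e := subset_sdiff.mpr ⟨hT, by
    rw [← he, disjoint_map]; decide⟩
  have key : ∀ a ∈ Ioo 0 5, ∀ b ∈ Ioo 0 5, a ≠ b → _ ≤ Fx R (S \ ({3, 4, 5, 6, 7} : Finset (Fin 10)).map e) → _ ≤ Fx R _ →
      2 ≤ finrank k ((R x).eigenspace 1) := fun a ha b hb hab p q =>
    (Nat.add_le_add (pos_of_ne (h1 a ha)) (pos_of_ne (h1 b hb))).trans (add_le (p.trans (Fx_le (Alt_mono hTU hx)))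
      (q.trans (Fx_le (Alt_mono hTU hx))) (eig_disj _ fun e => hab (hz.pow_inj (mem_Ioo.mp ha).2 (mem_Ioo.mp hb).2 e)))
  rw [show Ioo 0 5 = {1, 2, 3, 4} from rfl, sum_insert (by decide), sum_insert (by decide), sum_pair (by decide)] at h2
  have p1 := pos_of_ne (h1 1 (by decide))
  have p2 := pos_of_ne (h1 2 (by decide))
  have p3 := pos_of_ne (h1 3 (by decide))
  have p4 := pos_of_ne (h1 4 (by decide))
  rcases hd 1 with a1 | a1 <;> rcases hd 2 with a2 | a2 <;> rcases hd 3 with a3 | a3 <;>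
    first | (left; omega) | exact Or.inr (key 1 (by decide) 2 (by decide) (by decide) a1 a2)
          | exact Or.inr (key 1 (by decide) 3 (by decide) (by decide) a1 a3)
          | exact Or.inr (key 2 (by decide) 3 (by decide) (by decide) a2 a3)

omit [FiniteDimensional k V] [AddCommGroup V] [Module k V] in
theorem lin (n : ℕ) : ∀ S : Finset α, #S = n → 9 ≤ n → ∀ (V : Type v) [AddCommGroup V] [Module k V]
    [FiniteDimensional k V] (R : Perm α → End k V), MO (Alt S) R → NT S R → Bd k n (finrank k V) := by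
  induction n using Nat.strong_induction_on with
  | _ n ih =>
  intro S hS h9 V _ _ _ R M h
  have ih' : ∀ T ⊆ S, 1 ≤ #T → 9 + #T ≤ n → LB.{v} k (S \ T) (n - #T - 2) := fun T hT h1 h2 W _ _ _ R' M' h' => by
    rcases ih (n - #T) (by omega) (S \ T) (by rw [card_sdiff_of_subset hT, hS]) (by omega) W R' M' h' with e | e <;>
      omega
  by_cases h2 : (2 : k) = 0
  · have h3 : (3 : k) ≠ 0 := fun e => one_ne_zero (α := k) (by linear_combination e - h2)
    have h5 : (5 : k) ≠ 0 := fun e => one_ne_zero (α := k) (by linear_combination e - 2 * h2)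
    by_contra hB
    refine hB (hS ▸ core M (Or.inl rfl) (by omega) fun T hT hc => ?_)
    obtain ⟨x, hx, w, hw, hw3, p1, p2⟩ := T3 h3 M (by omega) h hT hc
    obtain ⟨w1, w2, -⟩ := w_ne hw hw3
    have d1 := three_le (R x) w1 hw w2 le_rfl le_rfl le_rfl le_top le_top le_top
    rw [finrank_top] at d1
    obtain ⟨l, hl, hl'⟩ : ∃ l, LB.{v} k (S \ T) l ∧ finrank k ((R x).eigenspace w) < l := by
      by_cases h12 : 12 ≤ n
      · exact ⟨_, ih' T hT (by omega) (by omega), by_contra fun e => hB (Or.inl (by omega))⟩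
      refine ⟨4, T4 h3 (by rw [card_sdiff_of_subset hT]; omega), by_contra fun e => hB ?_⟩
      obtain rfl | rfl | rfl : n = 9 ∨ n = 10 ∨ n = 11 := by omega
      · exact Or.inl (by omega)
      · exact Or.inr ⟨by omega, by push_cast; linear_combination 5 * h2⟩
      · rcases eleven h3 h5 M hS.ge h hT hc hx with e | e <;> exact Or.inl (by omega)
    have hd := fun c : k => dich M sdiff_subset hl _ (eig_inv M hT sdiff_subset disjoint_sdiff hx c)
    have f1 := (hd w).resolve_right (by omega)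
    have f2 := (hd (w ^ 2)).resolve_right (by omega)
    have d2 := three_le (R x) w1 hw w2 le_rfl le_rfl (Fx_le (Alt_mono hT hx)) f1 f2 (Fx_anti sdiff_subset)
    have d3 := Submodule.finrank_mono (Fx_le (R := R) hx)
    omega
  · by_contra hB
    refine hB (hS ▸ core M (Or.inr rfl) (by omega) fun T hT hc => ?_)
    obtain ⟨N, d, d1, hN, hi, hX⟩ := V4 h2 M (by omega) h hT hc
    have d2 := hX ⊤ _ (fun _ => le_top) le_top le_rfl
    rw [finrank_top] at d2
    have c1 := card_sdiff_of_subset hT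
    obtain ⟨l, hl, hl'⟩ : ∃ l, LB.{v} k (S \ T) l ∧ d < l := by
      by_cases h13 : 13 ≤ n
      · exact ⟨_, ih' T hT (by omega) (by omega), by_contra fun e => hB (Or.inl (by omega))⟩
      by_cases h11 : 11 ≤ n
      · refine ⟨4, ?_, by_contra fun e => hB (Or.inl (by omega))⟩
        by_cases h3 : (3 : k) = 0
        · exact R5 (fun e => h2 (by linear_combination e - h3)) (by omega)
        · exact T4 h3 (by omega)
      refine ⟨3, fun W _ _ _ R' M' h' => ?_, by_contra fun e => hB (Or.inl (by omega))⟩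
      obtain ⟨U, hU, c⟩ := exists_subset_card_eq (s := S \ T) (n := 4) (by omega)
      obtain ⟨N, d, d1, -, -, hX⟩ := V4 h2 M' (by omega) h' hU c
      have := hX ⊤ ⊥ (fun _ => le_top) le_top bot_le
      rw [finrank_top] at this
      omega
    have := hX _ _ (fun i => (dich M sdiff_subset hl _ (hi i)).resolve_right (by rw [hN]; omega))
      (Fx_anti sdiff_subset) (Fx_anti hT)
    omega

end CA.H4Alt
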