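/-
Minimal degrees of spin representations of alternating groups.
-/
import Cfsg.Agent.Lib.Perm.H4Alt3

set_option autoImplicit false

namespace CA.H4Alt

open Module Module.End Equiv Equiv.Perm Finset

universe v

variable {α Γ : Type*} [Fintype α] [DecidableEq α] [Group Γ]

theorem E_swap {m : ℕ} (e : Fin m ↪ α) (i j : Fin m) : E e (swap i j) = swap (e i) (e j) := by
  ext x
  by_cases hx : x ∈ Set.range e
  · obtain ⟨l, rfl⟩ := hx
    rw [E_apply, e.injective.map_swap]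
  · rw [swap_apply_of_ne_of_ne (fun h => hx ⟨i, h.symm⟩) fun h => hx ⟨j, h.symm⟩]
    exact viaEmbedding_apply_of_notMem _ e x hx

structure Cov (τ : Γ →* Perm α) (z : Γ) : Prop where
  cen : ∀ g, g * z = z * g
  zz : z * z = 1
  tz : τ z = 1
  ker : ∀ g, τ g = 1 → g = 1 ∨ g = z
  surj : ∀ σ, sign σ = 1 → ∃ g, τ g = σ
  dbl : ∀ g a b c d, a ≠ b → a ≠ c → a ≠ d → b ≠ c → b ≠ d → c ≠ d → τ g = swap a b * swap c d → g * g = z

variable {τ : Γ →* Perm α} {z : Γ} (C : Cov τ z)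
include C

theorem Cov.zpow {m : ℕ} (hm : Odd m) : z ^ m = z := by
  obtain ⟨n, rfl⟩ := hm
  rw [pow_succ, pow_mul, pow_two, C.zz, one_pow, one_mul]

theorem Cov.odd_eq {g g' : Γ} {m : ℕ} (hm : Odd m) (h : τ g = τ g') (h1 : g ^ m = 1) (h2 : g' ^ m = 1) : g = g' := by
  rcases C.ker (g⁻¹ * g') (by rw [map_mul, map_inv, h, inv_mul_cancel]) with e | e
  · exact inv_mul_eq_one.mp e
  · rw [inv_mul_eq_iff_eq_mul] at e
    rw [e, (show Commute g z from C.cen g).mul_pow, h1, C.zpow hm, one_mul] at h2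
    rw [e, h2, mul_one]

theorem Cov.lift {σ : Perm α} {m : ℕ} (hm : Odd m) (h : sign σ = 1) (h1 : σ ^ m = 1) : ∃ g, τ g = σ ∧ g ^ m = 1 := by
  obtain ⟨g, rfl⟩ := C.surj σ h
  rcases C.ker (g ^ m) (by rw [map_pow, h1]) with e | e
  · exact ⟨g, rfl, e⟩
  · exact ⟨g * z, by rw [map_mul, C.tz, mul_one], by
      rw [(show Commute g z from C.cen g).mul_pow, e, C.zpow hm, C.zz]⟩

theorem Cov.rel {u u' h : Γ} {m j : ℕ} (hm : Odd m) (h1 : u ^ m = 1) (h2 : u' ^ m = 1)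
    (e : τ u' * τ h = τ h * τ u ^ j) : u' * h = h * u ^ j := by
  rw [← eq_mul_inv_iff_mul_eq]
  refine C.odd_eq hm (by rw [map_mul, map_mul, map_pow, map_inv, ← e, mul_inv_cancel_right]) h2 ?_
  rw [conj_pow, ← pow_mul, mul_comm j, pow_mul, h1]; simp

theorem Cov.comm {u h : Γ} {m : ℕ} (hm : Odd m) (h1 : u ^ m = 1) {A B : Finset α} (hd : Disjoint A B)
    (hu : τ u ∈ Alt A) (hh : τ h ∈ Alt B) : u * h = h * u := by
  simpa using C.rel (j := 1) hm h1 h1 (by simpa using Alt_comm hd hu hh)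

theorem Cov.zmem (A : Finset α) : z ∈ (Alt A).comap τ := by
  rw [Subgroup.mem_comap, C.tz]; exact one_mem _

variable {k : Type*} {V : Type v} [Field k] [AddCommGroup V] [Module k V] {R : Γ → End k V} {S : Finset α}

theorem Cov.res (M : MO ((Alt S).comap τ) R) (hz : R z = -1) {A : Finset α} (hA : A ⊆ S) (W : Submodule k V)
    (hW : ∀ g ∈ (Alt A).comap τ, ∀ w ∈ W, R g w ∈ W) :
    ∃ R' : Γ → End k W, MO ((Alt A).comap τ) R' ∧ R' z = -1 ∧ ∀ g ∈ (Alt A).comap τ, ∀ w : W, (R' g w : V) = R g w := by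
  obtain ⟨R', M', h⟩ := M.res (Subgroup.comap_mono (Alt_mono hA)) W hW
  exact ⟨R', M', by ext w; rw [h z (C.zmem A), hz]; rfl, h⟩

theorem Cov.faithful (h2 : (2 : k) ≠ 0) [Nontrivial V] (M : MO ((Alt S).comap τ) R) (hz : R z = -1) (h5 : 5 ≤ #S)
    {g : Γ} (hg : τ g ∈ Alt S) (h1 : τ g ≠ 1) : R g ≠ 1 := fun e => by
  obtain ⟨f, hS, -⟩ := exists_emb (empty_subset S) card_empty (Nat.zero_le 4) (by omega)
  obtain ⟨x, hx, hx'⟩ := simple h5 (M.ker.map τ) (by
    rintro σ hσ _ ⟨x, hx, rfl⟩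
    obtain ⟨y, rfl⟩ := C.surj σ hσ.1
    have hy : y ∈ (Alt S).comap τ := hσ
    refine ⟨y * x * y⁻¹, ⟨mul_mem (mul_mem hy hx.1) (inv_mem hy), ?_⟩, by simp⟩
    rw [M.mul _ (mul_mem hy hx.1) _ (inv_mem hy), M.mul _ hy _ hx.1, hx.2, mul_one, ← M.mul _ hy _ (inv_mem hy),
      mul_inv_cancel, M.one]) hg h1 ⟨g, ⟨hg, e⟩, rfl⟩
    (swap2_mem (f.injective.ne (show (0 : Fin 4) ≠ 1 by decide)) (f.injective.ne (show (2 : Fin 4) ≠ 3 by decide))
      (hS _) (hS _) (hS _) (hS _))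
  have h3 := C.dbl x _ _ _ _ (f.injective.ne (by decide)) (f.injective.ne (by decide)) (f.injective.ne (by decide))
    (f.injective.ne (by decide)) (f.injective.ne (by decide)) (f.injective.ne (by decide)) hx'
  rw [← h3, M.mul _ hx.1 _ hx.1, hx.2, one_mul] at hz
  obtain ⟨v, hv⟩ := exists_ne (0 : V)
  have : v = -v := LinearMap.congr_fun hz v
  exact hv ((smul_eq_zero.mp (show (2 : k) • v = 0 by linear_combination (norm := module) this)).resolve_left h2)

variable [FiniteDimensional k V] [IsAlgClosed k]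

theorem Cov.half (h2 : (2 : k) ≠ 0) (M : MO ((Alt S).comap τ) R) (hz : R z = -1) {T : Finset α} (hT : T ⊆ S)
    (hc : #T = 4) : ∃ (W : Submodule k V) (R' : Γ → End k W), finrank k V = 2 * finrank k W ∧
      MO ((Alt (S \ T)).comap τ) R' ∧ R' z = -1 := by
  obtain ⟨e, hS, he⟩ := exists_emb hT hc le_rfl (hc ▸ card_le_card hT)
  have m1 : E e (swap 0 1 * swap 1 3) ∈ Alt T := he ▸ E_in e _ (by decide)
  have m2 : E e (swap 2 1 * swap 1 3) ∈ Alt T := he ▸ E_in e _ (by decide)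
  have m3 : E e (swap 0 2 * swap 1 3) ∈ Alt S := E_mem' e hS (by decide)
  obtain ⟨l1, e1, p1⟩ := C.lift (m := 3) (by decide) m1.1 (E_pow e (by decide))
  obtain ⟨l2, e2, p2⟩ := C.lift (m := 3) (by decide) m2.1 (E_pow e (by decide))
  obtain ⟨b, e3⟩ := C.surj _ m3.1
  have hd : ∀ (g : Γ) (a b c d : Fin 4), [a, b, c, d].Nodup → τ g = E e (swap a b * swap c d) → g * g = z :=
    fun g a b c d h h' => by
      simp only [List.nodup_cons, List.mem_cons, List.not_mem_nil, or_false, not_or] at h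
      exact C.dbl g _ _ _ _ (e.injective.ne h.1.1) (e.injective.ne h.1.2.1) (e.injective.ne h.1.2.2)
        (e.injective.ne h.2.1.1) (e.injective.ne h.2.1.2) (e.injective.ne h.2.2.1) (by rw [h', map_mul, E_swap, E_swap])
  have aa := hd (l1 * l2) 0 1 2 3 (by decide) (by rw [map_mul, e1, e2, ← map_mul]; congr 1; decide)
  have bb := hd b 0 2 1 3 (by decide) e3
  have ab := hd (l1 * l2 * b) 0 3 1 2 (by decide) (by
    rw [map_mul, map_mul, e1, e2, e3, ← map_mul, ← map_mul]; congr 1; decide)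
  have ma : l1 * l2 ∈ (Alt S).comap τ := mul_mem (show τ l1 ∈ _ from e1 ▸ Alt_mono hT m1)
    (show τ l2 ∈ _ from e2 ▸ Alt_mono hT m2)
  have mb : b ∈ (Alt S).comap τ := show τ b ∈ _ from e3 ▸ m3
  have hcm : ∀ g ∈ (Alt (S \ T)).comap τ, l1 * l2 * g = g * (l1 * l2) := fun g hg => by
    rw [mul_assoc, C.comm (by decide) p2 disjoint_sdiff (e2 ▸ m2) hg, ← mul_assoc,
      C.comm (by decide) p1 disjoint_sdiff (e1 ▸ m1) hg, mul_assoc]
  generalize l1 * l2 = a at *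
  have hab : a * b = b * a ^ 3 := by
    have h1 : b * a * b = a := mul_left_cancel (a := a) (by rw [aa, ← ab]; group)
    calc a * b = b * a * (b * b) := by conv_lhs => rw [← h1]
                                       group
      _ = b * a ^ 3 := by rw [bb, ← aa]; simp only [pow_succ, pow_zero, one_mul, mul_assoc]
  obtain ⟨i, hi⟩ := IsAlgClosed.exists_pow_nat_eq (-1 : k) two_pos
  have hx : ∀ c c' : k, c ^ 3 = c' → finrank k ((R a).eigenspace c) ≤ finrank k ((R a).eigenspace c') :=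
    fun c _ h => h ▸ M.le mb fun v hv => M.conj_eig ma mb ma hab hv
  have d1 := hx i (-i) (by linear_combination i * hi)
  have d2 := hx (-i) i (by linear_combination -i * hi)
  have q : ∀ v, R a (R a v) = -v := fun v => by rw [M.app ma ma, aa, hz]; rfl
  have d3 := Submodule.finrank_sup_add_finrank_inf_eq ((R a).eigenspace i) ((R a).eigenspace (-i))
  rw [(eig_disj (R a) (fun h => one_ne_zero (α := k) (by
    have : i = 0 := (mul_eq_zero.mp (show 2 * i = 0 by linear_combination h)).resolve_left h2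
    rw [this] at hi; linear_combination hi))).eq_bot, finrank_bot,
    show (R a).eigenspace i ⊔ (R a).eigenspace (-i) = ⊤ from top_le_iff.mp fun v _ => ?_, finrank_top] at d3
  · obtain ⟨R', M', hz', -⟩ := C.res M hz sdiff_subset ((R a).eigenspace i) fun g hg w hw =>
      M.comm_eig ma (Subgroup.comap_mono (Alt_mono sdiff_subset) hg) ma (hcm g hg) hw
    exact ⟨_, R', by omega, M', hz'⟩
  · have c1 : v - i • R a v ∈ (R a).eigenspace i := mem_eigenspace_iff.mpr (by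
      rw [map_sub, map_smul, q]; linear_combination (norm := module) hi • R a v)
    have c2 : v + i • R a v ∈ (R a).eigenspace (-i) := mem_eigenspace_iff.mpr (by
      rw [map_add, map_smul, q]; linear_combination (norm := module) hi • R a v)
    have := Submodule.smul_mem _ (2 : k)⁻¹ (add_mem (Submodule.mem_sup_left c1) (Submodule.mem_sup_right c2))
    rwa [show v - i • R a v + (v + i • R a v) = (2 : k) • v by module, inv_smul_smul₀ h2] at this

theorem Cov.ev (h2 : (2 : k) ≠ 0) (M : MO ((Alt S).comap τ) R) (hz : R z = -1) (h4 : 4 ≤ #S) : 2 ∣ finrank k V := by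
  obtain ⟨T, hT, c⟩ := exists_subset_card_eq h4
  obtain ⟨W, -, h, -⟩ := C.half h2 M hz hT c
  exact ⟨_, h⟩

theorem Cov.ev4 (h2 : (2 : k) ≠ 0) (M : MO ((Alt S).comap τ) R) (hz : R z = -1) (h4 : 8 ≤ #S) : 4 ∣ finrank k V := by
  obtain ⟨T, hT, c⟩ := exists_subset_card_eq (s := S) (n := 4) (by omega)
  obtain ⟨W, R', h, M', hz'⟩ := C.half h2 M hz hT c
  have := C.ev h2 M' hz' (by rw [card_sdiff_of_subset hT]; omega)
  omega

theorem Cov.cyc (h2 : (2 : k) ≠ 0) [Nontrivial V] (M : MO ((Alt S).comap τ) R) (hz : R z = -1) (h5 : 5 ≤ #S) {q j : ℕ}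
    (hq : q.Prime) (ho : Odd q) (hk : (q : k) ≠ 0) {A : Finset α} (hA : A ⊆ S) {σ η : Perm α} (hσ : σ ∈ Alt A)
    (h0 : σ ≠ 1) (h1 : σ ^ q = 1) (hη : η ∈ Alt S) (e : σ * η = η * σ ^ j)
    (hj : ∀ a ∈ Finset.Ioo 0 q, ∃ t < q, j ^ t % q = a) :
    ∃ u, τ u = σ ∧ u ^ q = 1 ∧ ∃ y : k, IsPrimitiveRoot y q ∧ (∀ a ∈ Ioo 0 q, (R u).eigenspace (y ^ a) ≠ ⊥) ∧
      ∑ a ∈ Ioo 0 q, finrank k ((R u).eigenspace (y ^ a)) ≤ finrank k V ∧
      (∀ c, ∀ g ∈ (Alt (S \ A)).comap τ, ∀ w ∈ (R u).eigenspace c, R g w ∈ (R u).eigenspace c) ∧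
      (#A + 4 ≤ #S → ∀ a ∈ Ioo 0 q, 2 ≤ finrank k ((R u).eigenspace (y ^ a))) := by
  obtain ⟨u, rfl, hu⟩ := C.lift ho hσ.1 h1
  obtain ⟨h, rfl⟩ := C.surj _ hη.1
  have mu : u ∈ (Alt S).comap τ := Alt_mono hA hσ
  obtain ⟨y, hy, p1, p2⟩ := M.rat mu hη hq hk hu (C.faithful h2 M hz h5 mu h0) (C.rel ho hu hu e) hj
  have hi : ∀ c, ∀ g ∈ (Alt (S \ A)).comap τ, ∀ w ∈ (R u).eigenspace c, R g w ∈ (R u).eigenspace c :=
    fun c g hg w hw => M.comm_eig mu (Subgroup.comap_mono (Alt_mono sdiff_subset) hg) mu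
      (C.comm ho hu disjoint_sdiff hσ hg) hw
  refine ⟨u, rfl, hu, y, hy, p1, p2, hi, fun h4 a ha => ?_⟩
  obtain ⟨R', M', hz', -⟩ := C.res M hz sdiff_subset _ (hi (y ^ a))
  have := C.ev h2 M' hz' (by rw [card_sdiff_of_subset hA]; omega)
  have := pos_of_ne (p1 a ha)
  omega

theorem Cov.seven (h2 : (2 : k) ≠ 0) (h7 : (7 : k) ≠ 0) [Nontrivial V] (M : MO ((Alt S).comap τ) R) (hz : R z = -1)
    (h9 : 9 ≤ #S) : 8 ≤ finrank k V ∧ (11 ≤ #S → 12 ≤ finrank k V) := by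
  obtain ⟨e, hS, -⟩ := exists_emb (empty_subset S) card_empty (Nat.zero_le 9) h9
  obtain ⟨u, -, -, y, -, p1, p2, -, p3⟩ := C.cyc h2 M hz (by omega) (q := 7) (j := 3) (by decide) (by decide)
    (by exact_mod_cast h7) (A := ({0, 1, 2, 3, 4, 5, 6} : Finset (Fin 9)).map e) (fun _ h => by
      obtain ⟨i, -, rfl⟩ := mem_map.mp h; exact hS i)
    (E_in e (σ := swap 0 1 * swap 1 2 * swap 2 3 * swap 3 4 * swap 4 5 * swap 5 6) _ (by decide +kernel))
    (E_ne e (by decide +kernel)) (E_pow e (by decide +kernel))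
    (E_mem' e hS (σ := swap 1 5 * swap 5 4 * swap 4 6 * swap 6 2 * swap 2 3 * swap 7 8) (by decide +kernel))
    (E_rel e (by decide +kernel)) (by decide)
  have a1 := (card_nsmul_le_sum _ _ 1 fun a ha => pos_of_ne (p1 a ha)).trans p2
  have a2 := C.ev4 h2 M hz (by omega)
  refine ⟨by simp at a1; omega, fun h => ?_⟩
  simpa using (card_nsmul_le_sum _ _ 2 (p3 (by rw [card_map]; exact h))).trans p2

theorem Cov.five (h2 : (2 : k) ≠ 0) (h5 : (5 : k) ≠ 0) [Nontrivial V] (M : MO ((Alt S).comap τ) R) (hz : R z = -1)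
    (h9 : 9 ≤ #S) : 8 ≤ finrank k V := by
  obtain ⟨e, hS, -⟩ := exists_emb (empty_subset S) card_empty (Nat.zero_le 9) h9
  obtain ⟨u, -, -, y, -, -, p2, -, p3⟩ := C.cyc h2 M hz (by omega) (q := 5) (j := 2) (by decide) (by decide)
    (by exact_mod_cast h5) (A := ({0, 1, 2, 3, 4} : Finset (Fin 9)).map e) (fun _ h => by
      obtain ⟨i, -, rfl⟩ := mem_map.mp h; exact hS i)
    (E_in e (σ := swap 0 1 * swap 1 2 * swap 2 3 * swap 3 4) _ (by decide +kernel))
    (E_ne e (by decide +kernel)) (E_pow e (by decide +kernel))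
    (E_mem' e hS (σ := swap 1 3 * swap 3 4 * swap 4 2 * swap 7 8) (by decide +kernel))
    (E_rel e (by decide +kernel)) (by decide)
  simpa using (card_nsmul_le_sum _ _ 2 (p3 (by rw [card_map]; exact h9))).trans p2

theorem Cov.ten (h2 : (2 : k) ≠ 0) (h5 : (5 : k) ≠ 0) [Nontrivial V] (M : MO ((Alt S).comap τ) R) (hz : R z = -1)
    (h9 : 10 ≤ #S) : 12 ≤ finrank k V := by
  obtain ⟨e, hS, -⟩ := exists_emb (empty_subset S) card_empty (Nat.zero_le 10) h9
  have hA : ({0, 1, 2, 3, 4} : Finset (Fin 10)).map e ⊆ S := fun _ h => by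
    obtain ⟨i, -, rfl⟩ := mem_map.mp h; exact hS i
  have m1 := E_in e (σ := swap 0 1 * swap 1 2 * swap 2 3 * swap 3 4) {0, 1, 2, 3, 4} (by decide +kernel)
  have m2 := E_out e hS (σ := swap 5 6 * swap 6 7 * swap 7 8 * swap 8 9) {0, 1, 2, 3, 4} (by decide +kernel)
  have n1 := E_mem' e hS (σ := swap 1 3 * swap 3 4 * swap 4 2 * (swap 6 8 * swap 8 9 * swap 9 7)) (by decide +kernel)
  have n2 := E_mem' e hS (σ := swap 6 9 * swap 7 8) (by decide +kernel)
  have n3 := E_mem' e hS (σ := swap 0 5 * swap 1 6 * swap 2 7 * swap 3 8 * swap 4 9 * (swap 6 8 * swap 8 9 * swap 9 7))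
    (by decide +kernel)
  obtain ⟨u, eu, hu, y, hy, p1, p2, hi, p3⟩ := C.cyc h2 M hz (by omega) (q := 5) (j := 2) (by decide) (by decide)
    (by exact_mod_cast h5) hA m1 (E_ne e (by decide +kernel)) (E_pow e (by decide +kernel)) n1
    (E_rel e (by decide +kernel)) (by decide)
  obtain ⟨v, ev, hv⟩ := C.lift (m := 5) (by decide) m2.1 (E_pow e (by decide +kernel))
  obtain ⟨g1, f1⟩ := C.surj _ n1.1
  obtain ⟨g2, f2⟩ := C.surj _ n2.1
  obtain ⟨g3, f3⟩ := C.surj _ n3.1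
  have mu : u ∈ (Alt S).comap τ := show τ u ∈ _ from eu ▸ Alt_mono hA m1
  have mv' : v ∈ (Alt _).comap τ := show τ v ∈ _ from ev ▸ m2
  have mv : v ∈ (Alt S).comap τ := Alt_mono sdiff_subset mv'
  let Q : ℕ → ℕ → Prop := fun a b => (R u).eigenspace (y ^ a) ⊓ (R v).eigenspace (y ^ b) ≠ ⊥
  have tr : ∀ g ∈ (Alt S).comap τ, ∀ a b c d : ℕ, (∀ w ∈ (R u).eigenspace (y ^ a) ⊓ (R v).eigenspace (y ^ b),
      R g w ∈ (R u).eigenspace (y ^ c) ⊓ (R v).eigenspace (y ^ d)) → Q a b → Q (c % 5) (d % 5) :=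
    fun g hg a b c d h hQ => by
      obtain ⟨w, hw, h0⟩ := (Submodule.ne_bot_iff _).mp hQ
      exact (Submodule.ne_bot_iff _).mpr ⟨_, by
        rw [← pow_eq_pow_mod _ hy.pow_eq_one, ← pow_eq_pow_mod _ hy.pow_eq_one]; exact h w hw, M.ne_zero hg h0⟩
  have o5 : Odd 5 := by decide
  have k1 : g1 ∈ (Alt S).comap τ := show τ g1 ∈ _ from f1 ▸ n1
  have k2 : g2 ∈ (Alt S).comap τ := show τ g2 ∈ _ from f2 ▸ n2
  have k3 : g3 ∈ (Alt S).comap τ := show τ g3 ∈ _ from f3 ▸ n3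
  have r1 : ∀ a b, Q a b → Q (a * 2 % 5) (b * 2 % 5) := fun a b => tr g1 k1 a b _ _ fun w hw => by
    rw [pow_mul, pow_mul]
    exact ⟨M.conj_eig mu k1 mu (C.rel o5 hu hu (by rw [eu, f1]; exact E_rel e (by decide +kernel))) hw.1,
      M.conj_eig mv k1 mv (C.rel o5 hv hv (by rw [ev, f1]; exact E_rel e (by decide +kernel))) hw.2⟩
  have r2 : ∀ a b, Q a b → Q (a * 1 % 5) (b * 4 % 5) := fun a b => tr g2 k2 a b _ _ fun w hw => by
    rw [pow_mul, pow_mul]
    exact ⟨M.conj_eig mu k2 mu (C.rel o5 hu hu (by rw [eu, f2]; exact E_rel e (by decide +kernel))) hw.1,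
      M.conj_eig mv k2 mv (C.rel o5 hv hv (by rw [ev, f2]; exact E_rel e (by decide +kernel))) hw.2⟩
  have r3 : ∀ a b, Q a b → Q (b * 2 % 5) (a * 1 % 5) := fun a b => tr g3 k3 a b _ _ fun w hw => by
    rw [pow_mul, pow_mul]
    exact ⟨M.conj_eig mv k3 mu (C.rel o5 hv hu (by rw [eu, ev, f3]; exact E_rel e (by decide +kernel))) hw.2,
      M.conj_eig mu k3 mv (C.rel o5 hu hv (by rw [eu, ev, f3]; exact E_rel e (by decide +kernel))) hw.1⟩
  have s14 : Q 1 1 → Q 1 4 := r2 1 1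
  have s41 : Q 1 4 → Q 1 1 := r2 1 4
  have s23 : Q 1 2 → Q 1 3 := r2 1 2
  have s32 : Q 1 3 → Q 1 2 := r2 1 3
  have s13 : Q 1 1 → Q 1 3 := fun h => r1 3 4 (r1 4 2 (r1 2 1 (r3 1 1 h)))
  have s31 : Q 1 3 → Q 1 1 := r3 1 3
  have q1 : Q 1 1 := by
    obtain ⟨R', M', hz', hR⟩ := C.res M hz sdiff_subset _ (hi (y ^ 1))
    haveI := Submodule.nontrivial_iff_ne_bot.mpr (p1 1 (by decide))
    obtain ⟨c, c1, c5, hc⟩ := exists_eig_ne (R' v) (m := 5) (by exact_mod_cast h5) (by rw [← M'.pow mv', hv, M'.one])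
      (C.faithful h2 M' hz' (by
        rw [card_sdiff_of_subset hA, card_map, show #({0, 1, 2, 3, 4} : Finset (Fin 10)) = 5 from rfl]; omega) mv'
        (by rw [ev]; exact E_ne e (by decide +kernel)))
    obtain ⟨b, hb, rfl⟩ := hy.eq_pow_of_pow_eq_one c5
    obtain ⟨w, hw, h0⟩ := (Submodule.ne_bot_iff _).mp hc
    have hQ : Q 1 b := (Submodule.ne_bot_iff _).mpr ⟨w, ⟨w.2, mem_eigenspace_iff.mpr (by
      rw [← hR v mv', mem_eigenspace_iff.mp hw]; rfl)⟩, fun h => h0 (Subtype.ext h)⟩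
    interval_cases b
    exacts [absurd (pow_zero y) c1, hQ, s31 (s23 hQ), s31 hQ, s41 hQ]
  have hne : ∀ a b, a < 5 → b < 5 → a ≠ b → y ^ a ≠ y ^ b := fun a b ha hb h h' => h (hy.pow_inj ha hb h')
  have d1 := three_le (R v) (hne 1 3 (by omega) (by omega) (by omega)) (hne 1 4 (by omega) (by omega) (by omega))
    (hne 3 4 (by omega) (by omega) (by omega)) (X := (R u).eigenspace (y ^ 1)) inf_le_right inf_le_right inf_le_right
    inf_le_left inf_le_left inf_le_left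
  have b1 := pos_of_ne q1
  have b2 := pos_of_ne (s13 q1)
  have b3 := pos_of_ne (s14 q1)
  have p4 := p3 (by rw [card_map, show #({0, 1, 2, 3, 4} : Finset (Fin 10)) = 5 from rfl]; omega)
  have c2 := p4 2 (by decide)
  have c3 := p4 3 (by decide)
  have c4 := p4 4 (by decide)
  rw [show Ioo 0 5 = {1, 2, 3, 4} from rfl, sum_insert (by decide), sum_insert (by decide), sum_pair (by decide)] at p2
  have := C.ev4 h2 M hz (by omega)
  omega

omit [FiniteDimensional k V] [AddCommGroup V] [Module k V] in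
theorem Cov.spin (h2 : (2 : k) ≠ 0) (n : ℕ) : ∀ S : Finset α, #S = n → 9 ≤ n → ∀ (V : Type v) [AddCommGroup V]
    [Module k V] [FiniteDimensional k V] [Nontrivial V] (R : Γ → End k V), MO ((Alt S).comap τ) R → R z = -1 →
    Bd k n (finrank k V) := by
  induction n using Nat.strong_induction_on with
  | _ n ih =>
  intro S hS h9 V _ _ _ _ R M hz
  by_cases h13 : 13 ≤ n
  · obtain ⟨T, hT, c⟩ := exists_subset_card_eq (s := S) (n := 4) (by omega)
    obtain ⟨W, R', h, M', hz'⟩ := C.half h2 M hz hT c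
    have := finrank_pos (R := k) (M := V)
    haveI : Nontrivial W := nontrivial_of_finrank_pos (R := k) (by omega)
    rcases ih (n - 4) (by omega) (S \ T) (by rw [card_sdiff_of_subset hT]; omega) (by omega) W R' M' hz' with e | e <;>
      exact Or.inl (by omega)
  by_cases h5 : (5 : k) = 0
  · obtain ⟨a, b⟩ := C.seven h2 (fun e => h2 (by linear_combination e - h5)) M hz (by omega)
    obtain rfl | rfl | h : n = 9 ∨ n = 10 ∨ 11 ≤ n := by omega
    · exact Or.inl (by omega)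
    · exact Or.inr ⟨by omega, by push_cast; linear_combination 2 * h5⟩
    · have := b (by omega); exact Or.inl (by omega)
  · have a := C.five h2 h5 M hz (by omega)
    obtain rfl | h : n = 9 ∨ 10 ≤ n := by omega
    · exact Or.inl (by omega)
    · have := C.ten h2 h5 M hz (by omega); exact Or.inl (by omega)

end CA.H4Alt
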