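/-
Alternating sections of linear groups: generic lemmas for the reduction to quasisimple groups.
-/
import Cfsg.Agent.Lib.Perm.H4Alt4
import Cfsg.Agent.Lib.Grp.SchurAlt
import Mathlib.GroupTheory.Frattini
import Mathlib.RepresentationTheory.Basic
import Mathlib.Algebra.Module.ZMod
import Mathlib.FieldTheory.Finiteness
import Mathlib.FieldTheory.IsAlgClosed.AlgebraicClosure
import Mathlib.GroupTheory.SpecificGroups.Alternating.Simple

set_option autoImplicit false

namespace CA.H4Alt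

open Module Module.End Equiv Equiv.Perm Finset
open scoped commutatorElement

universe u

section Lin
variable {k V : Type*} [Field k] [AddCommGroup V] [Module k V]

theorem wt_indep {A ι : Type*} (f : A → End k V) (v : ι → V) (χ : ι → A → k) (hv : ∀ i, v i ≠ 0)
    (hχ : Function.Injective χ) (h : ∀ i a, f a (v i) = χ i a • v i) : LinearIndependent k v := by
  classical
  rw [linearIndependent_iff']
  intro s
  induction s using Finset.induction_on with
  | empty => simp
  | insert j t hj ih =>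
    intro c hc
    rw [sum_insert hj] at hc
    have h1 : ∀ i ∈ t, c i = 0 := fun i hi => by
      have hij : χ i ≠ χ j := fun e => hj (hχ e ▸ hi)
      obtain ⟨a, ha⟩ := Function.ne_iff.mp hij
      have h2 : ∑ l ∈ t, (c l * (χ l a - χ j a)) • v l = 0 := by
        have h3 := congrArg (fun x => f a x - χ j a • x) hc
        simp only [map_add, map_smul, map_sum, h, smul_add, smul_sum, map_zero, smul_zero, sub_zero] at h3
        rw [smul_comm (c j), add_sub_add_left_eq_sub, ← sum_sub_distrib] at h3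
        rw [← h3]
        refine sum_congr rfl fun l _ => ?_
        rw [smul_smul, smul_smul, ← sub_smul]; congr 1; ring
      exact (mul_eq_zero.mp (ih _ h2 i hi)).resolve_right (sub_ne_zero.mpr ha)
    rw [sum_eq_zero (fun i hi => by rw [h1 i hi, zero_smul]), add_zero] at hc
    intro i hi
    rcases mem_insert.mp hi with rfl | hi
    · exact (smul_eq_zero.mp hc).resolve_right (hv _)
    · exact h1 i hi

theorem common_eig [IsAlgClosed k] [FiniteDimensional k V] [Nontrivial V] {A : Type*} (f : A → End k V)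
    (hc : ∀ a b, f a * f b = f b * f a) : ∃ v : V, v ≠ 0 ∧ ∀ a, ∃ c : k, f a v = c • v := by
  obtain ⟨W, ⟨h1, h2⟩, h3⟩ := (wellFounded_lt (α := Submodule k V)).has_min
    {W | W ≠ ⊥ ∧ ∀ a, ∀ w ∈ W, f a w ∈ W} ⟨⊤, top_ne_bot, fun _ _ _ => trivial⟩
  obtain ⟨v, hv, hv0⟩ := (Submodule.ne_bot_iff W).mp h1
  refine ⟨v, hv0, fun a => ?_⟩
  obtain ⟨c, w, hw, hw0, hw1⟩ := exists_eig (f a) W h1 (h2 a)
  have h4 : W ⊓ (f a).eigenspace c = W := by
    by_contra hne
    refine h3 (W ⊓ (f a).eigenspace c) ⟨(Submodule.ne_bot_iff _).mpr ⟨w, ⟨hw, mem_eigenspace_iff.mpr hw1⟩, hw0⟩, fun b x hx =>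
      ⟨h2 b x hx.1, mem_eigenspace_iff.mpr ?_⟩⟩ (lt_of_le_of_ne inf_le_left hne)
    rw [← Module.End.mul_apply, hc, Module.End.mul_apply, mem_eigenspace_iff.mp hx.2, map_smul]
  exact ⟨c, mem_eigenspace_iff.mp (h4.ge hv).2⟩

theorem schur [IsAlgClosed k] [FiniteDimensional k V] [Nontrivial V] {H : Type*} [Group H] (ρ : H →* End k V)
    (hirr : ∀ W : Submodule k V, (∀ g, ∀ w ∈ W, ρ g w ∈ W) → W = ⊥ ∨ W = ⊤) {z : H}
    (hz : z ∈ Subgroup.center H) : ∃ c : k, ∀ v, ρ z v = c • v := by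
  obtain ⟨c, w, -, hw0, hw1⟩ := exists_eig (ρ z) ⊤ top_ne_bot (fun _ _ => trivial)
  rcases hirr ((ρ z).eigenspace c) (fun g x hx => mem_eigenspace_iff.mpr (by
    rw [← Module.End.mul_apply, ← map_mul, ← Subgroup.mem_center_iff.mp hz g, map_mul, Module.End.mul_apply,
      mem_eigenspace_iff.mp hx, map_smul])) with e | e
  · exact absurd (e.le (mem_eigenspace_iff.mpr hw1)) hw0
  · exact ⟨c, fun v => mem_eigenspace_iff.mp (e.ge trivial)⟩

end Lin

theorem base {F K : Type*} [Field F] [Field K] (φ : F →+* K) (n : ℕ) :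
    ∃ ψ : Matrix (Fin n) (Fin n) F →* End K (Fin n → K), Function.Injective ψ :=
  ⟨(Matrix.toLinAlgEquiv' (R := K) (n := Fin n)).toMonoidHom.comp (RingHom.mapMatrix φ).toMonoidHom,
    (Matrix.toLinAlgEquiv' (R := K) (n := Fin n)).injective.comp (Matrix.map_injective φ.injective)⟩

theorem rep_elem {Q : Type*} [Group Q] [Finite Q] (hc : ∀ a b : Q, a * b = b * a) (s : ℕ) [Fact s.Prime]
    (hs : ∀ q : Q, q ^ s = 1) : ∃ e, Nat.card Q = s ^ e ∧
      ∃ ψ : MulAut Q →* End (AlgebraicClosure (ZMod s)) (Fin e → AlgebraicClosure (ZMod s)),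
        Function.Injective ψ := by
  letI : CommGroup Q := { ‹Group Q› with mul_comm := hc }
  haveI : NeZero s := ⟨(Fact.out : s.Prime).ne_zero⟩
  letI : Module (ZMod s) (Additive Q) := AddCommGroup.zmodModule (n := s) fun x => hs x.toMul
  haveI : Module.Finite (ZMod s) (Additive Q) := Module.Finite.of_finite
  refine ⟨finrank (ZMod s) (Additive Q), ?_, ?_⟩
  · have := Module.natCard_eq_pow_finrank (K := ZMod s) (V := Additive Q)
    rwa [Nat.card_zmod] at this
  · obtain ⟨ψ, hψ⟩ := base (algebraMap (ZMod s) (AlgebraicClosure (ZMod s))) (finrank (ZMod s) (Additive Q))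
    let b := Module.finBasis (ZMod s) (Additive Q)
    let ψ0 : MulAut Q →* End (ZMod s) (Additive Q) :=
      { toFun := fun f => AddMonoidHom.toZModLinearMap s (MonoidHom.toAdditive f.toMonoidHom)
        map_one' := by ext; rfl
        map_mul' := fun _ _ => by ext; rfl }
    refine ⟨ψ.comp ((LinearMap.toMatrixAlgEquiv b).toMonoidHom.comp ψ0),
      hψ.comp ((LinearMap.toMatrixAlgEquiv b).injective.comp fun f g h => ?_)⟩
    ext x
    exact LinearMap.congr_fun h (Additive.ofMul x)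

theorem sq_le_two_pow (e : ℕ) (h : 6 ≤ e) : (e + 1) ^ 2 ≤ 2 ^ e := by
  induction e, h using Nat.le_induction with
  | base => norm_num
  | succ n hn ih => rw [pow_succ 2]; nlinarith

theorem index_ge {r : ℕ} (hr : 5 ≤ r) (T : Subgroup (alternatingGroup (Fin r))) (hT : T ≠ ⊤) : r ≤ T.index := by
  haveI := alternatingGroup.isSimpleGroup (α := Fin r) (by simpa using hr)
  by_contra hlt
  have h1 : T.normalCore = ⊥ := (T.normalCore_normal.eq_bot_or_eq_top).resolve_right fun e =>
    hT (top_le_iff.mp (e ▸ T.normalCore_le))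
  rw [Subgroup.normalCore_eq_ker, MonoidHom.ker_eq_bot_iff] at h1
  have h2 := Nat.card_le_card_of_injective _ h1
  rw [Nat.card_perm, ← Subgroup.index_eq_card] at h2
  have h3 := CA.SchurAlt.card_alt r (by omega)
  obtain ⟨m, rfl⟩ : ∃ m, r = m + 1 := ⟨r - 1, by omega⟩
  have h4 : T.index.factorial ≤ m.factorial := Nat.factorial_le (by omega)
  rw [Nat.factorial_succ] at h3
  have := m.factorial_pos
  nlinarith

theorem Bd.mono {k : Type*} [Field k] {n d d' : ℕ} (h : Bd k n d) (hd : d ≤ d') : Bd k n d' := by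
  rcases h with h | h
  · exact Or.inl (by omega)
  · exact Or.inr ⟨by omega, h.2⟩

section Red
variable {H : Type*} [Group H] {r : ℕ} {π : H →* alternatingGroup (Fin r)}
  {k V : Type} [Field k] [AddCommGroup V] [Module k V] [IsAlgClosed k] [FiniteDimensional k V]

theorem nontriv (hr : 9 ≤ r) (hs : Function.Surjective π) : ∃ h, π h ≠ 1 := by
  haveI := alternatingGroup.isSimpleGroup (α := Fin r) (by simp; omega)
  obtain ⟨x, hx⟩ := exists_ne (1 : alternatingGroup (Fin r))
  obtain ⟨h, rfl⟩ := hs x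
  exact ⟨h, hx⟩

theorem central (hr : 9 ≤ r) (hτ : Cfsg.IsStemExtension π) (hmin : ∀ L : Subgroup H, L.map π = ⊤ → L = ⊤)
    (ρ : H →* End k V) (hρ : Function.Injective ρ)
    (hirr : ∀ W : Submodule k V, (∀ g, ∀ w ∈ W, ρ g w ∈ W) → W = ⊥ ∨ W = ⊤) : Bd k r (finrank k V) := by
  classical
  obtain ⟨h0, hh0⟩ := nontriv hr hτ.1
  by_cases hk : π.ker = ⊥
  · let e := MulEquiv.ofBijective π ⟨(MonoidHom.ker_eq_bot_iff _).mp hk, hτ.1⟩
    have hA : ∀ σ ∈ Alt (univ : Finset (Fin r)), σ ∈ alternatingGroup (Fin r) := fun σ h => h.1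
    refine lin r univ (by simp) hr V (fun σ => if h : σ ∈ alternatingGroup (Fin r) then ρ (e.symm ⟨σ, h⟩) else 1)
      ⟨?_, fun g hg h hh => ?_⟩ ⟨π h0, ⟨(π h0).2, by simp⟩, ?_⟩
    · rw [dif_pos (one_mem _)]; exact (congrArg ρ (map_one e.symm)).trans (map_one ρ)
    · rw [dif_pos (hA _ hg), dif_pos (hA _ hh), dif_pos (hA _ (mul_mem hg hh)), ← map_mul, ← map_mul]; rfl
    · simp only [dif_pos (π h0).2]
      intro h
      have h1 : e.symm (π h0) = 1 := hρ (h.trans (map_one ρ).symm)
      exact hh0 ((map_eq_one_iff _ e.symm.injective).mp h1)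
  · have h8 : 8 ≤ Fintype.card (Fin r) := by simp; omega
    have h2 : Nat.card π.ker = 2 := by
      rcases (Nat.dvd_prime Nat.prime_two).mp (CA.SchurAlt.card_dvd_two_of_eight hτ h8) with e | e
      · exact absurd (Subgroup.eq_bot_of_card_eq _ e) hk
      · exact e
    obtain ⟨y, hy1, hy⟩ := (Nat.card_eq_two_iff' (1 : π.ker)).mp h2
    have hsq : ∀ a ∈ π.ker, a ^ 2 = 1 := fun a ha =>
      h2 ▸ congrArg Subtype.val (pow_card_eq_one' (x := (⟨a, ha⟩ : π.ker)))
    have hz : ∀ a ∈ π.ker, a ≠ 1 → a = y := fun a ha h =>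
      congrArg Subtype.val (hy ⟨a, ha⟩ fun e => h (congrArg Subtype.val e))
    have hy0 : (y : H) ≠ 1 := fun e => hy1 (Subtype.ext e)
    haveI : Nontrivial V := by
      by_contra hV
      haveI := not_nontrivial_iff_subsingleton.mp hV
      exact hy0 (hρ (Subsingleton.elim _ _))
    obtain ⟨L, hL⟩ := CA.SchurAlt.exists_lifts_of_eight hτ.1 hτ.2.1 h8
    have hns : ∀ f, π.comp f ≠ MonoidHom.id _ := fun f hf => by
      have hf' : ∀ a, π (f a) = a := DFunLike.congr_fun hf
      have h3 := hmin f.range (top_le_iff.mp fun a _ => ⟨f a, ⟨a, rfl⟩, hf' a⟩)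
      obtain ⟨a, ha⟩ : (y : H) ∈ f.range := h3.ge trivial
      have h4 : a = 1 := by rw [← hf' a, ha]; exact y.2
      exact hy0 (by rw [← ha, h4, map_one])
    have C : Cov ((alternatingGroup (Fin r)).subtype.comp π) y := by
      refine ⟨fun g => Subgroup.mem_center_iff.mp (hτ.2.1 y.2) g, by rw [← pow_two]; exact hsq _ y.2,
        congrArg Subtype.val y.2, fun g hg => ?_, fun σ hσ => ?_, fun x a b c d ab ac ad bc bd cd h5 => ?_⟩
      · by_cases h : g = 1
        · exact Or.inl h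
        · exact Or.inr (hz g (Subtype.ext hg) h)
      · obtain ⟨g, hg⟩ := hτ.1 ⟨σ, hσ⟩
        exact ⟨g, congrArg Subtype.val hg⟩
      · have h6 := (CA.SchurAlt.z_ne_one hτ.1 hτ.2.1 hL bd hsq hns).2 ⟨a, ab, ad⟩
          ⟨c, Ne.symm bc, cd⟩ (fun e => ac (congrArg Subtype.val e))
        have h6' := CA.SchurAlt.z_mem hL bd (i := ⟨a, ab, ad⟩) (j := ⟨c, Ne.symm bc, cd⟩)
          (fun e => ac (congrArg Subtype.val e))
        have h7 : (L a b d * L c b d)⁻¹ * x ∈ π.ker := by
          rw [MonoidHom.mem_ker, map_mul, map_inv, inv_mul_eq_one, map_mul, hL.map _ _ _ ab bd ad,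
            hL.map _ _ _ (Ne.symm bc) bd cd]
          refine Subtype.ext ((CA.SchurCarm.cyc_mul ac ab ad (Ne.symm bc) cd bd).trans ?_)
          exact h5.symm
        have h8 : Commute (L a b d * L c b d) ((L a b d * L c b d)⁻¹ * x) :=
          Subgroup.mem_center_iff.mp (hτ.2.1 h7) _
        have h9 := h8.mul_pow 2
        rw [mul_inv_cancel_left, hsq _ h7, mul_one] at h9
        rw [← pow_two, h9]
        exact hz _ h6' h6
    obtain ⟨c, hc⟩ := schur ρ hirr (hτ.2.1 y.2)
    obtain ⟨v, hv⟩ := exists_ne (0 : V)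
    have hc1 : c ≠ 1 := fun e => hy0 (hρ (by ext w; rw [hc, e, one_smul, map_one]; rfl))
    have hc2 : c * c = 1 := by
      have h3 : ρ y (ρ y v) = v := by rw [← Module.End.mul_apply, ← map_mul, C.zz, map_one]; rfl
      rw [hc, hc, smul_smul] at h3
      have h4 : (c * c - 1) • v = 0 := by rw [sub_smul, h3, one_smul, sub_self]
      exact sub_eq_zero.mp ((smul_eq_zero.mp h4).resolve_right hv)
    have hc3 : c = -1 := (mul_self_eq_one_iff.mp hc2).resolve_left hc1
    refine C.spin (fun e => hc1 ?_) r univ (by simp) hr V ρ ⟨map_one ρ, fun g _ h _ => map_mul ρ g h⟩ ?_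
    · rw [hc3]; linear_combination -e
    · ext w; rw [hc, hc3]; simp

end Red

end CA.H4Alt
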