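/-
Alternating sections of linear groups: the reduction to quasisimple groups.
-/
import Cfsg.Agent.Lib.Perm.H4Alt5

set_option autoImplicit false

namespace CA.H4Alt

open Module Module.End Equiv Equiv.Perm Finset
open scoped commutatorElement

universe u

section Red
variable {H : Type*} [Group H] {r : ℕ} {π : H →* alternatingGroup (Fin r)}
  {k V : Type} [Field k] [AddCommGroup V] [Module k V] [IsAlgClosed k] [FiniteDimensional k V]

theorem abel_case [Finite H] [Nontrivial V] (hr : 9 ≤ r) (hs : Function.Surjective π)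
    (hmin : ∀ L : Subgroup H, L.map π = ⊤ → L = ⊤) (ρ : H →* End k V) (hρ : Function.Injective ρ)
    (hirr : ∀ W : Submodule k V, (∀ g, ∀ w ∈ W, ρ g w ∈ W) → W = ⊥ ∨ W = ⊤)
    (A : Subgroup H) [hA : A.Normal] (hc : ∀ a ∈ A, ∀ b ∈ A, a * b = b * a) (hZ : ¬ A ≤ Subgroup.center H) :
    r ≤ finrank k V := by
  classical
  obtain ⟨v, hv0, hv⟩ := common_eig (fun a : A => ρ a) fun a b => by
    rw [← map_mul, ← map_mul, hc a a.2 b b.2]
  choose χ0 hχ0 using hv
  let χ : H → k := fun a => if h : a ∈ A then χ0 ⟨a, h⟩ else 0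
  have hχ : ∀ a ∈ A, ρ a v = χ a • v := fun a ha => by simp only [χ, dif_pos ha]; exact hχ0 ⟨a, ha⟩
  have hcj : ∀ g, ∀ a ∈ A, g⁻¹ * a * g ∈ A := fun g a ha => by simpa using hA.conj_mem a ha g⁻¹
  have hw : ∀ g, ∀ a ∈ A, ρ a (ρ g v) = χ (g⁻¹ * a * g) • ρ g v := fun g a ha => by
    rw [← map_smul, ← hχ _ (hcj g a ha), ← Module.End.mul_apply, ← Module.End.mul_apply, ← map_mul, ← map_mul]
    congr 2; group
  let T : Subgroup H :=
    { carrier := {h | ∀ a ∈ A, χ (h⁻¹ * a * h) = χ a}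
      one_mem' := fun a _ => by simp
      mul_mem' := fun {g h} hg hh a ha => by
        rw [← hg a ha, ← hh _ (hcj g a ha)]; congr 1; group
      inv_mem' := fun {h} hh a ha => by
        rw [← hh _ (hcj h⁻¹ a ha)]; congr 1; group }
  have hT : T ≠ ⊤ := fun e => hZ fun a ha => by
    have h1 : ∀ g, ρ a (ρ g v) = χ a • ρ g v := fun g => by rw [hw g a ha, (e.ge trivial : g ∈ T) a ha]
    rcases hirr (Submodule.span k (Set.range fun g => ρ g v)) (fun g w hw => by
      refine Submodule.span_induction ?_ ?_ ?_ ?_ hw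
      · rintro _ ⟨h, rfl⟩
        exact Submodule.subset_span ⟨g * h, by simp only [map_mul]; rfl⟩
      · simp
      · intro x y _ _ hx hy; rw [map_add]; exact add_mem hx hy
      · intro c x _ hx; rw [map_smul]; exact Submodule.smul_mem _ c hx) with h2 | h2
    · exact (hv0 (h2.le (Submodule.subset_span ⟨1, by simp⟩))).elim
    · have h3 : ρ a = χ a • (1 : End k V) := LinearMap.ext_on_range h2 fun g => by rw [h1]; rfl
      refine Subgroup.mem_center_iff.mpr fun g => hρ ?_
      rw [map_mul, map_mul, h3]; simp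
  have h1 : r ≤ T.index := (index_ge (by omega) (T.map π) fun e => hT (hmin _ e)).trans
    (Nat.le_of_dvd (Nat.pos_of_ne_zero T.index_ne_zero_of_finite) (T.index_map_dvd hs))
  have h2 := wt_indep (fun a : A => ρ a) (fun q : H ⧸ T => ρ q.out v) (fun q a => χ (q.out⁻¹ * a * q.out))
    (fun q e => hv0 (by
      have := congrArg (ρ q.out⁻¹) e
      rwa [← Module.End.mul_apply, ← map_mul, inv_mul_cancel, map_one, map_zero] at this))
    (fun q q' e => by
      rw [← q.out_eq, ← q'.out_eq]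
      refine QuotientGroup.eq.mpr fun a ha => ?_
      have h3 := congrFun e ⟨q.out * a * q.out⁻¹, hA.conj_mem a ha _⟩
      simp only at h3
      rw [show q.out⁻¹ * (q.out * a * q.out⁻¹) * q.out = a by group] at h3
      rw [h3]; congr 1; group)
    (fun q a => hw _ _ a.2)
  haveI := Fintype.ofFinite (H ⧸ T)
  have h3 := h2.fintype_card_le_finrank
  rw [← Nat.card_eq_fintype_card, ← Subgroup.index_eq_card] at h3
  omega

theorem card_le_sq [Finite H] [Nontrivial V] (ρ : H →* End k V) (hρ : Function.Injective ρ)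
    (hirr : ∀ W : Submodule k V, (∀ g, ∀ w ∈ W, ρ g w ∈ W) → W = ⊥ ∨ W = ⊤)
    (A : Subgroup H) (hc : ∀ a ∈ A, ∀ b ∈ A, ⁅a, b⁆ ∈ Subgroup.center H)
    (hZ : ∀ a ∈ A, (∀ b ∈ A, b * a = a * b) → a ∈ Subgroup.center H) :
    Nat.card (A.map (QuotientGroup.mk' (Subgroup.center H))) ≤ finrank k V ^ 2 := by
  classical
  have h1 : ∀ z : H, ∃ c : k, z ∈ Subgroup.center H → ∀ v, ρ z v = c • v := fun z => by
    by_cases hz : z ∈ Subgroup.center H
    · obtain ⟨c, hc⟩ := schur ρ hirr hz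
      exact ⟨c, fun _ => hc⟩
    · exact ⟨0, fun h => absurd h hz⟩
  choose l hl using h1
  have h2 : ∀ q : A.map (QuotientGroup.mk' (Subgroup.center H)), ∃ a ∈ A, QuotientGroup.mk' _ a = q.1 := fun q => q.2
  choose t ht ht' using h2
  have h3 := wt_indep (fun b : A => LinearMap.mulLeftRight k (ρ b, ρ (b : H)⁻¹)) (fun q => ρ (t q))
    (fun q b => l ⁅(b : H), t q⁆) (fun q e => by
      have := congrArg (· * ρ (t q)⁻¹) e
      simp only [← map_mul, mul_inv_cancel, map_one, zero_mul] at this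
      exact one_ne_zero this)
    (fun q q' e => by
      refine Subtype.ext ?_
      rw [← ht', ← ht']
      refine QuotientGroup.eq.mpr (hZ _ (mul_mem (inv_mem (ht q)) (ht q')) fun b hb => ?_)
      have h4 : ⁅b, t q⁆ = ⁅b, t q'⁆ := hρ (by
        ext v
        rw [hl _ (hc _ hb _ (ht q)), hl _ (hc _ hb _ (ht q'))]
        exact congrArg (· • v) (congrFun e ⟨b, hb⟩))
      rw [commutatorElement_def, commutatorElement_def] at h4
      calc b * ((t q)⁻¹ * t q') = b * (t q)⁻¹ * b⁻¹ * (b * t q' * b⁻¹ * (t q')⁻¹) * t q' * b := by group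
        _ = b * (t q)⁻¹ * b⁻¹ * (b * t q * b⁻¹ * (t q)⁻¹) * t q' * b := by rw [h4]
        _ = _ := by group)
    (fun q b => by
      ext v
      rw [LinearMap.mulLeftRight_apply, LinearMap.smul_apply, ← hl _ (hc _ b.2 _ (ht q)), ← map_mul, ← map_mul,
        ← Module.End.mul_apply, ← map_mul, commutatorElement_def, inv_mul_cancel_right])
  haveI := Fintype.ofFinite (A.map (QuotientGroup.mk' (Subgroup.center H)))
  have h4 := h3.fintype_card_le_finrank
  rwa [← Nat.card_eq_fintype_card, Module.finrank_linearMap, ← pow_two] at h4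

theorem nor_le (hr : 9 ≤ r) (hs : Function.Surjective π) (hmin : ∀ L : Subgroup H, L.map π = ⊤ → L = ⊤)
    (L : Subgroup H) [hL : L.Normal] (h : L ≠ ⊤) : L ≤ π.ker := by
  haveI := alternatingGroup.isSimpleGroup (α := Fin r) (by simp; omega)
  rcases (hL.map π hs).eq_bot_or_eq_top with e | e
  · exact (Subgroup.map_eq_bot_iff _).mp e
  · exact absurd (hmin _ e) h

theorem perf (hr : 9 ≤ r) (hs : Function.Surjective π) (hmin : ∀ L : Subgroup H, L.map π = ⊤ → L = ⊤) :
    commutator H = ⊤ := by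
  refine hmin _ ?_
  rw [commutator_def, Subgroup.map_commutator, Subgroup.map_top_of_surjective _ hs, ← commutator_def]
  exact commutator_alternatingGroup_eq_top (by simp; omega)

theorem comm_lt [Finite H] (hs : Function.Surjective π) (hmin : ∀ L : Subgroup H, L.map π = ⊤ → L = ⊤)
    (A : Subgroup H) (hA : A ≤ π.ker) (h0 : A ≠ ⊥) : ⁅A, A⁆ < A := by
  have h1 : π.ker ≤ frattini H := by
    refine le_iInf₂ fun M (hM : IsCoatom M) => ?_
    by_contra hn
    have h2 : M ⊔ π.ker = ⊤ := hM.2 _ (lt_of_le_of_ne le_sup_left fun e => hn (e ▸ le_sup_right))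
    refine hM.1 (hmin _ ?_)
    have h3 := congrArg (Subgroup.map π) h2
    rwa [Subgroup.map_sup, (Subgroup.map_eq_bot_iff _).mpr le_rfl, sup_bot_eq,
      Subgroup.map_top_of_surjective _ hs] at h3
  haveI := frattini_nilpotent (G := H)
  haveI : Group.IsSolvable A :=
    Group.isSolvable_of_isSolvable_injective (Subgroup.inclusion_injective (hA.trans h1))
  haveI := (Subgroup.nontrivial_iff_ne_bot A).mpr h0
  have h2 := Group.IsSolvable.commutator_lt_top_of_nontrivial A
  rw [← Subgroup.map_subtype_commutator]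
  refine lt_of_le_of_ne (Subgroup.map_subtype_le _) fun e => h2.ne ?_
  refine Subgroup.map_injective A.subtype_injective ?_
  rw [e, ← MonoidHom.range_eq_map, Subgroup.range_subtype]

theorem noncentral [Finite H] (hr : 9 ≤ r) (hs : Function.Surjective π)
    (hmin : ∀ L : Subgroup H, L.map π = ⊤ → L = ⊤)
    (hq : ∀ (K : Type) [Field K] [IsAlgClosed K] (e : ℕ) (σ : H →* End K (Fin e → K)), σ.ker ≠ ⊥ →
      σ.ker ≤ π.ker → r ≤ e + 2)
    (ρ : H →* End k V) (hρ : Function.Injective ρ)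
    (hirr : ∀ W : Submodule k V, (∀ g, ∀ w ∈ W, ρ g w ∈ W) → W = ⊥ ∨ W = ⊤)
    (hn : ¬ π.ker ≤ Subgroup.center H) : r ≤ finrank k V + 1 := by
  classical
  obtain ⟨A, ⟨hA, hk, hZ⟩, hm⟩ := (wellFounded_lt (α := Subgroup H)).has_min
    {A | A.Normal ∧ A ≤ π.ker ∧ ¬ A ≤ Subgroup.center H} ⟨π.ker, inferInstance, le_rfl, hn⟩
  have hm' : ∀ B : Subgroup H, B.Normal → B < A → B ≤ Subgroup.center H := fun B hB hlt => by
    by_contra h
    exact hm B ⟨hB, hlt.le.trans hk, h⟩ hlt
  have h0 : A ≠ ⊥ := fun e => hZ (e ▸ bot_le)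
  haveI : Nontrivial V := by
    by_contra hV
    haveI := not_nontrivial_iff_subsingleton.mp hV
    exact h0 (eq_bot_iff.mpr fun a _ => hρ (Subsingleton.elim _ _))
  by_cases hab : ∀ a ∈ A, ∀ b ∈ A, a * b = b * a
  · exact (abel_case hr hs hmin ρ hρ hirr A hab hZ).trans (Nat.le_succ _)
  have hc : ∀ a ∈ A, ∀ b ∈ A, ⁅a, b⁆ ∈ Subgroup.center H := fun a ha b hb =>
    hm' _ inferInstance (comm_lt hs hmin A hk h0) (Subgroup.commutator_mem_commutator ha hb)
  have hZ' : ∀ a ∈ A, (∀ b ∈ A, b * a = a * b) → a ∈ Subgroup.center H := fun a ha h =>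
    hm' (A ⊓ Subgroup.centralizer A) inferInstance (lt_of_le_of_ne inf_le_left fun e =>
      hab fun x hx y hy => (e.ge hy).2 x hx) ⟨ha, h⟩
  have h1 := card_le_sq ρ hρ hirr A hc hZ'
  set μ := QuotientGroup.mk' (Subgroup.center H) with hμ
  have hμs : Function.Surjective μ := QuotientGroup.mk'_surjective _
  have hμk : ∀ x, μ x = 1 ↔ x ∈ Subgroup.center H := fun x => QuotientGroup.eq_one_iff x
  haveI hQ : (A.map μ).Normal := hA.map μ hμs
  have hcm : ∀ a ∈ A, ∀ b ∈ A, Commute (μ a) (μ b) := fun a ha b hb => by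
    rw [← commutatorElement_eq_one_iff_commute, ← map_commutatorElement, hμk]; exact hc a ha b hb
  have hcQ : ∀ a b : A.map μ, a * b = b * a := by
    rintro ⟨_, a, ha, rfl⟩ ⟨_, b, hb, rfl⟩
    exact Subtype.ext (hcm a ha b hb)
  have hQ1 : Nat.card (A.map μ) ≠ 1 := fun e => hZ fun a ha => (hμk a).mp
    ((Subgroup.eq_bot_of_card_eq _ e).le ⟨a, ha, rfl⟩)
  obtain ⟨s, hsp, hsd⟩ := Nat.exists_prime_and_dvd hQ1
  haveI := Fact.mk hsp
  obtain ⟨⟨_, x, hx, rfl⟩, hxo⟩ := exists_prime_orderOf_dvd_card' s hsd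
  let B : Subgroup H :=
    { carrier := {a | a ∈ A ∧ μ a ^ s = 1}
      one_mem' := ⟨one_mem _, by simp⟩
      mul_mem' := fun {a b} ha hb => ⟨mul_mem ha.1 hb.1, by
        rw [map_mul, (hcm a ha.1 b hb.1).mul_pow, ha.2, hb.2, mul_one]⟩
      inv_mem' := fun {a} ha => ⟨inv_mem ha.1, by rw [map_inv, inv_pow, ha.2, inv_one]⟩ }
  have hB : B = A := by
    by_contra hne
    have h2 : x ∈ Subgroup.center H := hm' B ⟨fun a ha g => ⟨hA.conj_mem a ha.1 g, by
      rw [map_mul, map_mul, map_inv, conj_pow, ha.2, mul_one, mul_inv_cancel]⟩⟩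
      (lt_of_le_of_ne (fun a ha => ha.1) hne)
      ⟨hx, congrArg Subtype.val (hxo ▸ pow_orderOf_eq_one (⟨μ x, x, hx, rfl⟩ : A.map μ))⟩
    have h3 : (⟨μ x, x, hx, rfl⟩ : A.map μ) = 1 := Subtype.ext ((hμk x).mpr h2)
    exact hsp.one_lt.ne' (by rw [← hxo]; exact orderOf_eq_one_iff.mpr h3)
  obtain ⟨e, he, ψ, hψ⟩ := rep_elem hcQ s (by
    rintro ⟨_, a, ha, rfl⟩
    exact Subtype.ext (hB.ge ha).2)
  let σ := ψ.comp ((MulAut.conjNormal (H := A.map μ)).comp μ)
  have hσ : ∀ h, h ∈ σ.ker ↔ ∀ a ∈ A, ⁅h, a⁆ ∈ Subgroup.center H := fun h => by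
    rw [MonoidHom.mem_ker, MonoidHom.comp_apply, map_eq_one_iff _ hψ]
    constructor
    · intro h2 a ha
      have h3 := congrArg Subtype.val (MulEquiv.congr_fun h2 ⟨μ a, a, ha, rfl⟩)
      rw [← hμk, map_commutatorElement, commutatorElement_def, mul_inv_eq_one]
      exact h3
    · intro h2
      ext ⟨_, a, ha, rfl⟩
      have h3 := h2 a ha
      rw [← hμk, map_commutatorElement, commutatorElement_def, mul_inv_eq_one] at h3
      exact h3
  have h2 := hq _ e σ (fun e => h0 (eq_bot_iff.mpr fun a ha => e.le ((hσ a).mpr (hc a ha))))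
    (nor_le hr hs hmin _ fun e => hZ (by
      have h3 : ⁅(⊤ : Subgroup H), A⁆ ≤ Subgroup.center H :=
        Subgroup.commutator_le.mpr fun g _ a ha => (hσ g).mp (e.ge trivial) a ha
      have h4 : ⁅⁅(⊤ : Subgroup H), A⁆, (⊤ : Subgroup H)⁆ = ⊥ := by
        rw [Subgroup.commutator_eq_bot_iff_le_centralizer, Subgroup.coe_top, Subgroup.centralizer_univ]; exact h3
      have h5 := Subgroup.commutator_commutator_eq_bot_of_rotate h4 (by rw [Subgroup.commutator_comm A]; exact h4)
      rw [← commutator_def, perf hr hs hmin, Subgroup.commutator_comm,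
        Subgroup.commutator_eq_bot_iff_le_centralizer, Subgroup.coe_top, Subgroup.centralizer_univ] at h5
      exact h5))
  have h3 : (e + 1) ^ 2 ≤ finrank k V ^ 2 :=
    (sq_le_two_pow e (by omega)).trans ((Nat.pow_le_pow_left hsp.two_le e).trans (he ▸ h1))
  have h4 := (Nat.pow_le_pow_iff_left two_ne_zero).mp h3
  omega

end Red

theorem main {r : ℕ} (hr : 9 ≤ r) (N : ℕ) : ∀ (H : Type u) [Group H] [Finite H], Nat.card H = N →
    ∀ π : H →* alternatingGroup (Fin r), Function.Surjective π →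
    ∀ (k : Type) [Field k] [IsAlgClosed k] (V : Type) [AddCommGroup V] [Module k V] [FiniteDimensional k V]
      (ρ : H →* End k V), ρ.ker ≤ π.ker → Bd k r (finrank k V) := by
  induction N using Nat.strong_induction_on with
  | _ N ih =>
  intro H _ _ hN π hs
  by_cases hmin : ∀ L : Subgroup H, L.map π = ⊤ → L = ⊤
  swap
  · push Not at hmin
    obtain ⟨L, h1, h2⟩ := hmin
    intro k _ _ V _ _ _ ρ hρ
    refine ih _ ?_ L rfl (π.comp L.subtype) (fun x => ?_) k V (ρ.comp L.subtype) fun x hx => hρ hx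
    · rw [← hN]
      exact lt_of_le_of_ne L.card_le_card_group fun e => h2 (Subgroup.eq_top_of_card_eq _ e)
    · obtain ⟨y, hy, rfl⟩ : x ∈ L.map π := h1.ge trivial
      exact ⟨⟨y, hy⟩, rfl⟩
  have hq : ∀ (k : Type) [Field k] [IsAlgClosed k] (V : Type) [AddCommGroup V] [Module k V] [FiniteDimensional k V]
      (ρ : H →* End k V), ρ.ker ≠ ⊥ → ρ.ker ≤ π.ker → Bd k r (finrank k V) := by
    intro k _ _ V _ _ _ ρ h1 hρ
    refine ih _ ?_ (H ⧸ ρ.ker) rfl (QuotientGroup.lift _ π hρ) (fun x => ?_) k V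
      (QuotientGroup.lift _ ρ fun _ h => h) fun x hx => ?_
    · rw [← hN, Subgroup.card_eq_card_quotient_mul_card_subgroup ρ.ker]
      have h2 : 1 < Nat.card ρ.ker := (Subgroup.one_lt_card_iff_ne_bot _).mpr h1
      have h3 : 0 < Nat.card (H ⧸ ρ.ker) := Nat.card_pos
      nlinarith
    · obtain ⟨y, rfl⟩ := hs x
      exact ⟨y, rfl⟩
    · obtain ⟨y, rfl⟩ := QuotientGroup.mk_surjective x
      exact hρ hx
  intro k _ _
  suffices key : ∀ d, ∀ (V : Type) [AddCommGroup V] [Module k V] [FiniteDimensional k V]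
      (ρ : H →* End k V), finrank k V = d → ρ.ker ≤ π.ker → Bd k r d from fun V _ _ _ ρ h => key _ V ρ rfl h
  intro d
  induction d using Nat.strong_induction_on with
  | _ d ihd =>
  intro V _ _ _ ρ hd hρ
  by_cases hinj : ρ.ker = ⊥
  swap
  · exact hd ▸ hq k V ρ hinj hρ
  have hρ' : Function.Injective ρ := (injective_iff_map_eq_one ρ).mpr fun a ha => hinj.le ha
  by_cases hirr : ∀ W : Submodule k V, (∀ g, ∀ w ∈ W, ρ g w ∈ W) → W = ⊥ ∨ W = ⊤
  · subst hd
    by_cases hc : π.ker ≤ Subgroup.center H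
    · exact central hr ⟨hs, hc, (perf hr hs hmin).ge.trans' le_top⟩ hmin ρ hρ' hirr
    · refine Or.inl (noncentral hr hs hmin (fun K _ _ e σ h1 h2 => ?_) ρ hρ' hirr hc)
      have h3 := hq K (Fin e → K) σ h1 h2
      rw [Module.finrank_fin_fun] at h3
      rcases h3 with h3 | h3 <;> omega
  · push Not at hirr
    obtain ⟨W, hW, h1, h2⟩ := hirr
    have h3 := W.finrank_quotient_add_finrank
    have h4 := pos_of_ne h1
    have h5 := Submodule.finrank_lt h2
    let ρ1 : H →* End k W := Representation.subrepresentation ρ W hW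
    let ρ2 : H →* End k (V ⧸ W) := Representation.quotient ρ W hW
    by_cases e1 : ρ1.ker = ⊤
    swap
    · exact (ihd _ (by omega) W ρ1 rfl (nor_le hr hs hmin _ e1)).mono (by omega)
    by_cases e2 : ρ2.ker = ⊤
    swap
    · exact (ihd _ (by omega) (V ⧸ W) ρ2 rfl (nor_le hr hs hmin _ e2)).mono (by omega)
    exfalso
    have h6 : ∀ g, ∀ w ∈ W, ρ g w = w := fun g w hw =>
      congrArg Subtype.val (LinearMap.congr_fun (e1.ge trivial : g ∈ ρ1.ker) ⟨w, hw⟩)
    have h7 : ∀ g v, ρ g v - v ∈ W := fun g v =>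
      (Submodule.Quotient.eq W).mp (LinearMap.congr_fun (e2.ge trivial : g ∈ ρ2.ker) (Submodule.Quotient.mk v))
    have h8 : ∀ g h v, ρ g (ρ h v) = ρ g v + ρ h v - v := fun g h v => by
      have := h6 g _ (h7 h v)
      rw [map_sub, sub_eq_iff_eq_add] at this
      rw [this]; abel
    have h9 : commutator H ≤ ⊥ := Subgroup.commutator_le.mpr fun g _ h _ => by
      rw [Subgroup.mem_bot, commutatorElement_eq_one_iff_mul_comm]
      refine hρ' (LinearMap.ext fun v => ?_)
      rw [map_mul, map_mul, Module.End.mul_apply, Module.End.mul_apply, h8, h8, add_comm]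
    obtain ⟨g, hg⟩ := nontriv hr hs
    rw [perf hr hs hmin] at h9
    exact hg (by rw [Subgroup.mem_bot.mp (h9 (Subgroup.mem_top g)), map_one])

end CA.H4Alt
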