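/-
Modules of dimension at most 27 for the covers of `A₁₂`.
-/
import Cfsg.Agent.Lib.Perm.H4Alt6

set_option autoImplicit false

namespace CA.E6Sec

open Module Module.End Equiv Equiv.Perm Finset CA.H4Alt

section
variable {k V : Type*} [Field k] [AddCommGroup V] [Module k V] [FiniteDimensional k V]

theorem sum3 (h3 : (3 : k) ≠ 0) {f : End k V} (hf : f ^ 3 = 1) {w : k} (hw : w ≠ 1) (hw3 : w ^ 3 = 1)
    (Y : Submodule k V) (hY : ∀ v ∈ Y, f v ∈ Y) : finrank k Y ≤ finrank k ↥(Y ⊓ f.eigenspace 1) +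
      finrank k ↥(Y ⊓ f.eigenspace w) + finrank k ↥(Y ⊓ f.eigenspace (w ^ 2)) := by
  have e : w ^ 2 + w + 1 = 0 := (mul_eq_zero.mp (show (w - 1) * (w ^ 2 + w + 1) = 0 by
    linear_combination hw3)).resolve_left (sub_ne_zero.mpr hw)
  refine le_trans (Submodule.finrank_mono (t := ((Y ⊓ f.eigenspace 1) ⊔ (Y ⊓ f.eigenspace w)) ⊔
    (Y ⊓ f.eigenspace (w ^ 2))) fun v hv => ?_) ((Submodule.finrank_add_le_finrank_add_finrank _ _).trans
      (Nat.add_le_add_right (Submodule.finrank_add_le_finrank_add_finrank _ _) _))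
  have e3 : f (f (f v)) = v := by simpa [pow_succ] using LinearMap.congr_fun hf v
  have b1 := hY v hv
  have b2 := hY _ b1
  have a0 : v + f v + f (f v) ∈ Y ⊓ f.eigenspace 1 := ⟨add_mem (add_mem hv b1) b2,
    mem_eigenspace_iff.mpr (by simp only [map_add, e3]; module)⟩
  have a1 : v + w ^ 2 • f v + w • f (f v) ∈ Y ⊓ f.eigenspace w :=
    ⟨add_mem (add_mem hv (Y.smul_mem _ b1)) (Y.smul_mem _ b2), mem_eigenspace_iff.mpr (by
    simp only [map_add, map_smul, e3]; linear_combination (norm := module) -hw3 • f v)⟩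
  have a2 : v + w • f v + w ^ 2 • f (f v) ∈ Y ⊓ f.eigenspace (w ^ 2) :=
    ⟨add_mem (add_mem hv (Y.smul_mem _ b1)) (Y.smul_mem _ b2), mem_eigenspace_iff.mpr (by
    simp only [map_add, map_smul, e3]; linear_combination (norm := module) -hw3 • f v - (w * hw3) • f (f v))⟩
  have := Submodule.smul_mem _ (3 : k)⁻¹ (Submodule.add_mem_sup (Submodule.add_mem_sup a0 a1) a2)
  convert this using 1
  rw [eq_inv_smul_iff₀ h3]
  linear_combination (norm := module) -e • (f v + f (f v))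

theorem split {Γ : Type*} [Group Γ] {H : Subgroup Γ} {R : Γ → End k V} (M : MO H R) (h3 : (3 : k) ≠ 0) {w : k}
    (hw : w ≠ 1) (hw3 : w ^ 3 = 1) {u h : Γ} (hu : u ∈ H) (hh : h ∈ H) (u3 : u ^ 3 = 1) (e : u * h = h * u ^ 2)
    (Y : Submodule k V) (h1 : ∀ v ∈ Y, R u v ∈ Y) (h2 : ∀ v ∈ Y, R h v ∈ Y) :
    finrank k Y = finrank k ↥(Y ⊓ (R u).eigenspace 1) + 2 * finrank k ↥(Y ⊓ (R u).eigenspace w) := by
  obtain ⟨w1, w2, w4⟩ := w_ne hw hw3
  have a1 := sum3 h3 (f := R u) (by rw [← M.pow hu, u3, M.one]) hw hw3 Y h1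
  have a2 := three_le (R u) hw.symm w2.symm w1 (A := Y ⊓ _) (B := Y ⊓ _) (C := Y ⊓ _) inf_le_right inf_le_right
    inf_le_right inf_le_left inf_le_left inf_le_left
  have a3 : ∀ c, finrank k ↥(Y ⊓ (R u).eigenspace c) ≤ finrank k ↥(Y ⊓ (R u).eigenspace (c ^ 2)) := fun c =>
    M.le hh fun v hv => ⟨h2 v hv.1, M.conj_eig hu hh hu e hv.2⟩
  have a4 := a3 w
  have a5 := a3 (w ^ 2)
  rw [w4] at a5
  omega

omit [FiniteDimensional k V] in
theorem quad {X T T1 T2 : End k V} (hS : 1 + X + X * X = 0) (x3 : X * (X * X) = 1) (h1 : T * T = 1)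
    (h2 : T * (X * T) = X * T2) (h3 : T * (X * (X * T)) = X * (X * T1)) (h4 : T1 * T1 = 1) (h5 : T2 * T1 = T) :
    1 + T1 - T2 - T = 0 := by
  have a : X * (1 - T2) + X * (X * (1 - T1)) = 0 := by
    have := congrArg (fun S => T * (S * T)) hS
    simp only [mul_add, add_mul, one_mul, mul_assoc, h1, h2, h3, zero_mul, mul_zero] at this
    simp only [mul_sub, mul_one]
    rw [← sub_eq_zero.mpr (hS.trans this.symm)]
    abel
  have b := congrArg (fun S => X * (X * (S * (1 + T1)))) a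
  simp only [mul_add, add_mul, sub_mul, mul_sub, one_mul, mul_one, mul_assoc, h4, h5, zero_mul, mul_zero] at b
  have x4 : ∀ Y : End k V, X * (X * (X * Y)) = Y := fun Y => by
    rw [← mul_assoc X X Y, ← mul_assoc, x3, one_mul]
  simp only [x4, x3, add_zero, mul_one] at b
  rw [← b]
  abel

theorem orth (f : V →ₗ[k] V →ₗ[k] k) (U U' : Submodule k V) (h : ∀ x ∈ U, ∀ y ∈ U', f x y = 0) :
    finrank k U + finrank k U' ≤ finrank k (LinearMap.ker f) + finrank k V := by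
  have a1 := (f.domRestrict U).finrank_range_add_finrank_ker
  have a2 := Submodule.finrank_mono (show LinearMap.range (f.domRestrict U) ≤ U'.dualAnnihilator by
    rintro _ ⟨x, rfl⟩
    exact (Submodule.mem_dualAnnihilator _).mpr fun y hy => h x x.2 y hy)
  replace a2 := (Nat.add_le_add_left a2 _).trans (Subspace.finrank_add_finrank_dualAnnihilator_eq U').le
  have a4 : finrank k (LinearMap.ker (f.domRestrict U)) ≤ finrank k (LinearMap.ker f) := by
    rw [← Submodule.finrank_map_subtype_eq]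
    refine Submodule.finrank_mono ?_
    rintro _ ⟨x, hx, rfl⟩
    exact hx
  rw [← a1, add_right_comm, add_comm _ (finrank k U'), add_comm]
  exact Nat.add_le_add a4 a2
end

def c : Fin 4 → Perm (Fin 12) :=
  ![swap 0 1 * swap 1 2, swap 3 4 * swap 4 5, swap 6 7 * swap 7 8, swap 9 10 * swap 10 11]
def b01 : Perm (Fin 12) := swap 0 3 * swap 1 4 * swap 2 5
def b02 : Perm (Fin 12) := swap 0 6 * swap 1 7 * swap 2 8
def b03 : Perm (Fin 12) := swap 0 9 * swap 1 10 * swap 2 11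
def b12 : Perm (Fin 12) := swap 3 6 * swap 4 7 * swap 5 8
def b13 : Perm (Fin 12) := swap 3 9 * swap 4 10 * swap 5 11
def b23 : Perm (Fin 12) := swap 6 9 * swap 7 10 * swap 8 11

instance decAlt (A : Finset (Fin 12)) (σ : Perm (Fin 12)) : Decidable (σ ∈ Alt A) :=
  inferInstanceAs (Decidable (sign σ = 1 ∧ ∀ x, x ∉ A → σ x = x))

variable {k V : Type} [Field k] [AddCommGroup V] [Module k V] [FiniteDimensional k V] [IsAlgClosed k]

omit [FiniteDimensional k V] [IsAlgClosed k] in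
theorem fix (h2 : (2 : k) ≠ 0) {R : Perm (Fin 12) → End k V} (M : MO (Alt {6, 7, 8, 9, 10, 11}) R)
    (h : NT {6, 7, 8, 9, 10, 11} R) : (R (c 2)).eigenspace 1 ≠ ⊥ := fun e => by
  have mx : c 2 ∈ Alt {6, 7, 8, 9, 10, 11} := by decide +kernel
  have x3 : R (c 2) * (R (c 2) * R (c 2)) = 1 := by
    rw [← M.mul _ mx _ mx, ← M.mul _ mx _ (mul_mem mx mx), ← M.one]; congr 1; decide +kernel
  have hS : 1 + R (c 2) + R (c 2) * R (c 2) = 0 := LinearMap.ext fun v => e.le (mem_eigenspace_iff.mpr (by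
    rw [← Module.End.mul_apply, mul_add, mul_add, x3, one_smul, mul_one]; congr 1; abel))
  have q : ∀ t t1 t2, t ∈ Alt {6, 7, 8, 9, 10, 11} ∧ t1 ∈ Alt {6, 7, 8, 9, 10, 11} ∧ t2 ∈ Alt {6, 7, 8, 9, 10, 11} ∧
      t * t = 1 ∧ t * (c 2 * t) = c 2 * t2 ∧ t * (c 2 * (c 2 * t)) = c 2 * (c 2 * t1) ∧ t1 * t1 = 1 ∧ t2 * t1 = t →
      1 + R t1 - R t2 - R t = 0 := by
    rintro t t1 t2 ⟨m, m1, m2, e1, e2, e3, e4, e5⟩
    refine quad hS x3 ?_ ?_ ?_ ?_ ?_ <;> simp (disch := apply_rules [mul_mem]) only [← M.mul]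
    exacts [e1 ▸ M.one, by rw [e2], by rw [e3], e4 ▸ M.one, by rw [e5]]
  have q1 := q (swap 6 7 * swap 8 9) (swap 6 8 * swap 7 9) (swap 6 9 * swap 7 8) (by decide +kernel)
  have q2 := q (swap 6 8 * swap 7 9) (swap 6 9 * swap 7 8) (swap 6 7 * swap 8 9) (by decide +kernel)
  refine faithful M (by decide) h (σ := swap 6 7 * swap 8 9) (by decide +kernel) (by decide +kernel) ?_
  refine smul_right_injective _ h2 ?_
  show (2 : k) • _ = (2 : k) • _
  linear_combination (norm := module) -q1 - q2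

theorem hon (h2 : (2 : k) ≠ 0) (h3 : (3 : k) ≠ 0) {R : Perm (Fin 12) → End k V} (M : MO (Alt univ) R)
    (hd : finrank k V ≤ 27) {w : k} (hw : w ≠ 1) (hw3 : w ^ 3 = 1) :
    8 * finrank k ((R (c 0)).eigenspace w) ≤ finrank k V ∧
      (R (c 0)).eigenspace w ≤ Fx R {3, 4, 5, 6, 7, 8, 9, 10, 11} := by
  have mc : ∀ i, c i ∈ Alt univ := by decide +kernel
  have mv : ∀ (g : Perm (Fin 12)) (i j : Fin 4) {a : k} {v : V}, v ∈ (R (c i)).eigenspace a →
      g ∈ Alt univ ∧ c j * g = g * c i → R g v ∈ (R (c j)).eigenspace a := fun g i j _ _ hv h =>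
    M.comm_eig (mc i) h.1 (mc j) h.2 hv
  have sp := fun (i : Fin 4) (g : Perm (Fin 12)) (h : g ∈ Alt univ ∧ c i ^ 3 = 1 ∧ c i * g = g * c i ^ 2) =>
    split M h3 hw hw3 (mc i) h.1 h.2.1 h.2.2
  have s0 := sp 0 (swap 0 1 * swap 3 4) (by decide +kernel) ⊤ (fun _ _ => trivial) fun _ _ => trivial
  have s1 := fun a => sp 1 (swap 3 4 * swap 6 7) (by decide +kernel) ((R (c 0)).eigenspace a)
    (fun v hv => mv _ 0 0 hv (by decide +kernel)) fun v hv => mv _ 0 0 hv (by decide +kernel)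
  have s2 := fun a b => sp 2 (swap 6 7 * swap 9 10) (by decide +kernel)
    ((R (c 0)).eigenspace a ⊓ (R (c 1)).eigenspace b)
    (fun v hv => ⟨mv _ 0 0 hv.1 (by decide +kernel), mv _ 1 1 hv.2 (by decide +kernel)⟩)
    fun v hv => ⟨mv _ 0 0 hv.1 (by decide +kernel), mv _ 1 1 hv.2 (by decide +kernel)⟩
  rw [top_inf_eq, top_inf_eq, finrank_top] at s0
  have l9 : LB.{0} k ({3, 4, 5, 6, 7, 8, 9, 10, 11} : Finset (Fin 12)) 8 := fun V _ _ _ R M h => by
    rcases lin 9 _ (by decide) le_rfl V R M h with e | e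
    · omega
    · exact absurd (pow_eq_zero_iff (n := 2) two_ne_zero |>.mp (by linear_combination e.2)) h3
  rcases dich M (subset_univ _) l9 _ (eig_inv M (A := {0, 1, 2}) (subset_univ _) (subset_univ _) (by decide)
    (x := c 0) (by decide +kernel) w) with h | h
  · have f1 := h.trans (Fx_le (x := c 1) (by decide +kernel))
    have f2 := h.trans (Fx_le (x := c 2) (by decide +kernel))
    have f3 := h.trans (Fx_le (x := c 3) (by decide +kernel))
    have s3 := sp 3 (b01 * swap 9 10) (by decide +kernel)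
      ((R (c 0)).eigenspace 1 ⊓ (R (c 1)).eigenspace 1 ⊓ (R (c 2)).eigenspace 1)
      (fun v hv => ⟨⟨mv _ 0 0 hv.1.1 (by decide +kernel), mv _ 1 1 hv.1.2 (by decide +kernel)⟩,
        mv _ 2 2 hv.2 (by decide +kernel)⟩)
      fun v hv => ⟨⟨mv _ 1 0 hv.1.2 (by decide +kernel), mv _ 0 1 hv.1.1 (by decide +kernel)⟩,
        mv _ 2 2 hv.2 (by decide +kernel)⟩
    have a1 := M.le (g := b01 * b23) (by decide +kernel) (B := (R (c 0)).eigenspace 1 ⊓ (R (c 1)).eigenspace w)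
      fun v hv => ⟨mv _ 1 0 (f1 hv) (by decide +kernel), mv _ 0 1 hv (by decide +kernel)⟩
    have a2 := M.le (g := b02 * b13) (by decide +kernel)
      (B := (R (c 0)).eigenspace 1 ⊓ (R (c 1)).eigenspace 1 ⊓ (R (c 2)).eigenspace w)
      fun v hv => ⟨⟨mv _ 2 0 (f2 hv) (by decide +kernel), mv _ 3 1 (f3 hv) (by decide +kernel)⟩,
        mv _ 0 2 hv (by decide +kernel)⟩
    have a3 := M.le (g := b03 * b12) (by decide +kernel)
      (B := (R (c 0)).eigenspace 1 ⊓ (R (c 1)).eigenspace 1 ⊓ (R (c 2)).eigenspace 1 ⊓ (R (c 3)).eigenspace w)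
      fun v hv => ⟨⟨⟨mv _ 3 0 (f3 hv) (by decide +kernel), mv _ 2 1 (f2 hv) (by decide +kernel)⟩,
        mv _ 1 2 (f1 hv) (by decide +kernel)⟩, mv _ 0 3 hv (by decide +kernel)⟩
    have := s1 1
    have := s2 1 1
    exact ⟨by omega, h⟩
  exfalso
  have t1 := s1 1
  have t2 := s1 w
  have t3 := s2 w w
  have t4 := s2 w 1
  have a1 := M.le (g := b01 * b23) (by decide +kernel) (A := (R (c 0)).eigenspace w ⊓ (R (c 1)).eigenspace 1)
    (B := (R (c 0)).eigenspace 1 ⊓ (R (c 1)).eigenspace w)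
    fun v hv => ⟨mv _ 1 0 hv.2 (by decide +kernel), mv _ 0 1 hv.1 (by decide +kernel)⟩
  have a2 := M.le (g := b12 * swap 9 10) (by decide +kernel)
    (A := (R (c 0)).eigenspace w ⊓ (R (c 1)).eigenspace w ⊓ (R (c 2)).eigenspace 1)
    (B := (R (c 0)).eigenspace w ⊓ (R (c 1)).eigenspace 1 ⊓ (R (c 2)).eigenspace w)
    fun v hv => ⟨⟨mv _ 0 0 hv.1.1 (by decide +kernel), mv _ 2 1 hv.2 (by decide +kernel)⟩,
      mv _ 1 2 hv.1.2 (by decide +kernel)⟩
  have hi : ∀ g ∈ Alt {6, 7, 8, 9, 10, 11}, ∀ v ∈ (R (c 0)).eigenspace w ⊓ (R (c 1)).eigenspace w,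
      R g v ∈ (R (c 0)).eigenspace w ⊓ (R (c 1)).eigenspace w := fun g hg v hv =>
    ⟨eig_inv M (A := {0, 1, 2}) (subset_univ _) (subset_univ _) (by decide) (by decide +kernel) w g hg v hv.1,
      eig_inv M (A := {3, 4, 5}) (subset_univ _) (subset_univ _) (by decide) (by decide +kernel) w g hg v hv.2⟩
  obtain ⟨R', M', hR⟩ := M.res (Alt_mono (subset_univ _)) _ hi
  by_cases e : NT {6, 7, 8, 9, 10, 11} R'
  · have a3 := T4 h3 (by decide) _ R' M' e
    obtain ⟨v, hv, h0⟩ := (Submodule.ne_bot_iff _).mp (fix h2 M' e)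
    have a4 := pos_of_ne (W := (R (c 0)).eigenspace w ⊓ (R (c 1)).eigenspace w ⊓ (R (c 2)).eigenspace 1)
      ((Submodule.ne_bot_iff _).mpr ⟨v, ⟨v.2, mem_eigenspace_iff.mpr (by
        rw [← hR _ (by decide +kernel), mem_eigenspace_iff.mp hv]; rfl)⟩, fun e => h0 (Subtype.ext e)⟩)
    omega
  · have f : ∀ x ∈ Alt {6, 7, 8, 9, 10, 11}, (R (c 0)).eigenspace w ⊓ (R (c 1)).eigenspace w ≤ (R x).eigenspace 1 :=
      fun x hx v hv => mem_eigenspace_iff.mpr (by
        rw [← hR x hx ⟨v, hv⟩, not_not.mp fun e' => e ⟨x, hx, e'⟩, one_smul]; rfl)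
    have f2 := f (c 2) (by decide +kernel)
    have f3 := f (c 3) (by decide +kernel)
    have a3 := Submodule.finrank_mono (le_inf le_rfl f2)
    have a4 := M.le (g := b13 * swap 6 7) (by decide +kernel) (A := (R (c 0)).eigenspace w ⊓ (R (c 1)).eigenspace w)
      (B := (R (c 0)).eigenspace w ⊓ (R (c 1)).eigenspace 1 ⊓ (R (c 2)).eigenspace 1)
      fun v hv => ⟨⟨mv _ 0 0 hv.1 (by decide +kernel), mv _ 3 1 (f3 hv) (by decide +kernel)⟩, by
        simpa using M.conj_eig (mc 2) (h := b13 * swap 6 7) (by decide +kernel) (mc 2) (j := 2) (by decide +kernel)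
          (f2 hv)⟩
    omega

theorem spin {Γ : Type*} [Group Γ] {τ : Γ →* Perm (Fin 12)} {z : Γ} (C : Cov τ z) (h2 : (2 : k) ≠ 0)
    (h3 : (3 : k) ≠ 0) [Nontrivial V] {R : Γ → End k V} (M : MO ((Alt univ).comap τ) R) (hz : R z = -1) :
    24 ≤ finrank k V := by
  obtain ⟨W, R', hW, M', hz'⟩ := C.half h2 M hz (T := {0, 1, 2, 3}) (subset_univ _) (by decide)
  have a1 := C.ev4 h2 M' hz' (by decide)
  have a2 := C.spin h2 12 univ (by decide) (by decide) V R M hz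
  by_contra hlt
  have hd : finrank k V = 16 := by rcases a2 with e | e <;> omega
  clear a1 a2 hW M' hz' R' W hlt
  obtain ⟨u0, e0, u03, w, hy, p1, -, p2, -⟩ := C.cyc h2 M hz (by decide) (q := 3) (j := 2) (by decide) (by decide)
    (by exact_mod_cast h3) (A := {0, 1, 2}) (subset_univ _) (σ := c 0) (η := swap 0 1 * swap 3 4) (by decide +kernel)
    (by decide +kernel) (by decide +kernel) (by decide +kernel) (by decide +kernel) (by decide)
  have hw3 := hy.pow_eq_one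
  have hw : w ≠ 1 := hy.ne_one (by decide)
  obtain ⟨w1, w2, -⟩ := w_ne hw hw3
  have a8 : ∀ a, (R u0).eigenspace a ≠ ⊥ → 8 ≤ finrank k ((R u0).eigenspace a) := fun a ha => by
    obtain ⟨R', M', hz', -⟩ := C.res M hz sdiff_subset _ (p2 a)
    haveI := Submodule.nontrivial_iff_ne_bot.mpr ha
    rcases C.spin h2 9 _ (by decide) le_rfl _ R' M' hz' with e | e
    · omega
    · exact absurd (pow_eq_zero_iff (n := 2) two_ne_zero |>.mp (by linear_combination e.2)) h3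
  have a3 := three_le (R u0) hw.symm w2.symm w1 le_rfl le_rfl le_rfl le_top le_top le_top
  have a4 := a8 w (by simpa using p1 1 (by decide))
  have a5 := a8 _ (p1 2 (by decide))
  rw [finrank_top] at a3
  choose u hu u3 using fun i : Fin 4 => C.lift (σ := c i) (m := 3) (by decide) (by revert i; decide +kernel)
    (by revert i; decide +kernel)
  obtain rfl : u0 = u 0 := C.odd_eq (m := 3) (by decide) (e0.trans (hu 0).symm) u03 (u3 0)
  have L : ∀ σ : Perm (Fin 12), ∃ h, sign σ = 1 → τ h = σ := fun σ => by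
    by_cases e : sign σ = 1
    · obtain ⟨h, e'⟩ := C.surj σ e
      exact ⟨h, fun _ => e'⟩
    · exact ⟨1, fun e' => absurd e' e⟩
  choose l hl using L
  have mm : ∀ {g σ}, τ g = σ → sign σ = 1 → g ∈ (Alt univ).comap τ := fun e h => ⟨e ▸ h, fun x hx => absurd (mem_univ x) hx⟩
  have mc : ∀ i, u i ∈ (Alt univ).comap τ := fun i => mm (hu i) (by revert i; decide +kernel)
  have mv' : ∀ (g : Γ) (σ : Perm (Fin 12)) (i j : Fin 4) {a : k} {v : V}, v ∈ (R (u i)).eigenspace a → τ g = σ →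
      sign σ = 1 ∧ c j * σ = σ * c i → R g v ∈ (R (u j)).eigenspace a := fun g σ i j _ _ hv e h =>
    M.comm_eig (mc i) (mm e h.1) (mc j) (by
      simpa using C.rel (h := g) (j := 1) (by decide) (u3 i) (u3 j) (by rw [hu, hu, e, pow_one]; exact h.2)) hv
  have mv : ∀ (σ : Perm (Fin 12)) (i j : Fin 4) {a : k} {v : V}, v ∈ (R (u i)).eigenspace a →
      sign σ = 1 ∧ c j * σ = σ * c i → R (l σ) v ∈ (R (u j)).eigenspace a := fun σ i j _ _ hv h =>
    mv' _ σ i j hv (hl σ h.1) h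
  have mu : ∀ (n i : Fin 4) {a : k} {v : V}, v ∈ (R (u i)).eigenspace a → R (u n) v ∈ (R (u i)).eigenspace a :=
    fun n i _ _ hv => mv' _ _ i i hv (hu n) (by clear * -; revert n i; decide +kernel)
  have z1 : ∀ (i : Fin 4) (σ : Perm (Fin 12)), sign σ = 1 ∧ c 0 * σ = σ * c i → ∀ Y : Submodule k V,
      finrank k ↥(Y ⊓ (R (u i)).eigenspace 1) = 0 := fun i σ h Y => by
    have := M.le (mm (hl σ h.1) h.1) (A := Y ⊓ (R (u i)).eigenspace 1) fun v hv => mv σ i 0 hv.2 h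
    omega
  have sp := fun (i : Fin 4) (σ : Perm (Fin 12)) (h : sign σ = 1 ∧ c i * σ = σ * c i ^ 2) =>
    split M h3 hw hw3 (mc i) (mm (hl σ h.1) h.1) (u3 i)
      (C.rel (by decide) (u3 i) (u3 i) (by rw [hu, hl σ h.1]; exact h.2))
  have s1 := sp 1 (swap 3 4 * swap 6 7) (by decide +kernel) ((R (u 0)).eigenspace w)
    (fun v hv => mu _ 0 hv) fun v hv => mv _ 0 0 hv (by decide +kernel)
  have s2 := sp 2 (swap 6 7 * swap 9 10) (by decide +kernel) ((R (u 0)).eigenspace w ⊓ (R (u 1)).eigenspace w)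
    (fun v hv => ⟨mu _ 0 hv.1, mu _ 1 hv.2⟩)
    fun v hv => ⟨mv _ 0 0 hv.1 (by decide +kernel), mv _ 1 1 hv.2 (by decide +kernel)⟩
  have s3 := sp 3 (b01 * swap 9 10) (by decide +kernel)
    ((R (u 0)).eigenspace w ⊓ (R (u 1)).eigenspace w ⊓ (R (u 2)).eigenspace w)
    (fun v hv => ⟨⟨mu _ 0 hv.1.1, mu _ 1 hv.1.2⟩, mu _ 2 hv.2⟩)
    fun v hv => ⟨⟨mv _ 1 0 hv.1.2 (by decide +kernel), mv _ 0 1 hv.1.1 (by decide +kernel)⟩,
      mv _ 2 2 hv.2 (by decide +kernel)⟩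
  rw [z1 1 (b01 * b23) (by decide +kernel)] at s1
  rw [z1 2 (b02 * b13) (by decide +kernel)] at s2
  rw [z1 3 (b03 * b12) (by decide +kernel)] at s3
  set Y := (R (u 0)).eigenspace w ⊓ (R (u 1)).eigenspace w ⊓ (R (u 2)).eigenspace w ⊓ (R (u 3)).eigenspace w
  obtain ⟨v, hv, h0⟩ := (Submodule.ne_bot_iff Y).mp fun e => by rw [e, finrank_bot] at s3; omega
  have m1 := mm (hl (b01 * b23) (by decide +kernel)) (by decide +kernel)
  have m2 := mm (hl (b02 * b13) (by decide +kernel)) (by decide +kernel)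
  obtain ⟨x, hx⟩ := scal (W := Y) (by omega) (R (l (b01 * b23))) fun v hv =>
    ⟨⟨⟨mv _ 1 0 hv.1.1.2 (by decide +kernel), mv _ 0 1 hv.1.1.1 (by decide +kernel)⟩,
      mv _ 3 2 hv.2 (by decide +kernel)⟩, mv _ 2 3 hv.1.2 (by decide +kernel)⟩
  obtain ⟨y, hy⟩ := scal (W := Y) (by omega) (R (l (b02 * b13))) fun v hv =>
    ⟨⟨⟨mv _ 2 0 hv.1.2 (by decide +kernel), mv _ 3 1 hv.2 (by decide +kernel)⟩,
      mv _ 0 2 hv.1.1.1 (by decide +kernel)⟩, mv _ 1 3 hv.1.1.2 (by decide +kernel)⟩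
  have cm : ∀ (a b d e : Fin 12) (g h : Γ), τ g = swap a b * swap d e → τ h ∈ Alt {a, b, d, e}ᶜ →
      (swap a b * swap b d) ^ 3 = 1 ∧ (swap b d * swap d e) ^ 3 = 1 ∧ swap a b * swap b d ∈ Alt {a, b, d, e} ∧
      swap b d * swap d e ∈ Alt {a, b, d, e} → Commute g h := by
    rintro a b d e g h e1 e2 ⟨f1, f2, f3, f4⟩
    obtain ⟨p, hp, p3⟩ := C.lift (m := 3) (by decide) f3.1 f1
    obtain ⟨q, hq, q3⟩ := C.lift (m := 3) (by decide) f4.1 f2
    have c1 : Commute (p * q) h := Commute.mul_left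
      (C.comm (by decide) p3 disjoint_compl_right (hp ▸ f3) e2) (C.comm (by decide) q3 disjoint_compl_right (hq ▸ f4) e2)
    rcases C.ker ((p * q)⁻¹ * g) (by
      rw [map_mul, map_inv, map_mul, hp, hq, e1, mul_assoc, swap_mul_self_mul, inv_mul_cancel]) with e | e
    · exact inv_mul_eq_one.mp e ▸ c1
    · rw [inv_mul_eq_iff_eq_mul.mp e]
      exact c1.mul_left (C.cen h).symm
  have sq : ∀ (g : Γ) (n : Fin 12 → Fin 12), (Function.Injective n ∧ ∀ i : Fin 3,
      let a := n (4 * i.castLE (by decide)); let b := n (4 * i.castLE (by decide) + 1)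
      let d := n (4 * i.castLE (by decide) + 2); let e := n (4 * i.castLE (by decide) + 3)
      (swap a b * swap b d) ^ 3 = 1 ∧ (swap b d * swap d e) ^ 3 = 1 ∧ swap a b * swap b d ∈ Alt {a, b, d, e} ∧
      swap b d * swap d e ∈ Alt {a, b, d, e}) ∧
      swap (n 4) (n 5) * swap (n 6) (n 7) ∈ Alt {n 0, n 1, n 2, n 3}ᶜ ∧
      swap (n 8) (n 9) * swap (n 10) (n 11) ∈ Alt {n 0, n 1, n 2, n 3}ᶜ ∧
      swap (n 8) (n 9) * swap (n 10) (n 11) ∈ Alt {n 4, n 5, n 6, n 7}ᶜ ∧ sign (swap (n 0) (n 1) * swap (n 2) (n 3)) = 1 →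
      τ g = swap (n 0) (n 1) * swap (n 2) (n 3) * (swap (n 4) (n 5) * swap (n 6) (n 7)) *
        (swap (n 8) (n 9) * swap (n 10) (n 11)) → g * g = z := by
    rintro g n ⟨⟨hn, f⟩, f1, f2, f3, f4⟩ e
    obtain ⟨d1, e1⟩ := C.surj _ f4
    obtain ⟨d2, e2⟩ := C.surj _ f1.1
    have e3 : τ ((d1 * d2)⁻¹ * g) = swap (n 8) (n 9) * swap (n 10) (n 11) := by
      rw [map_mul, map_inv, map_mul, e1, e2, e, inv_mul_cancel_left]
    have n1 : ∀ {i j}, i ≠ j → n i ≠ n j := fun h => hn.ne h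
    have q1 := C.dbl _ _ _ _ _ (n1 (by decide)) (n1 (by decide)) (n1 (by decide)) (n1 (by decide)) (n1 (by decide))
      (n1 (by decide)) e1
    have q2 := C.dbl _ _ _ _ _ (n1 (by decide)) (n1 (by decide)) (n1 (by decide)) (n1 (by decide)) (n1 (by decide))
      (n1 (by decide)) e2
    have q3 := C.dbl _ _ _ _ _ (n1 (by decide)) (n1 (by decide)) (n1 (by decide)) (n1 (by decide)) (n1 (by decide))
      (n1 (by decide)) e3
    have c1 := cm _ _ _ _ _ _ e1 (e2 ▸ f1) (f 0)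
    have c2 := cm _ _ _ _ _ _ e1 (e3 ▸ f2) (f 0)
    have c3 := cm _ _ _ _ _ _ e2 (e3 ▸ f3) (f 1)
    rw [← mul_inv_cancel_left (d1 * d2) g, ← pow_two, (c2.mul_left c3).mul_pow, c1.mul_pow, pow_two, pow_two, pow_two,
      q1, q2, q3, C.zz, one_mul]
  have q1 := sq _ ![0, 3, 1, 4, 2, 5, 6, 9, 7, 10, 8, 11] (by decide +kernel)
    ((hl (b01 * b23) (by decide +kernel)).trans (by decide +kernel))
  have q2 := sq _ ![0, 6, 1, 7, 2, 8, 3, 9, 4, 10, 5, 11] (by decide +kernel)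
    ((hl (b02 * b13) (by decide +kernel)).trans (by decide +kernel))
  have q3 := sq (l (b01 * b23) * l (b02 * b13)) ![0, 9, 1, 10, 2, 11, 3, 6, 4, 7, 5, 8] (by decide +kernel)
    (by rw [map_mul, hl _ (by decide +kernel), hl _ (by decide +kernel)]; decide +kernel)
  have r1 := M.app m1 m1 v
  have r2 := M.app m2 m2 v
  have r3 := M.app (mul_mem m1 m2) (mul_mem m1 m2) v
  rw [q3, hz, ← M.app m1 m2, ← M.app m1 m2] at r3
  simp only [hx v hv, hy v hv, map_smul] at r3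
  rw [q1, hz, hx v hv, map_smul, hx v hv] at r1
  rw [q2, hz, hy v hv, map_smul, hy v hv] at r2
  simp only [LinearMap.neg_apply, Module.End.one_apply] at r1 r2 r3
  refine h0 (smul_right_injective _ h2 ?_)
  show (2 : k) • _ = (2 : k) • _
  linear_combination (norm := module) r3 - (y * y) • r1 + r2

end CA.E6Sec
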