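/-
Sections `A₁₂` in groups preserving a trilinear form in dimension 27: the reduction.
-/
import Cfsg.Agent.Lib.Perm.E6SecC
import Cfsg.Agent.Lib.Grp.H10Dl
import Cfsg.Agent.Lib.Grp.H23Sec

set_option autoImplicit false

namespace CA.E6Sec

open Module Module.End Equiv Equiv.Perm Finset CA.H4Alt

variable {H : Type*} [Group H] {π : H →* alternatingGroup (Fin 12)}
  {k V : Type} [Field k] [AddCommGroup V] [Module k V] [IsAlgClosed k] [FiniteDimensional k V]

theorem central' (h2' : (2 : k) ≠ 0) (h3' : (3 : k) ≠ 0) (hτ : Cfsg.IsStemExtension π)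
    (hmin : ∀ L : Subgroup H, L.map π = ⊤ → L = ⊤) (ρ : H →* End k V) (hρ : Function.Injective ρ)
    (hirr : ∀ W : Submodule k V, (∀ g, ∀ w ∈ W, ρ g w ∈ W) → W = ⊥ ∨ W = ⊤) (hd : finrank k V ≤ 27)
    {x : H} (hx : (π x).1 = c 0) {w : k} (hw : w ≠ 1) (hw3 : w ^ 3 = 1) :
    8 * finrank k ((ρ x).eigenspace w) ≤ finrank k V ∨ ∃ z, ρ z = -1 ∧ 24 ≤ finrank k V := by
  classical
  by_cases hk : π.ker = ⊥
  · let e := MulEquiv.ofBijective π ⟨(MonoidHom.ker_eq_bot_iff _).mp hk, hτ.1⟩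
    have hA : ∀ σ ∈ Alt (univ : Finset (Fin 12)), σ ∈ alternatingGroup (Fin 12) := fun σ h => h.1
    have := hon h2' h3' (R := fun σ => if h : σ ∈ alternatingGroup (Fin 12) then ρ (e.symm ⟨σ, h⟩) else 1)
      ⟨?_, fun g hg h hh => ?_⟩ hd hw hw3
    · left
      replace this := this.1
      rw [← hx, dif_pos (π x).2] at this
      rwa [show e.symm ⟨π x, (π x).2⟩ = x from e.symm_apply_apply x] at this
    · rw [dif_pos (one_mem _)]; exact (congrArg ρ (map_one e.symm)).trans (map_one ρ)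
    · rw [dif_pos (hA _ hg), dif_pos (hA _ hh), dif_pos (hA _ (mul_mem hg hh)), ← map_mul, ← map_mul]; rfl
  · have h8 : 8 ≤ Fintype.card (Fin 12) := by simp
    have h2 : Nat.card π.ker = 2 := by
      rcases (Nat.dvd_prime Nat.prime_two).mp (CA.SchurAlt.card_dvd_two_of_eight hτ h8) with e | e
      · exact absurd (Subgroup.eq_bot_of_card_eq _ e) hk
      · exact e
    obtain ⟨y, hy1, hy⟩ := (Nat.card_eq_two_iff' (1 : π.ker)).mp h2
    have hsq : ∀ a ∈ π.ker, a ^ 2 = 1 := fun a ha =>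
      h2 ▸ congrArg Subtype.val (pow_card_eq_one' (x := (⟨a, ha⟩ : π.ker)))
    have hz : ∀ a ∈ π.ker, a ≠ 1 → a = y := fun a ha h =>
      congrArg Subtype.val (hy ⟨a, ha⟩ fun e => h (congrArg Subtype.val e))
    have hy0 : (y : H) ≠ 1 := fun e => hy1 (Subtype.ext e)
    haveI : Nontrivial V := by
      by_contra hV
      haveI := not_nontrivial_iff_subsingleton.mp hV
      exact hy0 (hρ (Subsingleton.elim _ _))
    obtain ⟨L, hL⟩ := CA.SchurAlt.exists_lifts_of_eight hτ.1 hτ.2.1 h8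
    have hns : ∀ f, π.comp f ≠ MonoidHom.id _ := fun f hf => by
      have hf' : ∀ a, π (f a) = a := DFunLike.congr_fun hf
      have h3 := hmin f.range (top_le_iff.mp fun a _ => ⟨f a, ⟨a, rfl⟩, hf' a⟩)
      obtain ⟨a, ha⟩ : (y : H) ∈ f.range := h3.ge trivial
      have h4 : a = 1 := by rw [← hf' a, ha]; exact y.2
      exact hy0 (by rw [← ha, h4, map_one])
    have C : Cov ((alternatingGroup (Fin 12)).subtype.comp π) y := by
      refine ⟨fun g => Subgroup.mem_center_iff.mp (hτ.2.1 y.2) g, by rw [← pow_two]; exact hsq _ y.2,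
        congrArg Subtype.val y.2, fun g hg => ?_, fun σ hσ => ?_, fun x a b c d ab ac ad bc bd cd h5 => ?_⟩
      · by_cases h : g = 1
        · exact Or.inl h
        · exact Or.inr (hz g (Subtype.ext hg) h)
      · obtain ⟨g, hg⟩ := hτ.1 ⟨σ, hσ⟩
        exact ⟨g, congrArg Subtype.val hg⟩
      · have h6 := (CA.SchurAlt.z_ne_one hτ.1 hτ.2.1 hL bd hsq hns).2 ⟨a, ab, ad⟩
          ⟨c, Ne.symm bc, cd⟩ (fun e => ac (congrArg Subtype.val e))
        have h6' := CA.SchurAlt.z_mem hL bd (i := ⟨a, ab, ad⟩) (j := ⟨c, Ne.symm bc, cd⟩)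
          (fun e => ac (congrArg Subtype.val e))
        have h7 : (L a b d * L c b d)⁻¹ * x ∈ π.ker := by
          rw [MonoidHom.mem_ker, map_mul, map_inv, inv_mul_eq_one, map_mul, hL.map _ _ _ ab bd ad,
            hL.map _ _ _ (Ne.symm bc) bd cd]
          refine Subtype.ext ((CA.SchurCarm.cyc_mul ac ab ad (Ne.symm bc) cd bd).trans ?_)
          exact h5.symm
        have h8 : Commute (L a b d * L c b d) ((L a b d * L c b d)⁻¹ * x) :=
          Subgroup.mem_center_iff.mp (hτ.2.1 h7) _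
        have h9 := h8.mul_pow 2
        rw [mul_inv_cancel_left, hsq _ h7, mul_one] at h9
        rw [← pow_two, h9]
        exact hz _ h6' h6
    obtain ⟨c, hc⟩ := schur ρ hirr (hτ.2.1 y.2)
    obtain ⟨v, hv⟩ := exists_ne (0 : V)
    have hc1 : c ≠ 1 := fun e => hy0 (hρ (by ext w; rw [hc, e, one_smul, map_one]; rfl))
    have hc2 : c * c = 1 := by
      have h3 : ρ y (ρ y v) = v := by rw [← Module.End.mul_apply, ← map_mul, C.zz, map_one]; rfl
      rw [hc, hc, smul_smul] at h3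
      have h4 : (c * c - 1) • v = 0 := by rw [sub_smul, h3, one_smul, sub_self]
      exact sub_eq_zero.mp ((smul_eq_zero.mp h4).resolve_right hv)
    have hc3 : c = -1 := (mul_self_eq_one_iff.mp hc2).resolve_left hc1
    have h9 : ρ y = -1 := by ext w; rw [hc, hc3]; simp
    exact Or.inr ⟨y, h9, spin C h2' h3' ⟨map_one ρ, fun g _ h _ => map_mul ρ g h⟩ h9⟩

theorem nil [Finite H] (hs : Function.Surjective π) (hmin : ∀ L : Subgroup H, L.map π = ⊤ → L = ⊤) :
    Group.IsNilpotent π.ker := by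
  have h1 : π.ker ≤ frattini H := by
    refine le_iInf₂ fun M (hM : IsCoatom M) => ?_
    by_contra hn
    have h2 : M ⊔ π.ker = ⊤ := hM.2 _ (lt_of_le_of_ne le_sup_left fun e => hn (e ▸ le_sup_right))
    refine hM.1 (hmin _ ?_)
    have h3 := congrArg (Subgroup.map π) h2
    rwa [Subgroup.map_sup, (Subgroup.map_eq_bot_iff _).mpr le_rfl, sup_bot_eq,
      Subgroup.map_top_of_surjective _ hs] at h3
  haveI := frattini_nilpotent (G := H)
  exact Group.nilpotent_of_mulEquiv (Subgroup.subgroupOfEquivOfLe h1)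

theorem syl [Finite H] (hs : Function.Surjective π) (hmin : ∀ L : Subgroup H, L.map π = ⊤ → L = ⊤) {s : ℕ}
    [Fact s.Prime] (S : Sylow s π.ker) : (S.1.map π.ker.subtype).Normal := by
  haveI := nil hs hmin
  haveI : S.1.Normal := inferInstance
  haveI := S.characteristic_of_normal inferInstance
  infer_instance

/-- the normal `p'`-subgroups of the kernel are central -/
def Cen (k : Type) [Field k] (π : H →* alternatingGroup (Fin 12)) : Prop :=
  ∀ s : ℕ, s.Prime → (s : k) ≠ 0 → ∀ P : Subgroup H, P.Normal → IsPGroup s P → P ≤ π.ker → P ≤ Subgroup.center H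

omit [IsAlgClosed k] in
theorem ker_cen [Finite H] [Nontrivial V] (hs : Function.Surjective π) (hmin : ∀ L : Subgroup H, L.map π = ⊤ → L = ⊤)
    (hc : Cen k π) (ρ : H →* End k V) (hirr : ∀ W : Submodule k V, (∀ g, ∀ w ∈ W, ρ g w ∈ W) → W = ⊥ ∨ W = ⊤) :
    ∀ x ∈ π.ker, ∀ g, g * x * g⁻¹ * x⁻¹ ∈ ρ.ker := by
  let C := (Subgroup.center (H ⧸ ρ.ker)).comap (QuotientGroup.mk' ρ.ker)
  suffices h : π.ker ≤ C from fun x hx g => by
    rw [← QuotientGroup.eq_one_iff]
    have := Subgroup.mem_center_iff.mp (h hx) (g : H ⧸ ρ.ker)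
    simp only [QuotientGroup.mk_mul, QuotientGroup.mk_inv]
    rw [mul_inv_eq_one, mul_inv_eq_iff_eq_mul]
    exact this
  rw [← Subgroup.subgroupOf_eq_top, ← Subgroup.index_eq_one]
  by_contra h
  obtain ⟨s, hp, hd⟩ := Nat.exists_prime_and_dvd h
  haveI := Fact.mk hp
  obtain ⟨S⟩ : Nonempty (Sylow s π.ker) := inferInstance
  have hN := syl hs hmin S
  refine S.not_dvd_index (hd.trans (Subgroup.index_dvd_of_le fun x hx => ?_))
  have hx' : x.1 ∈ S.1.map π.ker.subtype := ⟨x, hx, rfl⟩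
  by_cases e : (s : k) = 0
  · haveI : CharP k s := (CharP.charP_iff_prime_eq_zero hp).mpr e
    obtain ⟨v, h0, hv⟩ := CA.H10Dl.exists_fixed (S.2.map π.ker.subtype) (ρ.comp (Subgroup.subtype _))
    let W : Submodule k V :=
      { carrier := {v | ∀ a ∈ S.1.map π.ker.subtype, ρ a v = v}
        add_mem' := fun ha hb a h => by rw [map_add, ha a h, hb a h]
        zero_mem' := fun _ _ => map_zero _
        smul_mem' := fun c _ ha a h => by rw [map_smul, ha a h] }
    rcases hirr W (fun g w hw a ha => by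
      rw [← Module.End.mul_apply, ← map_mul, show a * g = g * (g⁻¹ * a * g⁻¹⁻¹) by group, map_mul,
        Module.End.mul_apply, hw _ (hN.conj_mem a ha _)]) with h1 | h1
    · exact (h0 (h1.le fun a ha => hv ⟨a, ha⟩)).elim
    · have h2 : x.1 ∈ ρ.ker := LinearMap.ext fun v => (h1.ge trivial : v ∈ W) _ hx'
      show QuotientGroup.mk' ρ.ker x.1 ∈ Subgroup.center _
      rw [(QuotientGroup.eq_one_iff (N := ρ.ker) x.1).mpr h2 |> (show QuotientGroup.mk' ρ.ker x.1 = 1 from ·)]
      exact one_mem _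
  · have h1 := Subgroup.mem_center_iff.mp (hc s hp e _ hN (S.2.map _) (Subgroup.map_subtype_le _) hx')
    refine Subgroup.mem_center_iff.mpr fun g => ?_
    obtain ⟨g, rfl⟩ := QuotientGroup.mk_surjective g
    exact congrArg QuotientGroup.mk (h1 g)

omit [IsAlgClosed k] in
theorem rank_le (T : End k V) (W : Submodule k V) (hW : ∀ v ∈ W, T v ∈ W) :
    finrank k (LinearMap.ker T) ≤ finrank k (LinearMap.ker (T.restrict hW)) +
      finrank k (LinearMap.ker (W.mapQ W T hW)) ∧
    finrank k (LinearMap.ker (T.restrict hW)) ≤ finrank k (LinearMap.ker T) ∧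
    finrank k (LinearMap.ker (W.mapQ W T hW)) ≤ finrank k (LinearMap.ker T) := by
  have a1 : finrank k (LinearMap.ker (T.restrict hW)) = finrank k ↥(W ⊓ LinearMap.ker T) := by
    rw [← Submodule.finrank_map_subtype_eq W, LinearMap.ker_restrict, Submodule.map_comap_subtype]
  refine ⟨?_, a1 ▸ Submodule.finrank_mono inf_le_right, ?_⟩
  · have a2 := (W.mkQ.domRestrict (LinearMap.ker T)).finrank_range_add_finrank_ker
    have a3 := Submodule.finrank_mono (show LinearMap.range (W.mkQ.domRestrict (LinearMap.ker T)) ≤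
        LinearMap.ker (W.mapQ W T hW) by
      rintro _ ⟨x, rfl⟩
      exact (congrArg W.mkQ x.2).trans (map_zero _))
    have a4 : finrank k (LinearMap.ker (W.mkQ.domRestrict (LinearMap.ker T))) ≤ finrank k ↥(W ⊓ LinearMap.ker T) := by
      rw [← Submodule.finrank_map_subtype_eq]
      refine Submodule.finrank_mono ?_
      rintro _ ⟨x, hx, rfl⟩
      exact ⟨(Submodule.Quotient.mk_eq_zero W).mp hx, x.2⟩
    omega
  · have a2 := T.finrank_range_add_finrank_ker
    have a3 := (W.mapQ W T hW).finrank_range_add_finrank_ker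
    have a4 := W.finrank_quotient_add_finrank
    have a5 := (W.mkQ.domRestrict (LinearMap.range T)).finrank_range_add_finrank_ker
    have a6 := Submodule.finrank_mono (show LinearMap.range (W.mkQ.domRestrict (LinearMap.range T)) ≤
        LinearMap.range (W.mapQ W T hW) by
      rintro _ ⟨⟨_, x, rfl⟩, rfl⟩
      exact ⟨W.mkQ x, rfl⟩)
    have a7 : finrank k (LinearMap.ker (W.mkQ.domRestrict (LinearMap.range T))) ≤ finrank k W := by
      rw [← Submodule.finrank_map_subtype_eq]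
      refine Submodule.finrank_mono ?_
      rintro _ ⟨x, hx, rfl⟩
      exact (Submodule.Quotient.mk_eq_zero W).mp hx
    omega

theorem ind [Finite H] (h2 : (2 : k) ≠ 0) (h3 : (3 : k) ≠ 0) (hs : Function.Surjective π)
    (hmin : ∀ L : Subgroup H, L.map π = ⊤ → L = ⊤) (hc : Cen k π) {x : H} (hx : (π x).1 = c 0) {w : k} (hw : w ≠ 1)
    (hw3 : w ^ 3 = 1) (d : ℕ) : ∀ (V : Type) [AddCommGroup V] [Module k V] [FiniteDimensional k V] (ρ : H →* End k V),
    finrank k V = d → d ≤ 27 → 8 * finrank k (LinearMap.ker (ρ x - w • 1)) ≤ d ∨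
      ∃ z, 24 ≤ finrank k (LinearMap.ker (ρ z - (-1 : k) • 1)) := by
  induction d using Nat.strong_induction_on with
  | _ d ih =>
  intro V _ _ _ ρ hd h27
  by_cases hirr : ∀ W : Submodule k V, (∀ g, ∀ w ∈ W, ρ g w ∈ W) → W = ⊥ ∨ W = ⊤
  · subst hd
    rcases subsingleton_or_nontrivial V with hV | hV
    · exact Or.inl (by rw [finrank_zero_of_subsingleton]; omega)
    by_cases e : ρ.ker = ⊤
    · refine Or.inl ?_
      rw [(LinearMap.ker_eq_bot' (f := ρ x - w • 1)).mpr fun v hv => ?_, finrank_bot]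
      · omega
      rw [show ρ x = 1 from e.ge trivial] at hv
      refine (smul_eq_zero.mp (show (1 - w) • v = 0 from ?_)).resolve_left (sub_ne_zero.mpr hw.symm)
      rw [sub_smul, one_smul]; exact hv
    have h1 := nor_le (by omega) hs hmin _ e
    have hs' : Function.Surjective (QuotientGroup.lift _ π h1) := fun y => by
      obtain ⟨g, rfl⟩ := hs y
      exact ⟨g, rfl⟩
    have hm' : ∀ L : Subgroup (H ⧸ ρ.ker), L.map (QuotientGroup.lift _ π h1) = ⊤ → L = ⊤ := fun L hL => by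
      have := hmin (L.comap (QuotientGroup.mk' _)) (top_le_iff.mp fun y _ => by
        obtain ⟨g, hg, rfl⟩ : y ∈ L.map (QuotientGroup.lift _ π h1) := hL.ge trivial
        obtain ⟨g, rfl⟩ := QuotientGroup.mk_surjective g
        exact ⟨g, hg, rfl⟩)
      refine top_le_iff.mp fun g _ => ?_
      obtain ⟨g, rfl⟩ := QuotientGroup.mk_surjective g
      exact (this.ge trivial : g ∈ L.comap (QuotientGroup.mk' _))
    have hcen : (QuotientGroup.lift _ π h1).ker ≤ Subgroup.center _ := fun y hy => by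
      obtain ⟨y, rfl⟩ := QuotientGroup.mk_surjective y
      refine Subgroup.mem_center_iff.mpr fun g => ?_
      obtain ⟨g, rfl⟩ := QuotientGroup.mk_surjective g
      have := (QuotientGroup.eq_one_iff _).mpr (ker_cen hs hmin hc ρ hirr y hy g)
      simp only [QuotientGroup.mk_mul, QuotientGroup.mk_inv] at this
      rwa [mul_inv_eq_one, mul_inv_eq_iff_eq_mul] at this
    rcases central' h2 h3 (π := QuotientGroup.lift _ π h1) ⟨hs', hcen, (perf (by omega) hs' hm').ge.trans' le_top⟩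
      hm' (QuotientGroup.lift _ ρ fun _ h => h) ((injective_iff_map_eq_one _).mpr fun a ha => by
        obtain ⟨a, rfl⟩ := QuotientGroup.mk_surjective a
        exact (QuotientGroup.eq_one_iff a).mpr ha) (fun W hW => hirr W fun g => hW g) h27
      (x := x) hx hw hw3 with h | ⟨z, h4, h5⟩
    · exact Or.inl (by rwa [eigenspace_def] at h)
    · obtain ⟨z, rfl⟩ := QuotientGroup.mk_surjective z
      refine Or.inr ⟨z, ?_⟩
      rwa [show ρ z = -1 from h4, neg_one_smul, sub_self, LinearMap.ker_zero, finrank_top]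
  · push Not at hirr
    obtain ⟨W, hW, h1, h4⟩ := hirr
    have a3 := W.finrank_quotient_add_finrank
    have a4 := pos_of_ne h1
    have a5 := Submodule.finrank_lt h4
    let ρ1 : H →* End k W := Representation.subrepresentation ρ W hW
    let ρ2 : H →* End k (V ⧸ W) := Representation.quotient ρ W hW
    have key : ∀ (g : H) (a : k), finrank k (LinearMap.ker (ρ g - a • 1)) ≤ finrank k (LinearMap.ker (ρ1 g - a • 1)) +
        finrank k (LinearMap.ker (ρ2 g - a • 1)) ∧
        finrank k (LinearMap.ker (ρ1 g - a • 1)) ≤ finrank k (LinearMap.ker (ρ g - a • 1)) ∧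
        finrank k (LinearMap.ker (ρ2 g - a • 1)) ≤ finrank k (LinearMap.ker (ρ g - a • 1)) := fun g a => by
      have hi : ∀ v ∈ W, (ρ g - a • 1) v ∈ W := fun v hv => sub_mem (hW g v hv) (W.smul_mem a hv)
      have := rank_le (ρ g - a • 1) W hi
      rwa [show (ρ g - a • 1).restrict hi = ρ1 g - a • 1 from LinearMap.ext fun v => rfl,
        show W.mapQ W (ρ g - a • 1) hi = ρ2 g - a • 1 from W.linearMap_qext (LinearMap.ext fun v => rfl)] at this
    have k1 := fun z => key z (-1)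
    rcases ih _ (by omega) W ρ1 rfl (by omega) with e1 | ⟨z, e1⟩
    · rcases ih _ (by omega) (V ⧸ W) ρ2 rfl (by omega) with e2 | ⟨z, e2⟩
      · have := (key x w).1
        exact Or.inl (by omega)
      · exact Or.inr ⟨z, e2.trans (k1 z).2.2⟩
    · exact Or.inr ⟨z, e1.trans (k1 z).2.1⟩

theorem lift3 [Finite H] (h3 : (3 : k) ≠ 0) (hs : Function.Surjective π)
    (hmin : ∀ L : Subgroup H, L.map π = ⊤ → L = ⊤) (hc : Cen k π) : ∃ x : H, (π x).1 = c 0 ∧ x ^ 3 = 1 := by
  haveI := Fact.mk Nat.prime_three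
  let x0 : alternatingGroup (Fin 12) := ⟨c 0, by rw [mem_alternatingGroup]; decide +kernel⟩
  let η : alternatingGroup (Fin 12) := ⟨swap 0 1 * swap 3 4, by rw [mem_alternatingGroup]; decide +kernel⟩
  have e3 : x0 ^ 3 = 1 := Subtype.ext (by decide +kernel)
  have e2 : η * x0 * η⁻¹ = x0 ^ 2 := Subtype.ext (by decide +kernel)
  have ht := Subgroup.map_top_of_surjective _ hs
  obtain ⟨P, -, hP, e, h4⟩ := CA.H23Sec.lift π ⊤ (CA.H23Sec.isP_zpowers e3) (ht.ge.trans' le_top)
  obtain ⟨g, -, hg, h5⟩ := h4 η (ht.ge trivial) (CA.H23Sec.conj_zpowers e2)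
  obtain ⟨x, hx, e4⟩ := e.ge (Subgroup.mem_zpowers x0)
  have cz : ∀ y ∈ P, π y = 1 → y ∈ Subgroup.center H := fun y hy h => by
    obtain ⟨S, hS⟩ := (hP.to_inf_left (K := π.ker)).comap_subtype (K := π.ker) |>.exists_le_sylow
    exact hc 3 Nat.prime_three (by exact_mod_cast h3) _ (syl hs hmin S) (S.2.map _) (Subgroup.map_subtype_le _)
      ⟨⟨y, h⟩, hS ⟨hy, h⟩, rfl⟩
  have c1 := Subgroup.mem_center_iff.mp (cz (x ^ 3) (pow_mem hx 3) (by rw [map_pow, e4, e3])) g
  have c2 := Subgroup.mem_center_iff.mp (cz (g * x * g⁻¹ * x) (mul_mem (h5 x hx) hx) (by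
    rw [map_mul, map_mul, map_mul, map_inv, hg, e4, e2, ← pow_succ, e3])) x
  have c3 : Commute (g * x * g⁻¹) x⁻¹ := Commute.inv_right (mul_right_cancel (b := x) (by
    rw [← c2, mul_assoc x]))
  refine ⟨g * x * g⁻¹ * x⁻¹, ?_, ?_⟩
  · rw [map_mul, map_mul, map_mul, map_inv, map_inv, hg, e4, e2, pow_two, mul_inv_cancel_right]
  · rw [c3.mul_pow, conj_pow, c1, mul_inv_cancel_right, inv_pow, mul_inv_cancel]

variable (ρ : H →* End k V) (hρ : Function.Injective ρ) (f : V →ₗ[k] V →ₗ[k] V →ₗ[k] k)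
  (hf : ∀ g x y z, f (ρ g x) (ρ g y) (ρ g z) = f x y z) (hR : ∀ v, v ≠ 0 → finrank k (LinearMap.ker (f v)) ≤ 17)
  (hd : finrank k V = 27)
include hρ hf hR hd

omit [IsAlgClosed k] in
theorem five (g : H) (hg : g ≠ 1) : 5 ≤ finrank k (LinearMap.range (ρ g - 1)) := by
  obtain ⟨v, hv⟩ : ∃ v, ρ g v ≠ v := by
    by_contra! h
    exact hg (hρ ((LinearMap.ext h).trans (map_one ρ).symm))
  have a1 := orth (f (ρ g v - v)) (LinearMap.ker (ρ g - 1)) (LinearMap.ker (ρ g - 1)) fun x hx y hy => by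
    have := hf g v x y
    rw [show ρ g x = x from sub_eq_zero.mp hx, show ρ g y = y from sub_eq_zero.mp hy] at this
    rw [map_sub, LinearMap.sub_apply, LinearMap.sub_apply, this, sub_self]
  have a2 := hR _ (sub_ne_zero.mpr hv)
  have a3 := (ρ g - 1).finrank_range_add_finrank_ker
  omega

theorem fin [Finite H] (h2 : (2 : k) ≠ 0) (h3 : (3 : k) ≠ 0) (hs : Function.Surjective π)
    (hmin : ∀ L : Subgroup H, L.map π = ⊤ → L = ⊤) (hc : Cen k π) : False := by
  have eig : ∀ (g : H) {a b c : k} {x y z : V}, ρ g x = a • x → ρ g y = b • y → ρ g z = c • z → a * b * c ≠ 1 →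
      f x y z = 0 := fun g a b c x y z h1 h4 h5 h6 => by
    have := hf g x y z
    simp only [h1, h4, h5, map_smul, LinearMap.smul_apply, smul_eq_mul] at this
    exact (mul_eq_zero.mp (show (a * b * c - 1) * f x y z = 0 by linear_combination this)).resolve_left
      (sub_ne_zero.mpr h6)
  have r : ∀ z, ¬ 24 ≤ finrank k (LinearMap.ker (ρ z - (-1 : k) • 1)) := fun z h => by
    have m : ∀ v ∈ LinearMap.ker (ρ z - (-1 : k) • 1), ρ z v = (-1 : k) • v := fun v hv => sub_eq_zero.mp hv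
    obtain ⟨v, hv, h0⟩ := (Submodule.ne_bot_iff (LinearMap.ker (ρ z - (-1 : k) • 1))).mp fun e => by
      rw [e, finrank_bot] at h; omega
    have a1 := orth (f v) _ _ fun x hx y hy => eig z (m v hv) (m x hx) (m y hy) fun e => h2 (by linear_combination -e)
    have a2 := hR v h0
    omega
  obtain ⟨x, hx, x3⟩ := lift3 h3 hs hmin hc
  have x3' : ρ x ^ 3 = 1 := by rw [← map_pow, x3, map_one]
  obtain ⟨w, hw, hw3, hE⟩ := exists_eig_ne (ρ x) (m := 3) (by exact_mod_cast h3) x3' fun e => by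
    rw [hρ (e.trans (map_one ρ).symm), map_one] at hx
    exact absurd hx (by decide +kernel)
  obtain ⟨w1, w2, w4⟩ := w_ne hw hw3
  have a1 := (ind h2 h3 hs hmin hc hx hw hw3 27 V ρ hd le_rfl).resolve_right fun ⟨z, h⟩ => r z h
  have a2 := (ind h2 h3 hs hmin hc hx w2 (by rw [← pow_mul, mul_comm, pow_mul, hw3, one_pow]) 27 V ρ hd
    le_rfl).resolve_right fun ⟨z, h⟩ => r z h
  rw [← eigenspace_def] at a1 a2
  have a3 := sum3 h3 x3' hw hw3 ⊤ fun _ _ => trivial
  rw [top_inf_eq, top_inf_eq, top_inf_eq, finrank_top] at a3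
  obtain ⟨v, hv, h0⟩ := (Submodule.ne_bot_iff _).mp hE
  have a4 := orth (f v) ((ρ x).eigenspace 1) ((ρ x).eigenspace 1 ⊔ (ρ x).eigenspace w) fun y hy z hz => by
    obtain ⟨a, ha, b, hb, rfl⟩ := Submodule.mem_sup.mp hz
    rw [map_add, eig x (mem_eigenspace_iff.mp hv) (mem_eigenspace_iff.mp hy) (mem_eigenspace_iff.mp ha)
      (by simpa using hw), eig x (mem_eigenspace_iff.mp hv) (mem_eigenspace_iff.mp hy) (mem_eigenspace_iff.mp hb)
      (by rwa [mul_one, ← pow_two]), add_zero]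
  have a5 := add_le le_sup_left le_sup_right (eig_disj (ρ x) hw.symm)
  have a6 := hR v h0
  omega

end CA.E6Sec
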