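/-
Sections `A₁₂` in dimension 27: abelian normal subgroups.
-/
import Cfsg.Agent.Lib.Perm.E6SecD

set_option autoImplicit false

namespace CA.E6Sec

open Module Module.End Equiv Equiv.Perm Finset CA.H4Alt
open scoped commutatorElement

variable {H : Type} [Group H] {k V : Type} [Field k] [AddCommGroup V] [Module k V]

/-- weights -/
def Wts (k : Type) (A : Subgroup H) : Type := A → k

instance wtsAct (A : Subgroup H) [A.Normal] : MulAction H (Wts k A) where
  smul h χ := fun a => χ (MulAut.conjNormal h⁻¹ a)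
  one_smul χ := funext fun a => congrArg χ (by simp)
  mul_smul g h χ := funext fun a => congrArg χ (by rw [mul_inv_rev, map_mul]; rfl)

variable (ρ : H →* End k V) {A : Subgroup H} [A.Normal]

/-- weight spaces -/
def Wt (χ : Wts k A) : Submodule k V := ⨅ a : A, (ρ a).eigenspace (χ a)

omit [A.Normal] in
theorem mem_Wt {χ : Wts k A} {v : V} : v ∈ Wt ρ χ ↔ ∀ a : A, ρ a v = χ a • v := by
  simp only [Wt, Submodule.mem_iInf, mem_eigenspace_iff]

theorem Wt_smul (h : H) {χ : Wts k A} {v : V} (hv : v ∈ Wt ρ χ) : ρ h v ∈ Wt ρ (h • χ) := (mem_Wt ρ).mpr fun a => by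
  have := (mem_Wt ρ).mp hv (MulAut.conjNormal h⁻¹ a)
  change _ = χ (MulAut.conjNormal h⁻¹ a) • _
  rw [← map_smul, ← this, ← Module.End.mul_apply, ← Module.End.mul_apply, ← map_mul, ← map_mul]
  congr 2
  simp [mul_assoc]

theorem mo : MO ⊤ ρ := ⟨map_one ρ, fun g _ h _ => map_mul ρ g h⟩

theorem fixv {h a : H} (ha : a ∈ A) {χ : Wts k A} (e : h • χ = χ) {v : V} (hv : v ∈ Wt ρ χ) :
    ρ (a⁻¹ * (h⁻¹ * a * h)) v = v := by
  have h1 := (mem_Wt ρ).mp hv (MulAut.conjNormal h⁻¹ ⟨a, ha⟩)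
  rw [show χ (MulAut.conjNormal h⁻¹ ⟨a, ha⟩) = χ ⟨a, ha⟩ from congrFun e ⟨a, ha⟩, ← (mem_Wt ρ).mp hv] at h1
  simp only [MulAut.conjNormal_apply, inv_inv] at h1
  rw [map_mul, Module.End.mul_apply, h1, (mo ρ).inv_app trivial]

variable [FiniteDimensional k V] [IsAlgClosed k]

omit [A.Normal] in
theorem wt_dec (hc : ∀ a ∈ A, ∀ b ∈ A, a * b = b * a) {n : ℕ} (hn : (n : k) ≠ 0) (hp : ∀ a ∈ A, a ^ n = 1) :
    iSupIndep (Wt ρ : Wts k A → _) ∧ ⨆ χ : Wts k A, Wt ρ χ = ⊤ := by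
  have h1 : ∀ (a : A) μ, (ρ a).maxGenEigenspace μ = (ρ a).eigenspace μ := fun a =>
    (isSemisimple_of_squarefree_aeval_eq_zero (Polynomial.X_pow_sub_one_separable_iff.mpr hn).squarefree (by
      rw [map_sub, map_pow, Polynomial.aeval_X, map_one, ← map_pow, hp a a.2, map_one, sub_self])).isFinitelySemisimple.maxGenEigenspace_eq_eigenspace
  have h2 : ∀ a b : A, Commute (ρ a) (ρ b) := fun a b => Commute.map (hc a a.2 b b.2) ρ
  have h3 := independent_iInf_maxGenEigenspace_of_forall_mapsTo (fun a : A => ρ a) fun a b φ =>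
    mapsTo_maxGenEigenspace_of_comm (h2 b a) φ
  have h4 := iSup_iInf_maxGenEigenspace_eq_top_of_iSup_maxGenEigenspace_eq_top_of_commute (fun a : A => ρ a)
    (fun a b _ => h2 a b) fun a => iSup_maxGenEigenspace_eq_top _
  simp only [h1] at h3 h4
  exact ⟨h3, h4⟩

omit [IsAlgClosed k] in
theorem sum_le' {ι : Type} {W : ι → Submodule k V} (h : iSupIndep W) (t : Finset ι) :
    ∑ a ∈ t, finrank k (W a) = finrank k (⨆ a ∈ t, W a : Submodule k V) := by
  classical
  induction t using Finset.induction_on with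
  | empty => rw [show (⨆ a ∈ (∅ : Finset ι), W a) = ⊥ by simp, finrank_bot, sum_empty]
  | insert a t ha ih =>
    rw [Finset.sum_insert ha, ih, Finset.iSup_insert, ← Submodule.finrank_sup_add_finrank_inf_eq,
      show W a ⊓ ⨆ a ∈ t, W a = ⊥ from (h.disjoint_biSup (y := (t : Set ι)) (x := a) (by simpa using ha)).eq_bot,
      finrank_bot, add_zero]

variable {π : H →* alternatingGroup (Fin 12)} (hs : Function.Surjective π)
  (hA : ∀ a ∈ A, ∀ x ∈ π.ker, a * x = x * a)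
include hA

omit [FiniteDimensional k V] [IsAlgClosed k] [Field k] in
theorem act_eq {x y : H} (e : (π x).1 = (π y).1) (χ : Wts k A) : x • χ = y • χ := by
  rw [← inv_smul_eq_iff, smul_smul]
  refine funext fun a => congrArg χ (Subtype.ext ?_)
  rw [MulAut.conjNormal_apply, inv_inv, mul_assoc, hA a a.2 _ (by
    rw [MonoidHom.mem_ker, map_mul, map_inv, Subtype.ext e, inv_mul_cancel]), inv_mul_cancel_left]

include hs

theorem move (h2 : (2 : k) ≠ 0) (h3 : (3 : k) ≠ 0) (hd : finrank k V ≤ 27) (hi : iSupIndep (Wt ρ : Wts k A → _))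
    {h : H} (hh : (π h).1 = c 0) {χ : Wts k A} (h0 : Wt ρ χ ≠ ⊥) (h1 : h • χ ≠ χ) {y : H}
    (hy : (π y).1 ∈ Alt {3, 4, 5, 6, 7, 8, 9, 10, 11}) : y • χ = χ := by
  classical
  let Ω : SubMulAction H (Wts k A) := ⟨{χ | Wt ρ χ ≠ ⊥}, fun g χ h e => h (eq_bot_iff.mpr fun v hv =>
    by_contra fun e' => (mo ρ).ne_zero (g := g) trivial e' (e.le (Wt_smul ρ g hv)))⟩
  letI i1 : Fintype {χ : Wts k A // Wt ρ χ ≠ ⊥} := hi.fintypeNeBotOfFiniteDimensional
  letI : Fintype Ω := i1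
  have hc : Fintype.card Ω ≤ 27 := hi.subtype_ne_bot_le_finrank.trans hd
  have L : ∀ σ : Perm (Fin 12), ∃ g, sign σ = 1 → (π g).1 = σ := fun σ => by
    by_cases e : sign σ = 1
    · obtain ⟨g, e'⟩ := hs ⟨σ, e⟩
      exact ⟨g, fun _ => congrArg Subtype.val e'⟩
    · exact ⟨1, fun e' => absurd e' e⟩
  choose l hl using L
  have ae : ∀ {x y : H}, (π x).1 = (π y).1 → ∀ z : Ω, x⁻¹ • z = y⁻¹ • z := fun e z =>
    Subtype.ext (act_eq hA (by simp [e]) _)
  let R : Perm (Fin 12) → End k (Ω → k) := fun σ => LinearMap.funLeft k k fun z => (l σ)⁻¹ • z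
  have hR : ∀ (g : H) (f : Ω → k) z, R (π g).1 f z = f (g⁻¹ • z) := fun g f z =>
    congrArg f (ae (hl _ (π g).2) z)
  have M : MO (Alt univ) R := by
    refine ⟨LinearMap.ext fun f => funext fun z => ?_, fun a ha b hb => LinearMap.ext fun f => funext fun z => ?_⟩
    · simpa using hR 1 f z
    · have := hR (l a * l b) f z
      rw [map_mul, Subgroup.coe_mul, hl a ha.1, hl b hb.1, mul_inv_rev, mul_smul] at this
      exact this
  haveI : NeZero ((3 : ℕ) : k) := ⟨by exact_mod_cast h3⟩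
  obtain ⟨w, hw⟩ := HasEnoughRootsOfUnity.exists_primitiveRoot k 3
  have hw1 : w ≠ 1 := hw.ne_one (by decide)
  obtain ⟨w1, w2, -⟩ := w_ne hw1 hw.pow_eq_one
  let x : Ω := ⟨χ, h0⟩
  have e1 : h • x ≠ x := fun e => h1 (congrArg Subtype.val e)
  have e3 : h • h • h • x = x := by
    rw [smul_smul, smul_smul]
    exact Subtype.ext ((act_eq hA (y := 1) (by simp only [map_mul, Subgroup.coe_mul, hh, map_one]; decide +kernel) _).trans
      (one_smul _ _))
  have e2 : h • h • x ≠ x := fun e => e1 (by rw [e] at e3; exact e3)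
  have hsg : ∀ (g : H) (z : Ω) (a : k), R (π g).1 (Pi.single z a) = Pi.single (g • z) a := fun g z a => funext fun t => by
    rw [hR, Pi.single_apply, Pi.single_apply]
    simp only [inv_smul_eq_iff]
  have hv := (hon h2 h3 M (by rwa [Module.finrank_fintype_fun_eq_card]) hw1 hw.pow_eq_one).2
    (x := Pi.single x 1 + Pi.single (h • x) (w ^ 2) + Pi.single (h • h • x) w) (mem_eigenspace_iff.mpr (by
      rw [← hh, map_add, map_add, hsg, hsg, hsg, e3, smul_add, smul_add, ← Pi.single_smul', ← Pi.single_smul',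
        ← Pi.single_smul', smul_eq_mul, smul_eq_mul, smul_eq_mul, ← pow_succ', hw.pow_eq_one, mul_one, pow_two]
      abel)) _ hy
  have h4 := congrFun hv (y • x)
  rw [hR, inv_smul_smul] at h4
  simp only [Pi.add_apply, Pi.single_apply, if_true, e1.symm, e2.symm, if_false, add_zero] at h4
  by_contra e
  have e' : y • x ≠ x := fun e' => e (congrArg Subtype.val e')
  have e4 : h • h • x ≠ h • x := fun e => e1 (MulAction.injective h e)
  rw [if_neg e', zero_add] at h4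
  split_ifs at h4 with a b b
  · exact e4 (b.symm.trans a)
  · exact w2 (by simpa using h4.symm)
  · exact hw1 (by simpa using h4.symm)
  · simp at h4

omit [FiniteDimensional k V] [IsAlgClosed k] [Field k] in
theorem gen' {χ : Wts k A} {B : Finset (Fin 12)} {p q : Fin 12} (h : p ≠ q) (hp : p ∈ B) (hq : q ∈ B)
    (hN : ∀ i ∈ B, i ≠ p → i ≠ q → ∀ y, (π y).1 = swap i p * swap p q → y • χ = χ) :
    ∀ y, (π y).1 ∈ Alt B → y • χ = χ := fun y hy => by
  obtain ⟨x, hx, e⟩ := gen h hp hq ((MulAction.stabilizer H χ).map ((Subgroup.subtype _).comp π)) (fun i hi h1 h2 => by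
    obtain ⟨x, e⟩ := hs ⟨_, (swap2_mem h1 h hi hp hp hq).1⟩
    exact ⟨x, hN i hi h1 h2 x (congrArg Subtype.val e), congrArg Subtype.val e⟩) hy
  exact (act_eq hA e.symm χ).trans hx

theorem ab_core (h2 : (2 : k) ≠ 0) (h3 : (3 : k) ≠ 0) (hd : finrank k V ≤ 27) (hAK : A ≤ π.ker)
    (hK : ∀ g, g ≠ 1 → 5 ≤ finrank k (LinearMap.range (ρ g - 1))) {n : ℕ} (hn : (n : k) ≠ 0) (hp : ∀ a ∈ A, a ^ n = 1)
    {h g a : H} (hh : (π h).1 = c 0) (hg : (π g).1 = swap 0 3 * swap 1 4) (ha : a ∈ A) :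
    Commute (a⁻¹ * (h⁻¹ * a * h)) (g * h * g⁻¹) := by
  classical
  obtain ⟨hi, ht⟩ := wt_dec ρ (fun a ha b hb => hA a ha b (hAK hb)) hn hp
  have hN : A.Normal := inferInstance
  set b := a⁻¹ * (h⁻¹ * a * h) with hb
  set u := g * h * g⁻¹ with hu
  have mb : b ∈ A := mul_mem (inv_mem ha) (by simpa using hN.conj_mem a ha h⁻¹)
  have ne : ∀ (g : H) {χ : Wts k A}, Wt ρ χ ≠ ⊥ → Wt ρ (g • χ) ≠ ⊥ := fun g χ h e => h (eq_bot_iff.mpr fun v hv =>
    by_contra fun e' => (mo ρ).ne_zero (g := g) trivial e' (e.le (Wt_smul ρ g hv)))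
  let S := (Submodule.finite_ne_bot_of_iSupIndep hi).toFinset.filter fun χ => h • χ ≠ χ ∧ u • χ ≠ χ
  have st : ∀ χ ∈ S, ∀ y, (π y).1 ∈ Alt (univ.erase 2) → y • χ = χ := fun χ hχ => by
    simp only [S, mem_filter, Set.Finite.mem_toFinset, Set.mem_setOf_eq] at hχ
    refine gen' hs hA (p := 5) (q := 6) (by decide) (by decide) (by decide) fun i hi' h5 h6 y hy => ?_
    by_cases e : i = 0 ∨ i = 1
    · have := move ρ hs hA h2 h3 hd hi hh (ne g⁻¹ hχ.1) (fun e => hχ.2.2 (by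
        rw [hu, mul_smul, mul_smul, e, smul_inv_smul])) (y := g⁻¹ * y * g) (by
          simp only [map_mul, map_inv, Subgroup.coe_mul, Subgroup.coe_inv, hg, hy]
          rcases e with rfl | rfl <;> decide +kernel)
      rwa [mul_smul, mul_smul, smul_inv_smul, smul_left_cancel_iff] at this
    · exact move ρ hs hA h2 h3 hd hi hh hχ.1 hχ.2.1 (by rw [hy]; clear * - hi' h5 h6 e; revert i; decide +kernel)
  have L : ∀ i : Fin 12, ∃ x, (π x).1 2 = i := fun i => by
    obtain ⟨σ, h1, h2, -⟩ := trans2 (A := (univ : Finset (Fin 12))) (by decide) (a := 2) (b := 3) (i := i) (j := i + 1)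
      (by decide) (by revert i; decide) (mem_univ _) (mem_univ _) (mem_univ _) (mem_univ _)
    obtain ⟨x, e⟩ := hs ⟨σ, h1.1⟩
    exact ⟨x, by rw [e]; exact h2⟩
  choose l hl using L
  have st' : ∀ i, ∀ χ ∈ S, ∀ y, (π y).1 ∈ Alt (univ.erase i) → y • l i • χ = l i • χ := fun i χ hχ y hy => by
    rw [← inv_smul_eq_iff, smul_smul, smul_smul]
    refine st χ hχ _ ⟨(π _).2, fun x hx => ?_⟩
    obtain rfl : x = 2 := by simpa using hx
    simp only [map_mul, map_inv, Subgroup.coe_mul, Subgroup.coe_inv, Perm.mul_apply]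
    rw [hl, hy.2 i (by simp), Perm.inv_eq_iff_eq, hl]
  have inj : Set.InjOn (fun p : Fin 12 × Wts k A => l p.1 • p.2) ((univ : Finset (Fin 12)) ×ˢ S : Finset _) := by
    rintro ⟨i, χ⟩ h1 ⟨j, ψ⟩ h4 e
    simp only [coe_product, coe_univ, Set.mem_prod, Set.mem_univ, true_and, mem_coe] at h1 h4 e
    obtain rfl : i = j := by
      by_contra hij
      obtain ⟨p, q, pq, -, -, hp, hq⟩ := exists_two (A := (univ : Finset (Fin 12))) {i, j}
        ((Nat.add_le_add_right card_le_two 2).trans (by decide))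
      simp only [mem_insert, mem_singleton, not_or] at hp hq
      have := gen' hs hA (χ := l i • χ) pq (mem_univ p) (mem_univ q) (fun m _ h5 h6 y hy => by
        by_cases e' : m = i
        · rw [e]
          exact st' j ψ h4 y (hy ▸ swap2_mem h5 pq (by simp [e', hij]) (by simp [hp.2]) (by simp [hp.2]) (by simp [hq.2]))
        · exact st' i χ h1 y (hy ▸ swap2_mem h5 pq (by simp [e']) (by simp [hp.1]) (by simp [hp.1]) (by simp [hq.1])))
        (l i * h * (l i)⁻¹) ⟨(π _).2, fun x hx => absurd (mem_univ x) hx⟩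
      rw [mul_smul, mul_smul, inv_smul_smul, smul_left_cancel_iff] at this
      exact (mem_filter.mp h1).2.1 this
    rw [MulAction.injective _ e]
  have a1 : 12 * ∑ χ ∈ S, finrank k (Wt ρ χ) ≤ finrank k V := by
    refine le_trans ?_ ((sum_le' hi (image (fun p : Fin 12 × Wts k A => l p.1 • p.2) (univ ×ˢ S))).trans_le
      (Submodule.finrank_le _))
    rw [sum_image inj, sum_product]
    refine le_trans (by simp) (card_nsmul_le_sum _ _ _ fun i _ => sum_le_sum fun χ _ =>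
      (mo ρ).le (g := l i) trivial fun v hv => Wt_smul ρ _ hv)
  rw [sum_le' hi] at a1
  set N : Submodule k V := ⨆ χ ∈ S, Wt ρ χ
  have a2 : LinearMap.range (ρ (b⁻¹ * (u⁻¹ * b * u)) - 1) ≤ N ⊔ N.map (ρ u⁻¹) := by
    rw [LinearMap.range_eq_map, ← ht, Submodule.map_iSup]
    refine iSup_le fun χ => ?_
    rintro _ ⟨v, hv, rfl⟩
    by_cases h0 : Wt ρ χ = ⊥
    · rw [show v = 0 from h0.le hv, map_zero]; exact zero_mem _
    have mv : (ρ (b⁻¹ * (u⁻¹ * b * u)) - 1) v ∈ Wt ρ χ := sub_mem (by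
      rw [(mem_Wt ρ).mp hv ⟨_, mul_mem (inv_mem mb) (by simpa using hN.conj_mem b mb u⁻¹)⟩]
      exact Submodule.smul_mem _ _ hv) hv
    by_cases e1 : u • χ = χ
    · rw [LinearMap.sub_apply, fixv ρ mb e1 hv]; simp
    by_cases e2 : h • χ = χ
    · by_cases e3 : h • u • χ = u • χ
      · have f1 := fixv ρ ha e2 hv
        have f2 := fixv ρ ha e3 (Wt_smul ρ u hv)
        rw [LinearMap.sub_apply, map_mul, map_mul, map_mul, Module.End.mul_apply, Module.End.mul_apply,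
          Module.End.mul_apply, f2, (mo ρ).inv_app trivial]
        nth_rewrite 1 [← f1]
        rw [(mo ρ).inv_app trivial]; simp
      · refine Submodule.mem_sup_right ⟨_, ?_, (mo ρ).inv_app (g := u) trivial _⟩
        refine (le_iSup₂_of_le (f := fun χ (_ : χ ∈ S) => Wt ρ χ) (u • χ) ?_ le_rfl) (Wt_smul ρ u mv)
        exact mem_filter.mpr ⟨by simpa using ne u h0, e3, fun e => e1 (MulAction.injective u e)⟩
    · exact Submodule.mem_sup_left ((le_iSup₂_of_le (f := fun χ (_ : χ ∈ S) => Wt ρ χ) χ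
        (mem_filter.mpr ⟨by simpa using h0, e2, e1⟩) le_rfl) mv)
  have a3 := (Submodule.finrank_mono a2).trans (Submodule.finrank_add_le_finrank_add_finrank _ _)
  have a4 := Submodule.finrank_map_le (ρ u⁻¹) N
  have a5 : b⁻¹ * (u⁻¹ * b * u) = 1 := by_contra fun e => by have := hK _ e; omega
  rw [inv_mul_eq_one, mul_assoc, eq_inv_mul_iff_mul_eq] at a5
  exact a5.symm

omit hA [A.Normal] in
theorem three [Finite H] (hmin : ∀ L : Subgroup H, L.map π = ⊤ → L = ⊤)
    (h : ∀ g : H, ∀ a ∈ A, ⁅g, a⁆ ∈ Subgroup.center H) : A ≤ Subgroup.center H := by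
  have h3 : ⁅(⊤ : Subgroup H), A⁆ ≤ Subgroup.center H := Subgroup.commutator_le.mpr fun g _ a ha => h g a ha
  have h4 : ⁅⁅(⊤ : Subgroup H), A⁆, (⊤ : Subgroup H)⁆ = ⊥ := by
    rw [Subgroup.commutator_eq_bot_iff_le_centralizer, Subgroup.coe_top, Subgroup.centralizer_univ]; exact h3
  have h5 := Subgroup.commutator_commutator_eq_bot_of_rotate h4 (by rw [Subgroup.commutator_comm A]; exact h4)
  rw [← commutator_def, perf (by omega) hs hmin, Subgroup.commutator_comm,
    Subgroup.commutator_eq_bot_iff_le_centralizer, Subgroup.coe_top, Subgroup.centralizer_univ] at h5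
  exact h5

theorem ab_cen [Finite H] (hmin : ∀ L : Subgroup H, L.map π = ⊤ → L = ⊤) (h2 : (2 : k) ≠ 0) (h3 : (3 : k) ≠ 0)
    (hd : finrank k V ≤ 27) (hAK : A ≤ π.ker) (hK : ∀ g, g ≠ 1 → 5 ≤ finrank k (LinearMap.range (ρ g - 1))) {n : ℕ}
    (hn : (n : k) ≠ 0) (hp : ∀ a ∈ A, a ^ n = 1) : A ≤ Subgroup.center H := by
  have hN : A.Normal := inferInstance
  obtain ⟨h, hh⟩ := hs ⟨c 0, by rw [mem_alternatingGroup]; decide +kernel⟩
  obtain ⟨g, hg⟩ := hs ⟨swap 0 3 * swap 1 4, by rw [mem_alternatingGroup]; decide +kernel⟩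
  replace hh := congrArg Subtype.val hh
  replace hg := congrArg Subtype.val hg
  let C := Subgroup.centralizer {b | ∃ a ∈ A, b = a⁻¹ * (h⁻¹ * a * h)}
  let N := C.map ((Subgroup.subtype _).comp π)
  have m0 : g * h * g⁻¹ ∈ C := by
    rintro _ ⟨a, ha, rfl⟩
    exact ab_core ρ hs hA h2 h3 hd hAK hK hn hp hh hg ha
  have cj : ∀ σ : Perm (Fin 12), sign σ = 1 ∧ σ * c 0 = c 0 * σ → ∀ x ∈ N, σ * x * σ⁻¹ ∈ N := by
    rintro σ ⟨e1, e2⟩ _ ⟨x, hx, rfl⟩
    obtain ⟨y, e⟩ := hs ⟨σ, e1⟩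
    replace e := congrArg Subtype.val e
    refine ⟨y * x * y⁻¹, ?_, by simp [e]⟩
    rintro _ ⟨a, ha, rfl⟩
    have m1 : y⁻¹ * a * y ∈ A := by simpa using hN.conj_mem a ha y⁻¹
    have e3 := hx _ ⟨_, m1, rfl⟩
    have e4 := hA _ (show h⁻¹ * (y⁻¹ * a * y) * h ∈ A by simpa using hN.conj_mem _ m1 h⁻¹) (h⁻¹ * y⁻¹ * h * y)
      (Subtype.ext (by
        simp only [map_mul, map_inv, Subgroup.coe_mul, Subgroup.coe_inv, e, hh, Subgroup.coe_one]
        rw [mul_assoc, ← e2]; group))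
    have e5 : h⁻¹ * (y⁻¹ * a * y) * h = y⁻¹ * (h⁻¹ * a * h) * y := by
      calc _ = (h⁻¹ * y⁻¹ * h * y)⁻¹ * (h⁻¹ * y⁻¹ * h * y * (h⁻¹ * (y⁻¹ * a * y) * h)) := by group
        _ = _ := by rw [← e4]; group
    rw [e5] at e3
    calc _ = y * ((y⁻¹ * a * y)⁻¹ * (y⁻¹ * (h⁻¹ * a * h) * y) * x) * y⁻¹ := by group
      _ = _ := by rw [e3]; group
  have m1 : swap 3 4 * swap 4 2 ∈ N := ⟨_, m0, by
    simp only [MonoidHom.comp_apply, map_mul, map_inv, Subgroup.coe_subtype, hg, hh]; decide +kernel⟩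
  have m2 : Alt {3, 4, 5, 6, 7, 8, 9, 10, 11} ≤ N := simple (by decide) N (fun σ hσ => cj σ ⟨hσ.1,
    (Alt_comm (A := {0, 1, 2}) (by decide) (by decide +kernel) hσ).symm⟩) (by decide +kernel) (by decide +kernel)
    (mul_mem (inv_mem (cj (swap 4 5 * swap 6 7) (by decide +kernel) _ m1)) m1)
  have m3 := cj (c 0) (by decide +kernel) _ m1
  have m4 := cj (c 0) (by decide +kernel) _ m3
  have m5 : Alt univ ≤ N := gen (p := 3) (q := 4) (by decide) (mem_univ _) (mem_univ _) N fun i _ h3 h4 => by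
    by_cases e : i = 0 ∨ i = 1 ∨ i = 2
    · rcases e with rfl | rfl | rfl
      · convert m3 using 1; decide +kernel
      · convert m4 using 1; decide +kernel
      · convert m1 using 1; decide +kernel
    · exact m2 (by clear * - e h3 h4; revert i; decide +kernel)
  have hC : C = ⊤ := hmin _ (top_le_iff.mp fun y _ => by
    obtain ⟨x, hx, e⟩ := m5 (x := y.1) ⟨y.2, fun x hx => absurd (mem_univ x) hx⟩
    exact ⟨x, hx, Subtype.ext e⟩)
  let μ := QuotientGroup.mk' (Subgroup.center H)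
  haveI : (A.map μ).Normal := hN.map μ (QuotientGroup.mk'_surjective _)
  have hD : ∀ x, x ∈ (Subgroup.centralizer (A.map μ : Set _)).comap μ ↔ ∀ a ∈ A, ⁅x, a⁆ ∈ Subgroup.center H := fun x => by
    have : ∀ a, ⁅x, a⁆ ∈ Subgroup.center H ↔ μ a * μ x = μ x * μ a := fun a => by
      rw [← QuotientGroup.eq_one_iff, ← QuotientGroup.mk'_apply, map_commutatorElement,
        commutatorElement_eq_one_iff_mul_comm, eq_comm]
    simp only [this]
    exact ⟨fun H a ha => H _ ⟨a, ha, rfl⟩, by rintro H _ ⟨a, ha, rfl⟩; exact H a ha⟩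
  refine three hs hmin fun x => (hD x).mp (by_contra fun e => ?_)
  have := nor_le (by omega) hs hmin ((Subgroup.centralizer (A.map μ : Set _)).comap μ) (fun e' => e (e'.ge trivial))
    ((hD h⁻¹).mpr fun a ha => by
      have := Subgroup.mem_center_iff.mpr fun y => ((hC.ge trivial : y ∈ C) _ ⟨a, ha, rfl⟩).symm
      rw [commutatorElement_def, inv_inv]
      convert this using 1
      exact (hA _ (inv_mem ha) _ (hAK (by simpa using hN.conj_mem a ha h⁻¹))).symm)
  rw [MonoidHom.mem_ker, map_inv, inv_eq_one] at this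
  rw [this] at hh
  exact absurd hh (by decide +kernel)

omit hA hs [A.Normal] in
theorem card_le [Finite H] [Nontrivial V] (hirr : ∀ W : Submodule k V, (∀ g, ∀ w ∈ W, ρ g w ∈ W) → W = ⊥ ∨ W = ⊤)
    (K : Subgroup H) (hc : ∀ b ∈ K, ∀ a ∈ A, ⁅b, a⁆ ∈ Subgroup.center H)
    (hZ : ∀ a ∈ A, (∀ b ∈ K, ρ ⁅b, a⁆ = 1) → a ∈ Subgroup.center H) :
    Nat.card (A.map (QuotientGroup.mk' (Subgroup.center H))) ≤ finrank k V ^ 2 := by
  classical
  have h1 : ∀ z : H, ∃ c : k, z ∈ Subgroup.center H → ∀ v, ρ z v = c • v := fun z => by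
    by_cases hz : z ∈ Subgroup.center H
    · obtain ⟨c, hc⟩ := schur ρ hirr hz
      exact ⟨c, fun _ => hc⟩
    · exact ⟨0, fun h => absurd h hz⟩
  choose l hl using h1
  have h2 : ∀ q : A.map (QuotientGroup.mk' (Subgroup.center H)), ∃ a ∈ A, QuotientGroup.mk' _ a = q.1 := fun q => q.2
  choose t ht ht' using h2
  have h3 := wt_indep (fun b : K => LinearMap.mulLeftRight k (ρ b, ρ (b : H)⁻¹)) (fun q => ρ (t q))
    (fun q b => l ⁅(b : H), t q⁆) (fun q e => by
      have := congrArg (· * ρ (t q)⁻¹) e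
      simp only [← map_mul, mul_inv_cancel, map_one, zero_mul] at this
      exact one_ne_zero this)
    (fun q q' e => by
      refine Subtype.ext ?_
      rw [← ht', ← ht']
      refine QuotientGroup.eq.mpr (hZ _ (mul_mem (inv_mem (ht q)) (ht q')) fun b hb => ?_)
      have h4 : ρ ⁅b, t q⁆ = ρ ⁅b, t q'⁆ := by
        ext v
        rw [hl _ (hc _ hb _ (ht q)), hl _ (hc _ hb _ (ht q'))]
        exact congrArg (· • v) (congrFun e ⟨b, hb⟩)
      rw [show ⁅b, (t q)⁻¹ * t q'⁆ = (t q)⁻¹ * ⁅b, t q⁆⁻¹ * ⁅b, t q'⁆ * t q by simp only [commutatorElement_def]; group,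
        map_mul, map_mul, ← h4, ← map_mul, ← map_mul, inv_mul_cancel_right, inv_mul_cancel, map_one])
    (fun q b => by
      ext v
      rw [LinearMap.mulLeftRight_apply, LinearMap.smul_apply, ← hl _ (hc _ b.2 _ (ht q)), ← map_mul, ← map_mul,
        ← Module.End.mul_apply, ← map_mul, commutatorElement_def, inv_mul_cancel_right])
  haveI := Fintype.ofFinite (A.map (QuotientGroup.mk' (Subgroup.center H)))
  have h4 := h3.fintype_card_le_finrank
  rwa [← Nat.card_eq_fintype_card, Module.finrank_linearMap, ← pow_two] at h4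

omit hA in
theorem big [Finite H] (hmin : ∀ L : Subgroup H, L.map π = ⊤ → L = ⊤) (hZ : ¬ A ≤ Subgroup.center H)
    (hm' : ∀ B : Subgroup H, B.Normal → B < A → B ≤ Subgroup.center H)
    (hc : ∀ a ∈ A, ∀ b ∈ A, ⁅a, b⁆ ∈ Subgroup.center H) :
    1024 ≤ Nat.card (A.map (QuotientGroup.mk' (Subgroup.center H))) := by
  have hA : A.Normal := inferInstance
  set μ := QuotientGroup.mk' (Subgroup.center H) with hμ
  have hμs : Function.Surjective μ := QuotientGroup.mk'_surjective _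
  have hμk : ∀ x, μ x = 1 ↔ x ∈ Subgroup.center H := fun x => QuotientGroup.eq_one_iff x
  haveI hQ : (A.map μ).Normal := hA.map μ hμs
  have hcm : ∀ a ∈ A, ∀ b ∈ A, Commute (μ a) (μ b) := fun a ha b hb => by
    rw [← commutatorElement_eq_one_iff_commute, ← map_commutatorElement, hμk]; exact hc a ha b hb
  have hcQ : ∀ a b : A.map μ, a * b = b * a := by
    rintro ⟨_, a, ha, rfl⟩ ⟨_, b, hb, rfl⟩
    exact Subtype.ext (hcm a ha b hb)
  have hQ1 : Nat.card (A.map μ) ≠ 1 := fun e => hZ fun a ha => (hμk a).mp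
    ((Subgroup.eq_bot_of_card_eq _ e).le ⟨a, ha, rfl⟩)
  obtain ⟨s, hsp, hsd⟩ := Nat.exists_prime_and_dvd hQ1
  haveI := Fact.mk hsp
  obtain ⟨⟨_, x, hx, rfl⟩, hxo⟩ := exists_prime_orderOf_dvd_card' s hsd
  let B : Subgroup H :=
    { carrier := {a | a ∈ A ∧ μ a ^ s = 1}
      one_mem' := ⟨one_mem _, by simp⟩
      mul_mem' := fun {a b} ha hb => ⟨mul_mem ha.1 hb.1, by
        rw [map_mul, (hcm a ha.1 b hb.1).mul_pow, ha.2, hb.2, mul_one]⟩
      inv_mem' := fun {a} ha => ⟨inv_mem ha.1, by rw [map_inv, inv_pow, ha.2, inv_one]⟩ }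
  have hB : B = A := by
    by_contra hne
    have h2 : x ∈ Subgroup.center H := hm' B ⟨fun a ha g => ⟨hA.conj_mem a ha.1 g, by
      rw [map_mul, map_mul, map_inv, conj_pow, ha.2, mul_one, mul_inv_cancel]⟩⟩
      (lt_of_le_of_ne (fun a ha => ha.1) hne)
      ⟨hx, congrArg Subtype.val (hxo ▸ pow_orderOf_eq_one (⟨μ x, x, hx, rfl⟩ : A.map μ))⟩
    have h3 : (⟨μ x, x, hx, rfl⟩ : A.map μ) = 1 := Subtype.ext ((hμk x).mpr h2)
    exact hsp.one_lt.ne' (by rw [← hxo]; exact orderOf_eq_one_iff.mpr h3)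
  obtain ⟨e, he, ψ, hψ⟩ := rep_elem hcQ s (by
    rintro ⟨_, a, ha, rfl⟩
    exact Subtype.ext (hB.ge ha).2)
  let σ := ψ.comp ((MulAut.conjNormal (H := A.map μ)).comp μ)
  have hσ : ∀ h, h ∈ σ.ker → ∀ a ∈ A, ⁅h, a⁆ ∈ Subgroup.center H := fun h => by
    rw [MonoidHom.mem_ker, MonoidHom.comp_apply, map_eq_one_iff _ hψ]
    intro h2 a ha
    have h3 := congrArg Subtype.val (MulEquiv.congr_fun h2 ⟨μ a, a, ha, rfl⟩)
    rw [← hμk, map_commutatorElement, commutatorElement_def, mul_inv_eq_one]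
    exact h3
  have h2 := main (r := 12) (by omega) _ H rfl π hs _ _ σ
    (nor_le (by omega) hs hmin _ fun e => hZ (three hs hmin fun g => hσ g (e.ge trivial)))
  rw [Module.finrank_fin_fun] at h2
  rw [he]
  exact (Nat.pow_le_pow_right two_pos (show 10 ≤ e by rcases h2 with h | h <;> omega)).trans
    (Nat.pow_le_pow_left hsp.two_le e)

omit hA in
theorem cent [Finite H] (hmin : ∀ L : Subgroup H, L.map π = ⊤ → L = ⊤) (h2 : (2 : k) ≠ 0) (h3 : (3 : k) ≠ 0)
    (hd : finrank k V ≤ 27) (hρ : Function.Injective ρ)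
    (hK : ∀ g, g ≠ 1 → 5 ≤ finrank k (LinearMap.range (ρ g - 1))) : Cen k π := by
  intro s hsp hs0 P hP hPp hPK
  by_contra hn
  haveI := Fact.mk hsp
  obtain ⟨A, ⟨hA, hk, hZ⟩, hm⟩ := (wellFounded_lt (α := Subgroup H)).has_min
    {A | A.Normal ∧ A ≤ P ∧ ¬ A ≤ Subgroup.center H} ⟨P, hP, le_rfl, hn⟩
  have hm' : ∀ B : Subgroup H, B.Normal → B < A → B ≤ Subgroup.center H := fun B hB hlt => by
    by_contra h
    exact hm B ⟨hB, hlt.le.trans hk, h⟩ hlt
  obtain ⟨j, hj⟩ := hPp.exists_card_eq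
  have hn0 : ((s ^ j : ℕ) : k) ≠ 0 := by exact_mod_cast pow_ne_zero j hs0
  have hp : ∀ a ∈ A, a ^ s ^ j = 1 := fun a ha =>
    hj ▸ congrArg Subtype.val (pow_card_eq_one' (x := (⟨a, hk ha⟩ : P)))
  have hAK := hk.trans hPK
  refine hZ (ab_cen ρ hs (fun a0 ha x0 hx => by_contra fun hne => ?_) hmin h2 h3 hd hAK hK hn0 hp)
  have hlt : ⁅π.ker, A⁆ < A := lt_of_le_of_ne (Subgroup.commutator_le_right _ _) fun e => by
    obtain ⟨n, hn⟩ := (Subgroup.isNilpotent_iff_lowerCentralSeries _).mp (nil hs hmin)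
    have : ∀ n, A ≤ π.ker.lowerCentralSeries n := fun n => by
      induction n with
      | zero => exact hAK
      | succ n ih =>
        rw [Subgroup.lowerCentralSeries_succ, Subgroup.commutator_comm, ← e]
        exact Subgroup.commutator_mono le_rfl ih
    exact hZ ((this n).trans (hn ▸ bot_le))
  have hc : ∀ b ∈ π.ker, ∀ a ∈ A, ⁅b, a⁆ ∈ Subgroup.center H := fun b hb a ha =>
    hm' _ inferInstance hlt (Subgroup.commutator_mem_commutator hb ha)
  obtain ⟨c, hc1, -, hE⟩ := exists_eig_ne (ρ ⁅x0, a0⁆) hn0 (by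
    rw [← map_pow, hp _ (hlt.le (Subgroup.commutator_mem_commutator hx ha)), map_one]) fun e =>
      hne (commutatorElement_eq_one_iff_mul_comm.mp (hρ (e.trans (map_one ρ).symm))).symm
  obtain ⟨W, ⟨w1, w2, w3⟩, w4⟩ := (wellFounded_lt (α := Submodule k V)).has_min
    {W | W ≠ ⊥ ∧ W ≤ (ρ ⁅x0, a0⁆).eigenspace c ∧ ∀ g, ∀ w ∈ W, ρ g w ∈ W} ⟨_, hE, le_rfl, fun g w hw =>
      (mo ρ).comm_eig trivial trivial trivial (Subgroup.mem_center_iff.mp (hc _ hx _ ha) g).symm hw⟩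
  haveI := Submodule.nontrivial_iff_ne_bot.mpr w1
  let ρ1 : H →* End k W := Representation.subrepresentation ρ W w3
  let μ := QuotientGroup.mk' ρ1.ker
  haveI : (π.ker.map μ).Normal := Subgroup.Normal.map inferInstance μ (QuotientGroup.mk'_surjective _)
  have hD : ∀ a, a ∈ (Subgroup.centralizer (π.ker.map μ : Set _)).comap μ ↔ ∀ b ∈ π.ker, ρ1 ⁅b, a⁆ = 1 := fun x => by
    have : ∀ b, ρ1 ⁅b, x⁆ = 1 ↔ μ b * μ x = μ x * μ b := fun b => by
      rw [← MonoidHom.mem_ker, ← QuotientGroup.eq_one_iff, ← QuotientGroup.mk'_apply, map_commutatorElement,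
        commutatorElement_eq_one_iff_mul_comm]
    simp only [this]
    exact ⟨fun H a ha => H _ ⟨a, ha, rfl⟩, by rintro H _ ⟨a, ha, rfl⟩; exact H a ha⟩
  have a1 := card_le ρ1 (A := A) (fun U hU => by
    by_contra! e
    refine w4 (U.map W.subtype) ⟨fun e' => e.1 (Submodule.map_injective_of_injective W.injective_subtype
      (e'.trans (Submodule.map_bot _).symm)), (Submodule.map_subtype_le _ _).trans w2, ?_⟩
      (lt_of_le_of_ne (Submodule.map_subtype_le _ _) fun e' => e.2 (Submodule.map_injective_of_injective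
        W.injective_subtype (e'.trans (Submodule.map_subtype_top W).symm)))
    rintro g _ ⟨w, hw, rfl⟩
    exact ⟨_, hU g w hw, rfl⟩) π.ker hc fun a ha' h =>
    hm' (A ⊓ (Subgroup.centralizer (π.ker.map μ : Set _)).comap μ) inferInstance
      (lt_of_le_of_ne inf_le_left fun e => by
        obtain ⟨v, hv, h0⟩ := (Submodule.ne_bot_iff W).mp w1
        have e1 : ρ ⁅x0, a0⁆ v = v :=
          congrArg Subtype.val (LinearMap.congr_fun ((hD _).mp (e.ge ha).2 x0 hx) ⟨v, hv⟩)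
        rw [mem_eigenspace_iff.mp (w2 hv)] at e1
        exact hc1 (smul_left_injective k h0 (e1.trans (one_smul k v).symm))) ⟨ha', (hD a).mpr h⟩
  have a2 := big hs hmin hZ hm' fun a ha => hc a (hAK ha)
  have a3 := Nat.pow_le_pow_left (W.finrank_le.trans hd) 2
  omega

omit hA in
theorem no12 [Finite H] (h2 : (2 : k) ≠ 0) (h3 : (3 : k) ≠ 0) (hd : finrank k V = 27) (hρ : Function.Injective ρ)
    (f : V →ₗ[k] V →ₗ[k] V →ₗ[k] k) (hf : ∀ g x y z, f (ρ g x) (ρ g y) (ρ g z) = f x y z)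
    (hR : ∀ v, v ≠ 0 → finrank k (LinearMap.ker (f v)) ≤ 17) : False := by
  obtain ⟨L, h1, h4⟩ := (wellFounded_lt (α := Subgroup H)).has_min {L | L.map π = ⊤}
    ⟨⊤, Subgroup.map_top_of_surjective _ hs⟩
  have hs' : Function.Surjective (π.comp L.subtype) := fun x => by
    obtain ⟨y, hy, rfl⟩ : x ∈ L.map π := h1.ge trivial
    exact ⟨⟨y, hy⟩, rfl⟩
  have hm : ∀ M : Subgroup L, M.map (π.comp L.subtype) = ⊤ → M = ⊤ := fun M hM => by_contra fun e =>
    h4 (M.map L.subtype) (by rwa [Set.mem_setOf_eq, Subgroup.map_map]) (lt_of_le_of_ne (Subgroup.map_subtype_le _)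
      fun e' => e (Subgroup.map_injective L.subtype_injective (by
        rw [e', ← MonoidHom.range_eq_map, Subgroup.range_subtype])))
  have hρ' : Function.Injective (ρ.comp L.subtype) := hρ.comp L.subtype_injective
  exact fin (ρ.comp L.subtype) hρ' f (fun g => hf g) hR hd h2 h3 hs' hm
    (cent _ hs' hm h2 h3 hd.le hρ' (five (ρ.comp L.subtype) hρ' f (fun g => hf g) hR hd))

end CA.E6Sec
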