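import Cfsg.Agent.Lib.Perm.Sharp4

/-! Simplicity criteria for permutation groups. -/

set_option autoImplicit false

open MulAction CA.PermBasic CA.PermMulti CA.PrimeDeg CA.Sharp4

namespace CA.H17Simp

variable {G X : Type*} [Group G] [MulAction G X]

/-- prime degree with Sylow normaliser of order `p * r`, `r` prime -/
theorem simple_of_prime [FaithfulSMul G X] [IsPretransitive G X] {p r : ℕ} [Fact p.Prime]
    (hr : r.Prime) (hX : Nat.card X = p) (P : Sylow p G)
    (hN : Nat.card (Subgroup.normalizer ((P : Subgroup G) : Set G)) = p * r)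
    (hG : Nat.card G ≠ p * r) : IsSimpleGroup G := by
  have := finite_of_card hX
  have : Finite G := finite_of_faithful (X := X)
  have hP := card_sylow hX P
  have hp : p.Prime := Fact.out
  have : Nontrivial G := by
    rw [← Finite.one_lt_card_iff_nontrivial]
    exact hp.one_lt.trans_le (hP ▸ Subgroup.card_le_card_group _)
  refine ⟨fun M hM => or_iff_not_imp_left.2 fun h => ?_⟩
  have h1 := sylow_le_of_normal hX P M h
  have h2 : (P : Subgroup G) ≤ Subgroup.normalizer ((P : Subgroup G) : Set G) ⊓ M :=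
    le_inf Subgroup.le_normalizer h1
  obtain ⟨d, hd⟩ := Subgroup.card_dvd_of_le h2
  have h3 := Subgroup.card_dvd_of_le
    (inf_le_left : Subgroup.normalizer ((P : Subgroup G) : Set G) ⊓ M ≤ _)
  rw [hd, hN, hP, Nat.mul_dvd_mul_iff_left hp.pos, Nat.dvd_prime hr] at h3
  rcases h3 with rfl | rfl
  · have h4 := eq_sylow_of_normal hX P M h (Subgroup.eq_of_le_of_card_ge h2 (by omega)).ge
    have : (P : Subgroup G).Normal := h4 ▸ hM
    rw [Subgroup.normalizer_eq_top, Subgroup.card_top] at hN
    exact absurd hN hG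
  · have h4 := Subgroup.eq_of_le_of_card_ge
      (inf_le_left : Subgroup.normalizer ((P : Subgroup G) : Set G) ⊓ M ≤ _) (by rw [hN, hd, hP])
    have h5 := Sylow.normalizer_sup_eq_top' P h1
    rw [eq_top_iff, ← h5]
    exact sup_le (inf_eq_left.1 h4) le_rfl

/-- primitive with simple stabiliser and no regular normal subgroup -/
theorem simple_of_stab [FaithfulSMul G X] [IsPreprimitive G X] (a : X)
    [hs : IsSimpleGroup (stabilizer G a)]
    (h : ∀ N : Subgroup G, N.Normal → IsPretransitive N X → (∀ n ∈ N, n • a = a → n = 1) → False) :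
    IsSimpleGroup G := by
  have : Nontrivial G := (stabilizer G a).subtype_injective.nontrivial
  refine ⟨fun N hN => or_iff_not_imp_left.2 fun h0 => ?_⟩
  have h1 : IsPretransitive N X := normal_pretransitive N h0
  rcases hs.eq_bot_or_eq_top_of_normal (N.subgroupOf (stabilizer G a)) inferInstance with h2 | h2
  · refine (h N hN h1 fun n hn ha => ?_).elim
    have : (⟨n, ha⟩ : stabilizer G a) ∈ N.subgroupOf (stabilizer G a) := hn
    rw [h2, Subgroup.mem_bot] at this
    exact congrArg Subtype.val this
  · rw [← sup_stabilizer_eq_top N h1 a]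
    exact (sup_eq_left.2 (Subgroup.subgroupOf_eq_top.1 h2)).symm

/-- a regular normal subgroup of a 2-transitive group has prime power order -/
theorem pp_of_two [Finite X] (h2 : IsMultiplyPretransitive G X 2) (a : X) (N : Subgroup G)
    [N.Normal] (h1 : IsPretransitive N X) (h : ∀ n ∈ N, n • a = a → n = 1) :
    ∃ p k : ℕ, p.Prime ∧ Nat.card X = p ^ k := by
  have hc := card_eq_of_regular (G := N) a ((subgroup_stabilizer_eq_bot_iff N a).2 h)
  have : Nonempty X := ⟨a⟩
  have : Finite N := Nat.finite_of_card_ne_zero (hc ▸ Nat.card_pos.ne')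
  obtain ⟨-, p, hp, h3⟩ := elemAbelian_of_conj N fun n hn m hm k1 k2 => by
    obtain ⟨g, k3, k4⟩ := two_iff.1 h2 a (n • a) a (m • a) (fun e => k1 (h n hn e.symm))
      (fun e => k2 (h m hm e.symm))
    exact ⟨g, conj_eq_of_regular N h k3 hn hm k4⟩
  have : Fact p.Prime := ⟨hp⟩
  obtain ⟨k, hk⟩ := (IsPGroup.iff_card (p := p) (G := N)).1 fun g =>
    ⟨1, Subtype.ext (by simpa using h3 g g.2)⟩
  exact ⟨p, k, hp, hc ▸ hk⟩

theorem m11 (hX : Nat.card X = 11) (h4 : IsMultiplyPretransitive G X 4)
    (hs : ∀ x : Fin 4 ↪ X, stabilizer G x = ⊥) : IsSimpleGroup G ∧ Nat.card G = 7920 := by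
  have : Fact (Nat.Prime 11) := ⟨by norm_num⟩
  have := finite_of_card hX
  have hc := card_eq_descFactorial h4 hs (by omega)
  rw [hX] at hc
  have hc : Nat.card G = 7920 := hc
  refine ⟨?_, hc⟩
  have := faithful_of_sharp hs (by
    have := Fintype.ofFinite X
    exact Function.Embedding.nonempty_of_card_le (by rw [← Nat.card_eq_fintype_card (α := X), hX]; simp))
  have : IsPretransitive G X := is_one_pretransitive_iff.1 (mpt_of_le h4 (by omega) (by omega))
  have : Finite G := finite_of_faithful (X := X)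
  obtain ⟨P⟩ : Nonempty (Sylow 11 G) := inferInstance
  obtain ⟨d, h1, h2⟩ := card_normalizer hX P
  have h3 := card_sylow_modEq_one 11 G
  rw [P.card_eq_index_normalizer] at h3
  have h5 := (Subgroup.normalizer ((P : Subgroup G) : Set G)).card_mul_index
  rw [h2, hc] at h5
  have h3' : (Subgroup.normalizer ((P : Subgroup G) : Set G)).index % 11 = 1 := h3
  have hd : d = 5 := by
    have := Nat.le_of_dvd (by norm_num) h1
    interval_cases d <;> omega
  exact simple_of_prime Nat.prime_five hX P (hd ▸ h2) (by omega)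

theorem m12 (hX : Nat.card X = 12) (h5 : IsMultiplyPretransitive G X 5)
    (hs : ∀ x : Fin 5 ↪ X, stabilizer G x = ⊥) : IsSimpleGroup G ∧ Nat.card G = 95040 := by
  have : Finite X := Nat.finite_of_card_ne_zero (by omega)
  have hc := card_eq_descFactorial h5 hs (by omega)
  rw [hX] at hc
  refine ⟨?_, hc⟩
  have := faithful_of_sharp hs (by
    have := Fintype.ofFinite X
    exact Function.Embedding.nonempty_of_card_le (by rw [← Nat.card_eq_fintype_card (α := X), hX]; simp))
  have : IsPretransitive G X := is_one_pretransitive_iff.1 (mpt_of_le h5 (by omega) (by omega))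
  have h2 : IsMultiplyPretransitive G X 2 := mpt_of_le h5 (by omega) (by omega)
  have : IsPreprimitive G X := isPreprimitive_of_is_two_pretransitive h2
  obtain ⟨a⟩ : Nonempty X := (Nat.card_ne_zero.1 (by omega)).1
  have := (m11 (by have := SubMulAction.nat_card_ofStabilizer_add_one_eq G a; omega)
    (SubMulAction.ofStabilizer.isMultiplyPretransitive.1 h5) (sharp_stab hs a)).1
  refine simple_of_stab a fun N hN k1 k2 => ?_
  obtain ⟨p, k, hp, h⟩ := pp_of_two h2 a N k1 k2
  rw [hX] at h
  have e2 := (Nat.prime_dvd_prime_iff_eq Nat.prime_two hp).1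
    (Nat.prime_two.dvd_of_dvd_pow (h ▸ (by norm_num : 2 ∣ 12)))
  have e3 := (Nat.prime_dvd_prime_iff_eq Nat.prime_three hp).1
    (Nat.prime_three.dvd_of_dvd_pow (h ▸ (by norm_num : 3 ∣ 12)))
  omega

end CA.H17Simp
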