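import Mathlib
import Cfsg.Agent.Lib.Perm.Neumann3
import Cfsg.Agent.Lib.Block.H13BS
import Cfsg.Agent.Lib.Odd.PF14

/-! Marshall Hall's theorem on quadruply transitive groups. -/

open MulAction CA.PermBasic CA.PermMulti Cfsg
open scoped commutatorElement

namespace CA.Hall4
variable {G X : Type*} [Group G] [MulAction G X]

theorem dih {u v : G} (hu : u * u = 1) (hv : v * v = 1) (h : Odd (orderOf (u * v))) :
    ∃ k : ℕ, (u * v) ^ k * u = v * (u * v) ^ k := by
  obtain ⟨m, hm⟩ := h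
  have e1 : SemiconjBy v (u * v) (u * v)⁻¹ := by
    rw [SemiconjBy, mul_inv_rev, inv_eq_of_mul_eq_one_right hu, inv_eq_of_mul_eq_one_right hv,
      mul_assoc]
  refine ⟨m, ?_⟩
  rw [(e1.pow_right m).eq, inv_pow, eq_inv_mul_iff_mul_eq, ← mul_assoc, ← pow_add,
    ← mul_left_inj v, hv, mul_assoc, ← pow_succ, ← two_mul, ← hm, pow_orderOf_eq_one]

theorem pow_fix {g : G} {x : X} (h : g • x = x) (k : ℕ) : g ^ k • x = x :=
  (stabilizer G x).pow_mem h k

theorem pow_odd_smul {g : G} {x : X} (h : g • g • x = x) {m : ℕ} (hm : Odd m) :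
    g ^ m • x = g • x := by
  obtain ⟨k, rfl⟩ := hm
  rw [pow_succ', mul_smul, pow_mul, pow_fix (by rwa [sq, mul_smul])]

variable (G X) in
def F3 : Prop := ∀ g : G, g ≠ 1 → g * g = 1 → (fixedBy X g).ncard ≤ 3

variable [Finite X] (hF : F3 G X)
include hF

theorem fix3 {t : G} (h1 : t ≠ 1) (h2 : t * t = 1) {a b c d : X} (hab : a ≠ b) (hac : a ≠ c)
    (hbc : b ≠ c) (ha : t • a = a) (hb : t • b = b) (hc : t • c = c) (hd : t • d = d) :
    d = a ∨ d = b ∨ d = c := by
  by_contra h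
  push Not at h
  exact (hF t h1 h2).not_gt ((Set.three_lt_ncard_iff).2
    ⟨a, b, c, d, ha, hb, hc, hd, hab, hac, h.1.symm, hbc, h.2.1.symm, h.2.2.symm⟩)

theorem odd4 [Finite G] {g : G} {a b c d : X} (hab : a ≠ b) (hac : a ≠ c) (had : a ≠ d)
    (hbc : b ≠ c) (hbd : b ≠ d) (hcd : c ≠ d) (ha : g • a = a) (hb : g • b = b) (hc : g • c = c)
    (hd : g • d = d) : Odd (orderOf g) := by
  rw [← Nat.not_even_iff_odd]
  rintro ⟨m, hm⟩
  have h0 := orderOf_pos g
  rcases fix3 hF (pow_ne_one_of_lt_orderOf (x := g) (n := m) (by omega) (by omega))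
    (by rw [← pow_add, ← hm, pow_orderOf_eq_one]) hab hac hbc (pow_fix ha m) (pow_fix hb m)
    (pow_fix hc m) (pow_fix hd m) with h | h | h
  exacts [had h.symm, hbd h.symm, hcd h.symm]

theorem invo [Finite G] {g : G} {a b c d : X} (hab : a ≠ b) (hac : a ≠ c) (had : a ≠ d)
    (hbc : b ≠ c) (hbd : b ≠ d) (hcd : c ≠ d) (ha : g • g • a = a) (hb : g • g • b = b)
    (hc : g • g • c = c) (hd : g • g • d = d) : ∃ m, Odd m ∧ g ^ m * g ^ m = 1 :=
  ⟨_, odd4 hF (g := g * g) hab hac had hbc hbd hcd (by rwa [mul_smul]) (by rwa [mul_smul])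
    (by rwa [mul_smul]) (by rwa [mul_smul]), by rw [← (Commute.refl g).mul_pow, pow_orderOf_eq_one]⟩

theorem comm_fix {u w : G} (h1 : u ≠ 1) (h2 : u * u = 1) (hc : Commute u w) {p q : X} (hpq : p ≠ q)
    (hp : u • p = p) (hq : u • q = q) (hp' : w • p = p) (hq' : w • q = q) {y : X}
    (hy : u • y = y) : w • y = y := by
  by_cases a1 : p = y
  · exact a1 ▸ hp'
  by_cases a2 : q = y
  · exact a2 ▸ hq'
  rcases fix3 hF h1 h2 hpq a1 a2 hp hq hy (d := w • y) (by rw [smul_smul, hc.eq, mul_smul, hy])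
    with h | h | h
  · exact absurd (smul_left_cancel w (hp'.trans h.symm)) a1
  · exact absurd (smul_left_cancel w (hq'.trans h.symm)) a2
  · exact h

theorem pair_fix {t c : G} (h1 : t ≠ 1) (h2 : t * t = 1) (hc : Commute t c) (hcc : c * c = 1)
    {x y : X} (hx : t • x = x) (hx' : c • x ≠ x) (hy : t • y = y) (hy' : c • y ≠ y) :
    y = x ∨ y = c • x := by
  by_contra h
  push Not at h
  have e : ∀ z : X, c • c • z = z := fun z => by rw [smul_smul, hcc, one_smul]
  rcases fix3 hF h1 h2 hx'.symm h.1.symm h.2.symm hx (by rw [smul_smul, hc.eq, mul_smul, hx]) hy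
    (d := c • y) (by rw [smul_smul, hc.eq, mul_smul, hy]) with a | a | a
  · exact h.2 (by rw [← a, e])
  · exact h.1 (smul_left_cancel c a)
  · exact hy' a

variable [Finite G] (h4 : IsMultiplyPretransitive G X 4)
include h4

theorem swapV {u v : G} (hu : u * u = 1) (hv : v * v = 1) (hc : Commute u v) {x : X}
    (h1 : u • x ≠ x) (h2 : v • x ≠ x) (h3 : (u * v) • x ≠ x) :
    ∃ t : G, t * t = 1 ∧ t * u = v * t ∧ t * v = u * t ∧ t • x = x := by
  have u1 : u • u • x = x := by rw [smul_smul, hu, one_smul]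
  have u3 : u • u • v • x = v • x := by rw [smul_smul, hu, one_smul]
  have v1 : v • u • x = u • v • x := by rw [smul_smul, ← hc.eq, mul_smul]
  have v2 : v • v • x = x := by rw [smul_smul, hv, one_smul]
  have v3 : v • u • v • x = u • x := by rw [← v1, smul_smul, hv, one_smul]
  rw [mul_smul] at h3
  have d12 : u • x ≠ v • x := fun e => h3 (by rw [← e, u1])
  have d13 : u • x ≠ u • v • x := fun e => h2 (smul_left_cancel u e).symm
  have d23 : v • x ≠ u • v • x := fun e => h1 (smul_left_cancel v (e.trans v1.symm)).symm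
  obtain ⟨g, g0, g1, g2, g3⟩ := four_iff.1 h4 _ _ _ _ _ _ _ _ h1.symm h2.symm h3.symm d12 d13 d23
    h2.symm h1.symm h3.symm d12.symm d23 d13
  have key : ∀ {g a b : G}, g • x = x → g • u • x = v • x → g • v • x = u • x →
      g • u • v • x = u • v • x → a * a = 1 → b * b = 1 → (a = u ∧ b = v ∨ a = v ∧ b = u) →
      ∃ k : ℕ, ((g * a * g⁻¹ * b) ^ k * g) * a = b * ((g * a * g⁻¹ * b) ^ k * g) ∧
        ((g * a * g⁻¹ * b) ^ k * g) • x = x ∧ ((g * a * g⁻¹ * b) ^ k * g) • u • x = v • x ∧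
        ((g * a * g⁻¹ * b) ^ k * g) • v • x = u • x ∧
        ((g * a * g⁻¹ * b) ^ k * g) • u • v • x = u • v • x := by
    intro g a b g0 g1 g2 g3 ha hb hab
    have i0 : g⁻¹ • x = x := inv_smul_eq_iff.2 g0.symm
    have i1 : g⁻¹ • u • x = v • x := inv_smul_eq_iff.2 g2.symm
    have i2 : g⁻¹ • v • x = u • x := inv_smul_eq_iff.2 g1.symm
    have i3 : g⁻¹ • u • v • x = u • v • x := inv_smul_eq_iff.2 g3.symm
    have f : (g * a * g⁻¹ * b) • x = x ∧ (g * a * g⁻¹ * b) • u • x = u • x ∧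
        (g * a * g⁻¹ * b) • v • x = v • x ∧ (g * a * g⁻¹ * b) • u • v • x = u • v • x := by
      rcases hab with ⟨rfl, rfl⟩ | ⟨rfl, rfl⟩ <;>
        simp only [mul_smul, g0, g1, g2, g3, i0, i1, i2, i3, u1, u3, v1, v2, v3, and_self]
    obtain ⟨k, hk⟩ := dih (u := g * a * g⁻¹) (by
      rw [show g * a * g⁻¹ * (g * a * g⁻¹) = g * (a * a) * g⁻¹ by group, ha]; simp) hb
      (odd4 hF h1.symm h2.symm h3.symm d12 d13 d23 f.1 f.2.1 f.2.2.1 f.2.2.2)
    refine ⟨k, by rw [← mul_assoc, ← hk]; group, ?_⟩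
    simp only [mul_smul _ g, g0, g1, g2, g3, pow_fix f.1, pow_fix f.2.1, pow_fix f.2.2.1,
      pow_fix f.2.2.2, and_self]
  obtain ⟨k, a1, a2, a3, a4, a5⟩ := key g0 g1 g2 g3 hu hv (Or.inl ⟨rfl, rfl⟩)
  generalize (g * u * g⁻¹ * v) ^ k * g = g' at *
  obtain ⟨j, b1, b2, b3, b4, b5⟩ := key a2 a3 a4 a5 hv hu (Or.inr ⟨rfl, rfl⟩)
  have c1 : Commute v ((g' * v * g'⁻¹ * u) ^ j) := by
    refine (Commute.mul_right ?_ hc.symm).pow_right j
    have : v = g' * u * g'⁻¹ := by rw [a1]; group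
    nth_rw 1 [this]
    exact hc.map (MulAut.conj g')
  have b0 : ((g' * v * g'⁻¹ * u) ^ j * g') * u = v * ((g' * v * g'⁻¹ * u) ^ j * g') := by
    rw [mul_assoc, a1, ← mul_assoc, ← c1.eq, mul_assoc]
  generalize (g' * v * g'⁻¹ * u) ^ j * g' = t at *
  obtain ⟨m, hm, hm'⟩ := invo hF (g := t) h1.symm h2.symm h3.symm d12 d13 d23 (by rw [b2, b2])
    (by rw [b3, b4]) (by rw [b4, b3]) (by rw [b5, b5])
  refine ⟨t ^ m, hm', ?_, ?_, pow_fix b2 m⟩ <;> obtain ⟨i, rfl⟩ := hm
  · have : Commute (t ^ 2) v := by rw [Commute, SemiconjBy, sq, mul_assoc, b1, ← mul_assoc, b0, mul_assoc]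
    rw [pow_succ, mul_assoc, b0, ← mul_assoc, pow_mul, (this.pow_left i).eq, mul_assoc]
  · have : Commute (t ^ 2) u := by rw [Commute, SemiconjBy, sq, mul_assoc, b0, ← mul_assoc, b1, mul_assoc]
    rw [pow_succ, mul_assoc, b1, ← mul_assoc, pow_mul, (this.pow_left i).eq, mul_assoc]

theorem claimA [FaithfulSMul G X] (hn : 10 ≤ Nat.card X) {u v : G} (u1 : u ≠ 1) (v1 : v ≠ 1)
    (hu : u * u = 1) (hv : v * v = 1) (hc : Commute u v) {p q : X} (hpq : p ≠ q) (up : u • p = p)
    (uq : u • q = q) (vp : v • p = p) (vq : v • q = q) : u = v := by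
  by_contra huv
  have c1 : u * v ≠ 1 := fun e => huv (mul_left_cancel (hu.trans e.symm))
  have c2 : u * v * (u * v) = 1 := by rw [← sq, hc.mul_pow, sq, sq, hu, hv, one_mul]
  have cu : Commute (u * v) u := (Commute.refl u).mul_left hc.symm
  have cv : Commute (u * v) v := hc.mul_left (Commute.refl v)
  have cp : (u * v) • p = p := by rw [mul_smul, vp, up]
  have cq : (u * v) • q = q := by rw [mul_smul, vq, uq]
  have e1 : v = u * v * u := by rw [mul_assoc, ← hc.eq, ← mul_assoc, hu, one_mul]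
  have e2 : u = u * v * v := by rw [mul_assoc, hv, mul_one]
  have fu : ∀ {y : X}, (u * v) • y = y → u • y = y := comm_fix hF c1 c2 cu hpq cp cq up uq
  have fv : ∀ {y : X}, (u * v) • y = y → v • y = y := comm_fix hF c1 c2 cv hpq cp cq vp vq
  obtain ⟨x, hx⟩ : ∃ x : X, (u * v) • x ≠ x := by
    by_contra h
    push Not at h
    exact c1 (eq_one_of_forall_smul h)
  have xu : u • x ≠ x := fun e => hx (comm_fix hF u1 hu cu.symm hpq up uq cp cq e)
  have xv : v • x ≠ x := fun e => hx (comm_fix hF v1 hv cv.symm hpq vp vq cp cq e)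
  obtain ⟨t, t2, tu, tv, tx⟩ := swapV hF h4 hu hv hc xu xv hx
  have tc : Commute t (u * v) := by
    rw [Commute, SemiconjBy, ← mul_assoc, tu, mul_assoc, tv, ← mul_assoc, hc.eq]
  have t1 : t ≠ 1 := by rintro rfl; exact huv (by simpa using tu)
  have ut : ∀ w, w = u ∨ w = v → w * w = 1 ∧ w • x ≠ x ∧ w • x ≠ (u * v) • x ∧ Commute (u * v) w ∧
      (∀ y : X, (u * v) • y = y → w • y = y) ∧ w * (t * (u * v)) = t * w := by
    rintro w (rfl | rfl)
    · exact ⟨hu, xu, fun e => xv (smul_left_cancel w (e.trans (mul_smul _ _ _))).symm, cu,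
        fun _ => fu, by rw [← mul_assoc, ← tv, mul_assoc, ← cv.eq, ← e2]⟩
    · exact ⟨hv, xv, fun e => xu (smul_left_cancel w (e.trans (by rw [hc.eq, mul_smul]))).symm, cv,
        fun _ => fv, by rw [← mul_assoc, ← tu, mul_assoc, ← cu.eq, ← e1]⟩
  generalize u * v = c at *
  have s2 : t * c * (t * c) = 1 := by rw [← sq, tc.mul_pow, sq, sq, t2, c2, one_mul]
  have s1 : t * c ≠ 1 := fun e => hx (by
    rw [← tx, smul_smul, ← tc.eq, e, one_smul, tx])
  have e3 : t * (t * c) = c := by rw [← mul_assoc, t2, one_mul]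
  obtain ⟨y, hy⟩ : ∃ y, y ∉ fixedBy X t ∪ fixedBy X (t * c) ∪ fixedBy X c := by
    by_contra h
    push Not at h
    have a1 := Set.ncard_union_le (fixedBy X t ∪ fixedBy X (t * c)) (fixedBy X c)
    have a2 := Set.ncard_union_le (fixedBy X t) (fixedBy X (t * c))
    rw [Set.eq_univ_of_forall h, Set.ncard_univ] at a1
    have := hF t t1 t2
    have := hF _ s1 s2
    have := hF c c1 c2
    omega
  simp only [Set.mem_union, mem_fixedBy, not_or] at hy
  obtain ⟨r, r2, ru, rv, ry⟩ := swapV hF h4 t2 s2 ((Commute.refl t).mul_right tc) hy.1.1 hy.1.2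
    (by rw [e3]; exact hy.2)
  have rc : Commute r c := by
    rw [Commute, SemiconjBy, ← e3, ← mul_assoc, ru, mul_assoc, rv, ← mul_assoc, e3, tc.eq,
      mul_assoc c, t2, mul_one]
  have r1 : r ≠ 1 := by rintro rfl; exact c1 (by simpa using ru)
  have rr : ∀ z : X, r • r • z = z := fun z => by rw [smul_smul, r2, one_smul]
  obtain ⟨w, hw, wx⟩ : ∃ w, (w = u ∨ w = v) ∧ (w * r) • x = x := by
    obtain ⟨-, -, -, a4, -, a6⟩ := ut u (Or.inl rfl)
    have b1 : Commute (u * r) t := by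
      rw [Commute, SemiconjBy, mul_assoc, ru, ← mul_assoc, a6, mul_assoc]
    have b2 : Commute (u * r) c := a4.symm.mul_left rc
    rcases pair_fix hF t1 t2 tc c2 tx hx (y := (u * r) • x)
      (by rw [smul_smul, ← b1.eq, mul_smul, tx])
      (by rw [smul_smul, ← b2.eq, mul_smul]; exact fun e => hx (smul_left_cancel _ e)) with h | h
    · exact ⟨u, Or.inl rfl, h⟩
    · exact ⟨v, Or.inr rfl, by rw [e1, mul_assoc, mul_smul, h, smul_smul, c2, one_smul]⟩
  obtain ⟨a1, a2, a3, a4, a5, -⟩ := ut w hw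
  have b2 : Commute (w * r) c := a4.symm.mul_left rc
  have ww : ∀ z : X, w • w • z = z := fun z => by rw [smul_smul, a1, one_smul]
  have cc : ∀ z : X, c • c • z = z := fun z => by rw [smul_smul, c2, one_smul]
  have b3 : r • x = w • x := by rw [← ww (r • x), ← mul_smul w r, wx]
  have b4 : (w * r) • w • x = w • x := by rw [mul_smul, ← b3, rr, b3]
  have ho := odd4 hF (g := w * r) (a := x) (b := c • x) (c := w • x) (d := c • w • x) hx.symm
    a2.symm (fun e => a3 (by rw [e, cc, ← e])) a3.symm (fun e => a2 (smul_left_cancel c e).symm)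
    (fun e => hx (smul_left_cancel w (by rw [smul_smul, ← a4.eq, mul_smul, ← e]))) wx
    (by rw [smul_smul, b2.eq, mul_smul, wx]) b4 (by rw [smul_smul, b2.eq, mul_smul, b4])
  have fin : ∀ z : X, c • z = z → r • z = z := fun z hz => by
    have d1 : w • r • z = r • z := a5 _ (by rw [smul_smul, ← rc.eq, mul_smul, hz])
    have := pow_odd_smul (g := w * r) (x := z) (by simp only [mul_smul, d1, rr, a5 z hz]) ho
    rw [pow_orderOf_eq_one, one_smul, mul_smul, d1] at this
    exact this.symm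
  have py : p ≠ y := fun e => hy.2 (e ▸ cp)
  have qy : q ≠ y := fun e => hy.2 (e ▸ cq)
  rcases fix3 hF r1 r2 hpq py qy (fin p cp) (fin q cq) ry (d := c • y)
    (by rw [smul_smul, rc.eq, mul_smul, ry]) with h | h | h
  · exact py (smul_left_cancel c (cp.trans h.symm))
  · exact qy (smul_left_cancel c (cq.trans h.symm))
  · exact hy.2 h

theorem eleven [FaithfulSMul G X] (hn : 10 ≤ Nat.card X) : Nat.card X = 11 := by
  obtain ⟨p, q, r, s, -, -, -, -, pq, pr, ps, qr, qs, rs⟩ :=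
    (Set.three_lt_ncard_iff (s := (Set.univ : Set X))).1 (by rw [Set.ncard_univ]; omega)
  have f4 := four_iff.1 h4
  obtain ⟨g, g1, g2, g3, g4⟩ := f4 p q r s p q s r pq pr ps qr qs rs pq ps pr qs qr rs.symm
  obtain ⟨m, hm, a2⟩ := invo hF (g := g) pq pr ps qr qs rs (by rw [g1, g1]) (by rw [g2, g2])
    (by rw [g3, g4]) (by rw [g4, g3])
  have a3 := pow_fix g1 m
  have a4 := pow_fix g2 m
  have a5 : g ^ m • r = s := (pow_odd_smul (by rw [g3, g4]) hm).trans g3
  have a6 : g ^ m • s = r := (pow_odd_smul (by rw [g4, g3]) hm).trans g4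
  generalize g ^ m = a₀ at *
  clear g1 g2 g3 g4 hm g m
  obtain ⟨g, g1, g2, g3, g4⟩ := f4 p q r s q p r s pq pr ps qr qs rs pq.symm qr qs pr ps rs
  obtain ⟨m, hm, b2⟩ := invo hF (g := g) pq pr ps qr qs rs (by rw [g1, g2]) (by rw [g2, g1])
    (by rw [g3, g3]) (by rw [g4, g4])
  have b3 : g ^ m • p = q := (pow_odd_smul (by rw [g1, g2]) hm).trans g1
  have b4 : g ^ m • q = p := (pow_odd_smul (by rw [g2, g1]) hm).trans g2
  have b5 := pow_fix g3 m
  have b6 := pow_fix g4 m
  generalize g ^ m = b at *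
  clear g1 g2 g3 g4 hm g m
  obtain ⟨m, hm, c2⟩ := invo hF (g := b * a₀) pq pr ps qr qs rs (by simp only [mul_smul, *])
    (by simp only [mul_smul, *]) (by simp only [mul_smul, *]) (by simp only [mul_smul, *])
  have c3 : (b * a₀) ^ m • p = q := by
    rw [pow_odd_smul (by simp only [mul_smul, *]) hm]; simp only [mul_smul, *]
  have c4 : (b * a₀) ^ m • q = p := by
    rw [pow_odd_smul (by simp only [mul_smul, *]) hm]; simp only [mul_smul, *]
  have c5 : (b * a₀) ^ m • r = s := by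
    rw [pow_odd_smul (by simp only [mul_smul, *]) hm]; simp only [mul_smul, *]
  have bc : Commute b ((b * a₀) ^ m) := by
    have e1 : SemiconjBy b (b * a₀) (b * a₀)⁻¹ := by
      rw [SemiconjBy, mul_inv_rev, inv_eq_of_mul_eq_one_right a2, inv_eq_of_mul_eq_one_right b2,
        ← mul_assoc, b2, mul_assoc, b2, one_mul, mul_one]
    have := e1.pow_right m
    rwa [inv_pow, inv_eq_of_mul_eq_one_right c2] at this
  generalize (b * a₀) ^ m = c at *
  clear a2 a3 a4 a5 a6 hm a₀ m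
  obtain ⟨a, ha⟩ : ∃ a, a = c * b := ⟨_, rfl⟩
  have a2 : a * a = 1 := by rw [ha, ← sq, bc.symm.mul_pow, sq, sq, b2, c2, one_mul]
  have a3 : a • p = p := by rw [ha, mul_smul, b3, c4]
  have a4 : a • q = q := by rw [ha, mul_smul, b4, c3]
  have a5 : a • r = s := by rw [ha, mul_smul, b5, c5]
  have a1 : a ≠ 1 := by rintro rfl; exact rs (by simpa using a5)
  have b1 : b ≠ 1 := by rintro rfl; exact pq (by simpa using b3)
  have c1 : c ≠ 1 := by rintro rfl; exact pq (by simpa using c3)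
  have ab : a * b = c := by rw [ha, mul_assoc, b2, mul_one]
  have ba : Commute a b := by rw [ha]; exact bc.symm.mul_left (Commute.refl b)
  let J := stabilizer G p ⊓ stabilizer G q
  have o2 : ∀ u : J, orderOf u = 2 → (u : G) ≠ 1 ∧ (u : G) * u = 1 := fun u hu =>
    ⟨fun e => by rw [show u = 1 from Subtype.ext e] at hu; simp at hu, by
      rw [← Subgroup.coe_mul, ← sq, ← hu, pow_orderOf_eq_one]; rfl⟩
  have hZ := CA.H13BS.bs (G := J) (fun u v hu hv hc => Subtype.ext (claimA hF h4 hn (o2 u hu).1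
    (o2 v hv).1 (o2 u hu).2 (o2 v hv).2 (congrArg Subtype.val hc.eq) pq u.2.1 u.2.2 v.2.1 v.2.2))
    (u := ⟨a, a3, a4⟩) (orderOf_eq_prime (Subtype.ext (by simpa [sq] using a2))
      fun e => a1 (congrArg Subtype.val e))
  obtain ⟨z, hz⟩ : ∃ z, z ∉ ({p, q, r, s} : Set X) := by
    by_contra h
    push Not at h
    have := Set.ncard_le_ncard (Set.eq_univ_of_forall h).ge
    have h2 := Set.ncard_insert_le p ({q, r, s} : Set X)
    have h3 := Set.ncard_insert_le q ({r, s} : Set X)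
    rw [Set.ncard_univ] at this
    rw [Set.ncard_pair rs] at h3
    omega
  simp only [Set.mem_insert_iff, Set.mem_singleton_iff, not_or] at hz
  have hO : (pPrimeCore 2 J).map J.subtype ≠ ⊥ := fun h => by
    obtain ⟨g, g1, g2, g3, g4⟩ := f4 p q r s p q r z pq pr ps qr qs rs pq pr (Ne.symm hz.1) qr
      (Ne.symm hz.2.1) (Ne.symm hz.2.2.1)
    have h1 : g * a * g⁻¹ * a⁻¹ = 1 := by
      rw [← Subgroup.mem_bot, ← h]; exact ⟨_, hZ ⟨g, g1, g2⟩, rfl⟩
    rw [mul_inv_eq_one, mul_inv_eq_iff_eq_mul] at h1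
    exact hz.2.2.2 (by rw [← g4, ← a5, smul_smul, h1, mul_smul, g3])
  obtain ⟨N, N1, N2, N3, N4⟩ := CA.Subn.exists_minimal_invariant _ hO
    (CA.Core.normalizer_le_normalizer_map_pPrimeCore J)
  have Nodd : Odd (Nat.card N) := Nat.coprime_two_right.1 (Nat.Coprime.coprime_dvd_left
    (Subgroup.card_dvd_of_le N1) (CA.Core.coprime_map_pPrimeCore J))
  have Nc : ∀ x ∈ N, ∀ y ∈ N, x * y = y * x := fun x hx y hy => by
    have h1 := CA.Fitting.commutator_lt_of_isSolvable (CA.PF.odd_solvable N Nodd) N2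
    have h2 := (N4 _ (CA.Coprime.le_normalizer_commutator N3 N3) h1.le).resolve_right h1.ne
    have := Subgroup.commutator_mem_commutator hx hy
    rwa [h2, Subgroup.mem_bot, commutatorElement_eq_one_iff_mul_comm] at this
  have NJ : N ≤ J := N1.trans (Subgroup.map_subtype_le _)
  have Nn : ∀ g ∈ Subgroup.normalizer (J : Set G), ∀ x ∈ N, g * x * g⁻¹ ∈ N := fun g hg x hx =>
    (Subgroup.mem_normalizer_iff.1 (N3 hg) x).1 hx
  have out : ∀ g ∈ J, ∀ x : X, p ≠ x → q ≠ x → p ≠ g • x ∧ q ≠ g • x := fun g hg x h1 h2 =>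
    ⟨fun e => h1 (smul_left_cancel g (hg.1.trans e)), fun e => h2 (smul_left_cancel g (hg.2.trans e))⟩
  have tr : ∀ x y : X, p ≠ x → q ≠ x → p ≠ y → q ≠ y → ∃ n ∈ N, n • x = y := fun x y x1 x2 y1 y2 => by
    by_cases xy : x = y
    · exact ⟨1, N.one_mem, by rw [one_smul, xy]⟩
    obtain ⟨⟨n, hn⟩, n1⟩ := (Subgroup.ne_bot_iff_exists_ne_one).1 N2
    obtain ⟨w, hw⟩ : ∃ w : X, w ≠ n • w := by
      by_contra h
      push Not at h
      exact n1 (Subtype.ext (eq_one_of_forall_smul fun w => (h w).symm))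
    have w1 : p ≠ w := by rintro rfl; exact hw (NJ hn).1.symm
    have w2 : q ≠ w := by rintro rfl; exact hw (NJ hn).2.symm
    obtain ⟨w3, w4⟩ := out n (NJ hn) w w1 w2
    obtain ⟨g, g1, g2, g3, g4⟩ := f4 p q w (n • w) p q x y pq w1 w3 w2 w4 hw pq x1 y1 x2 y2 xy
    exact ⟨_, Nn g (Subgroup.le_normalizer ⟨g1, g2⟩) n hn, by
      rw [← g3, ← g4, mul_smul, mul_smul, inv_smul_smul]⟩
  have reg : ∀ n ∈ N, ∀ x : X, p ≠ x → q ≠ x → n • x = x → n = 1 := fun n hn x x1 x2 h =>
    eq_one_of_forall_smul (X := X) fun y => by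
      by_cases y1 : p = y
      · exact y1 ▸ (NJ hn).1
      by_cases y2 : q = y
      · exact y2 ▸ (NJ hn).2
      obtain ⟨k, hk, rfl⟩ := tr x y x1 x2 y1 y2
      rw [smul_smul, Nc n hn k hk, mul_smul, h]
  have dv : Nat.card X - 2 ∣ Nat.card N := by
    have : orbit N r = {p, q}ᶜ := by
      ext y
      simp only [Set.mem_compl_iff, Set.mem_insert_iff, Set.mem_singleton_iff, not_or]
      exact ⟨fun ⟨n, hn⟩ => hn ▸ ⟨(out n (NJ n.2) r pr qr).1.symm, (out n (NJ n.2) r pr qr).2.symm⟩,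
        fun h => let ⟨n, hn, e⟩ := tr r y pr qr (Ne.symm h.1) (Ne.symm h.2); ⟨⟨n, hn⟩, e⟩⟩
    rw [← Set.ncard_pair pq, ← Set.ncard_compl, ← this, ← Nat.card_coe_set_eq]
    exact card_orbit_dvd r
  have od := Odd.of_dvd_nat Nodd dv
  obtain ⟨o, ⟨o1, o3⟩, o4⟩ : ∃ o : X, (p ≠ o ∧ q ≠ o) ∧ a • o = o := by
    have h1 := ncard_modEq_fixedBy (p := 2) (g := a) (k := 1) (by simpa [sq] using a2)
      ({p, q}ᶜ : Set X) (Set.toFinite _) fun x hx => by
        simp only [Set.mem_compl_iff, Set.mem_insert_iff, Set.mem_singleton_iff, not_or] at hx ⊢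
        exact ⟨(out a ⟨a3, a4⟩ x (Ne.symm hx.1) (Ne.symm hx.2)).1.symm,
          (out a ⟨a3, a4⟩ x (Ne.symm hx.1) (Ne.symm hx.2)).2.symm⟩
    rw [Set.ncard_compl, Set.ncard_pair pq] at h1
    obtain ⟨o, h2, h3⟩ : {x ∈ ({p, q}ᶜ : Set X) | a • x = x}.Nonempty :=
      Set.nonempty_of_ncard_ne_zero fun e => by
        rw [e] at h1; obtain ⟨k, hk⟩ := od; unfold Nat.ModEq at h1; omega
    simp only [Set.mem_compl_iff, Set.mem_insert_iff, Set.mem_singleton_iff, not_or] at h2
    exact ⟨o, ⟨Ne.symm h2.1, Ne.symm h2.2⟩, h3⟩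
  have uo : ∀ y : X, p ≠ y → q ≠ y → a • y = y → y = o := fun y y1 y2 h =>
    ((fix3 hF a1 a2 pq o1 o3 a3 a4 o4 h).resolve_left y1.symm).resolve_left y2.symm
  have ai : a⁻¹ = a := inv_eq_of_mul_eq_one_right a2
  have bi : b⁻¹ = b := inv_eq_of_mul_eq_one_right b2
  have inv : ∀ n ∈ N, a * n = n⁻¹ * a := fun n hn => by
    have h1 := Nn a (Subgroup.le_normalizer ⟨a3, a4⟩) n hn
    have h2 := N.mul_mem hn h1
    have h3 : a * (n * (a * n * a⁻¹)) = n * (a * n * a⁻¹) * a := by
      conv_rhs => rw [Nc n hn _ h1]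
      simp only [ai, mul_assoc]
    have h4 := reg _ h2 o o1 o3 (uo _ (out _ (NJ h2) o o1 o3).1 (out _ (NJ h2) o o1 o3).2
      (by rw [smul_smul, h3, mul_smul, o4]))
    rw [← mul_assoc, mul_inv_eq_one] at h4
    rw [eq_inv_mul_iff_mul_eq, h4]
  have bo : b • o = o := uo _ (fun e => o3 (smul_left_cancel b (b4.trans e)))
    (fun e => o1 (smul_left_cancel b (b3.trans e))) (by rw [smul_smul, ba.eq, mul_smul, o4])
  have bJ : b ∈ Subgroup.normalizer (J : Set G) := Subgroup.mem_normalizer_fintype fun n hn =>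
    ⟨show _ • p = p by rw [bi, mul_smul, mul_smul, b3, show n • q = q from hn.2, b4],
      show _ • q = q by rw [bi, mul_smul, mul_smul, b4, show n • p = p from hn.1, b3]⟩
  have inj : ∀ x ∈ N, ∀ y ∈ N, x • o = y • o → x = y := fun x hx y hy h => by
    rw [← inv_mul_eq_one]
    exact reg _ (N.mul_mem (N.inv_mem hx) hy) o o1 o3 (by rw [mul_smul, ← h, inv_smul_smul])
  have le := Nat.card_le_card_of_injective (fun n : N => ((⟨(n * (b * n * b⁻¹) : G) • o, by
      have h1 := Nn b bJ n n.2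
      rw [mem_fixedBy, smul_smul, show b * (n * (b * n * b⁻¹)) = n * (b * n * b⁻¹) * b by
        conv_rhs => rw [Nc _ n.2 _ h1]
        simp only [bi, mul_assoc], mul_smul, bo]⟩, ⟨(n * (b * n * b⁻¹)⁻¹ : G) • o, by
      have h1 := N.inv_mem (Nn b bJ n n.2)
      rw [mem_fixedBy, ← ab, mul_smul, smul_smul b, show b * (n * (b * n * b⁻¹)⁻¹) =
        (n * (b * n * b⁻¹)⁻¹)⁻¹ * b by
          simp only [mul_inv_rev, inv_inv, bi, mul_assoc],
        mul_smul, bo, smul_smul, inv _ (N.inv_mem (N.mul_mem n.2 h1)), inv_inv, mul_smul, o4]⟩) :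
      fixedBy X b × fixedBy X c)) fun x y h => by
    have x1 := Nn b bJ x x.2
    have y1 := Nn b bJ y y.2
    have h1 := inj _ (N.mul_mem x.2 x1) _ (N.mul_mem y.2 y1) (congrArg (fun t => t.1.1) h)
    have h2 := inj _ (N.mul_mem x.2 (N.inv_mem x1)) _ (N.mul_mem y.2 (N.inv_mem y1))
      (congrArg (fun t => t.2.1) h)
    have h3 : ∀ x : N, (x : G) ^ 2 = x * (b * x * b⁻¹) * (x * (b * x * b⁻¹)⁻¹) := fun x => by
      rw [mul_assoc, ← mul_assoc _ (x : G), ← Nc _ x.2 _ (Nn b bJ x x.2), mul_assoc,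
        mul_inv_cancel, mul_one, sq]
    refine (powCoprime (G := N) (n := 2) (Nat.coprime_two_right.2 Nodd)).injective (Subtype.ext ?_)
    simp only [powCoprime_apply, Subgroup.coe_pow, h3, h1, h2]
  rw [Nat.card_prod, Nat.card_coe_set_eq, Nat.card_coe_set_eq] at le
  have l2 := Nat.mul_le_mul (hF b b1 b2) (hF c c1 c2)
  have l3 := Nat.le_of_dvd Nat.card_pos dv
  obtain ⟨k, hk⟩ := od
  omega

omit hF h4 in
theorem hallP {α : Type*} [Fintype α] [DecidableEq α] (G : Subgroup (Equiv.Perm α))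
    (h4 : IsMultiplyPretransitive G α 4) (hF : F3 G α) (hn : 4 ≤ Fintype.card α) :
    (Fintype.card α ≤ 7 ∧ alternatingGroup α ≤ G) ∨
      (Fintype.card α = 11 ∧ ∀ x : Fin 4 ↪ α, stabilizer G x = ⊥) := by
  have hn' := Nat.card_eq_fintype_card (α := α)
  obtain ⟨p, q, r, s, -, -, -, -, pq, pr, ps, qr, qs, rs⟩ :=
    (Set.three_lt_ncard_iff (s := (Set.univ : Set α))).1 (by rw [Set.ncard_univ]; omega)
  by_cases hA : alternatingGroup α ≤ G
  · refine Or.inl ⟨?_, hA⟩
    have h1 := hF ⟨Equiv.swap p q * Equiv.swap r s, hA (by simp [pq, rs])⟩ (fun e => by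
      have := Equiv.congr_fun (congrArg Subtype.val e) p
      simp [Equiv.swap_apply_of_ne_of_ne pr ps, pq.symm] at this) (Subtype.ext (by
        have : Commute (Equiv.swap p q) (Equiv.swap r s) :=
          (Equiv.Perm.disjoint_swap_swap (by simp [*])).commute
        change (_ * _) * (_ * _) = 1
        rw [← sq, this.mul_pow, sq, sq, Equiv.swap_mul_self, Equiv.swap_mul_self, one_mul]))
    have h2 := Set.ncard_le_ncard (s := ({p, q, r, s} : Set α)ᶜ) (fun y hy => by
      simp only [Set.mem_compl_iff, Set.mem_insert_iff, Set.mem_singleton_iff, not_or] at hy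
      change Equiv.swap p q (Equiv.swap r s y) = y
      rw [Equiv.swap_apply_of_ne_of_ne hy.2.2.1 hy.2.2.2, Equiv.swap_apply_of_ne_of_ne hy.1 hy.2.1])
      (Set.toFinite (fixedBy α (⟨Equiv.swap p q * Equiv.swap r s, hA (by simp [pq, rs])⟩ : G)))
    rw [Set.ncard_compl] at h2
    have h5 := Set.ncard_insert_le p ({q, r, s} : Set α)
    have h3 := Set.ncard_insert_le q ({r, s} : Set α)
    rw [Set.ncard_pair rs] at h3
    omega
  right
  have hs : ∀ g : G, g ≠ 1 → 6 ≤ (g : Equiv.Perm α).support.card := fun g hg => by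
    by_contra h
    exact hA (CA.PermJordan.alt_le_of_support_lt G (by norm_num) hn h4 g g.2
      (fun e => hg (Subtype.ext e)) (by omega))
  have hx : ∀ (x : Fin 4 ↪ α) (g : G), g ∈ stabilizer G x →
      (g : Equiv.Perm α).support.card + 4 ≤ Fintype.card α := fun x g hg => by
    have : (g : Equiv.Perm α).support ⊆ (Finset.univ.map x)ᶜ := fun y hy => by
      simp only [Finset.mem_compl, Finset.mem_map, Finset.mem_univ, true_and, not_exists]
      rintro i rfl
      exact Equiv.Perm.mem_support.1 hy (congrArg (fun f : Fin 4 ↪ α => f i) hg)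
    have := Finset.card_le_card this
    rw [Finset.card_compl, Finset.card_map, Finset.card_univ, Fintype.card_fin] at this
    omega
  have h10 : 10 ≤ Fintype.card α := by
    by_contra h
    have h1 := (CA.Sharp4.card_of_sharp_four h4 (fun x => eq_bot_iff.2 fun g hg => by
      by_contra e
      have := hs g e
      have := hx x g hg
      omega) ⟨⟨_, inj4 pq pr ps qr qs rs⟩⟩).2
    obtain ⟨g, g1, g2, -⟩ := four_iff.1 h4 p q r s p r q s pq pr ps qr qs rs pr pq ps qr.symm rs qs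
    have h2 := hs g (by rintro rfl; exact qr (by simpa using g2))
    have := Finset.card_lt_univ_of_notMem (Equiv.Perm.notMem_support.2 g1)
    omega
  have h11 := eleven hF h4 (by omega)
  refine ⟨by omega, fun x => ?_⟩
  have hc : _ = _ * Nat.card (stabilizer G x) := @card_eq_card_mul_card_stabilizer G _ _ _ h4 x
  rw [Nat.card_eq_fintype_card (α := Fin 4 ↪ α), Fintype.card_embedding_eq, ← hn', h11,
    Fintype.card_fin, show Nat.descFactorial 11 4 = 7920 from rfl] at hc
  have hd : Nat.card (stabilizer G x) ∣ Nat.factorial 7 := by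
    have := CA.PermJordan.card_dvd_factorial_of_fix (G := G) (Set.range x)
    rw [Set.ncard_range_of_injective x.injective, h11, Nat.card_fin] at this
    refine Dvd.dvd.trans (Subgroup.card_dvd_of_le fun g hg => ?_) this
    rw [mem_fixingSubgroup_iff]
    rintro _ ⟨i, rfl⟩
    exact congrArg (fun f : Fin 4 ↪ α => f i) hg
  have n2 : ¬ 2 ∣ Nat.card (stabilizer G x) := fun h => by
    obtain ⟨g, hg⟩ := exists_prime_orderOf_dvd_card' 2 h
    have e : ∀ i, (g : G) • x i = x i := fun i => congrArg (fun f : Fin 4 ↪ α => f i) g.2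
    have := odd4 hF (x.injective.ne (by decide : (0 : Fin 4) ≠ 1))
      (x.injective.ne (by decide : (0 : Fin 4) ≠ 2)) (x.injective.ne (by decide : (0 : Fin 4) ≠ 3))
      (x.injective.ne (by decide)) (x.injective.ne (by decide)) (x.injective.ne (by decide))
      (e _) (e _) (e _) (e _)
    rw [Subgroup.orderOf_coe, hg] at this
    exact absurd this (by decide)
  have n5 : ¬ 5 ∣ Nat.card (stabilizer G x) := fun h => by
    have := Fact.mk (by norm_num : Nat.Prime 5)
    obtain ⟨g, hg⟩ := exists_prime_orderOf_dvd_card' 5 h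
    have ho : orderOf ((g : G) : Equiv.Perm α) = 5 := by simpa using hg
    have h1 := hx x g g.2
    have h2 := (Equiv.Perm.isCycle_of_prime_order (by rw [ho]; norm_num) (by omega)).orderOf
    have := hs g (by rintro e; rw [e] at ho; simp at ho)
    omega
  have n7 : ¬ 7 ∣ Nat.card (stabilizer G x) := fun h =>
    hA (CA.Sharp4.alt_le_of_prime_dvd G (isPreprimitive_of_is_two_pretransitive
      (mpt_of_le h4 (by norm_num) (by omega))) (p := 7) (by norm_num) (hc ▸ h.mul_left _)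
      (by omega) (by omega))
  have h9 : Nat.card (stabilizer G x) ∣ 3 ^ 2 :=
    Nat.Coprime.dvd_of_dvd_mul_left (m := 2 ^ 4 * 5 * 7) (Nat.Coprime.mul_right (Nat.Coprime.mul_right
      (Nat.Coprime.pow_right _ ((Nat.prime_two.coprime_iff_not_dvd).2 n2).symm)
      ((Nat.prime_five.coprime_iff_not_dvd).2 n5).symm)
      (((by norm_num : Nat.Prime 7).coprime_iff_not_dvd).2 n7).symm) hd
  have := Fact.mk (by norm_num : Nat.Prime 11)
  have : IsPretransitive G α := is_one_pretransitive_iff.1 (mpt_of_le h4 (by norm_num) (by omega))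
  obtain ⟨P⟩ : Nonempty (Sylow 11 G) := inferInstance
  obtain ⟨d, d1, d2⟩ := CA.PrimeDeg.card_normalizer h11 P
  have d3 := card_sylow_modEq_one 11 G
  have d4 := (Subgroup.normalizer ((P : Subgroup G) : Set G)).card_mul_index
  rw [show (Subgroup.normalizer ((P : Subgroup G) : Set G)).index = _ from
    P.card_eq_index_normalizer.symm, d2, hc] at d4
  have d5 : d ≠ 1 := by
    rintro rfl
    have e := CA.PrimeDeg.card_sylow h11 P
    have := CA.PrimeDeg.eq_top_of_normalizer_le h11 P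
      (Subgroup.eq_of_le_of_card_ge Subgroup.le_normalizer (by omega)).ge
    rw [this, Subgroup.card_top] at e
    omega
  rw [← Subgroup.card_eq_one]
  obtain ⟨i, hi, e⟩ := (Nat.dvd_prime_pow Nat.prime_three).1 h9
  rw [e] at d4
  rw [e]
  have := Nat.le_of_dvd (by norm_num) d1
  unfold Nat.ModEq at d3
  interval_cases i <;> interval_cases d <;> omega

theorem hallG [FaithfulSMul G X] (hn : 4 ≤ Nat.card X) :
    (Nat.card X ≤ 7 ∧ ∃ g : G, g ≠ 1 ∧ Nat.card X ≤ (fixedBy X g).ncard + 3) ∨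
      (Nat.card X = 11 ∧ ∀ g : G, 4 ≤ (fixedBy X g).ncard → g = 1) := by
  classical
  have := Fintype.ofFinite X
  have hi : Function.Injective (toPermHom G X) := toPerm_injective
  rw [Nat.card_eq_fintype_card] at hn ⊢
  rcases hallP _ (CA.Sharp4.mpt_range h4) (by
    rintro ⟨_, g, rfl⟩ h1 h2
    exact hF g (fun e => h1 (Subtype.ext (e ▸ map_one _)))
      (hi (by rw [map_mul, map_one]; exact congrArg Subtype.val h2))) hn with ⟨h1, h2⟩ | ⟨h1, h2⟩
  · obtain ⟨σ, hσ⟩ : ∃ σ : Equiv.Perm X, σ.IsThreeCycle := by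
      obtain ⟨a, b, c, ab, ac, bc⟩ := Fintype.two_lt_card_iff.1 (show 2 < Fintype.card X by omega)
      exact ⟨_, Equiv.Perm.isThreeCycle_swap_mul_swap_same ab ac bc⟩
    obtain ⟨g, rfl⟩ := h2 hσ.mem_alternatingGroup
    refine Or.inl ⟨h1, g, fun e => hσ.isCycle.ne_one (e ▸ map_one _), ?_⟩
    have : fixedBy X g = ((toPermHom G X g).supportᶜ : Finset X) := by
      ext y; simp
    rw [this, Set.ncard_coe_finset, Finset.card_compl, hσ.card_support]
    omega
  · refine Or.inr ⟨h1, fun g hg => ?_⟩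
    obtain ⟨a, b, c, d, ha, hb, hc, hd, ab, ac, ad, bc, bd, cd⟩ := (Set.three_lt_ncard_iff).1 hg
    exact hi ((congrArg Subtype.val (sharp_four_iff.1 h2 ⟨_, g, rfl⟩ a b c d ab ac ad bc bd cd
      ha hb hc hd)).trans (map_one _).symm)

omit hF h4 [Finite G] in
theorem fix_sub (s : Set X) (g : fixingSubgroup G s) : (fixedBy X (g : G)).ncard =
    s.ncard + (fixedBy (SubMulAction.ofFixingSubgroup G s) g).ncard := by
  rw [← Set.ncard_image_of_injective (fixedBy _ g) Subtype.val_injective,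
    ← Set.ncard_union_eq (Set.disjoint_left.2 (by rintro _ h ⟨y, -, rfl⟩; exact y.2 h))]
  congr 1
  ext y
  refine ⟨fun h => ?_, ?_⟩
  · by_cases hy : y ∈ s
    · exact Or.inl hy
    · exact Or.inr ⟨⟨y, hy⟩, Subtype.ext h, rfl⟩
  · rintro (h | ⟨y, h, rfl⟩)
    · exact (mem_fixingSubgroup_iff G).1 g.2 y h
    · exact congrArg Subtype.val h

omit hF h4 [Finite G] in
theorem card_sub (s : Set X) :
    Nat.card (SubMulAction.ofFixingSubgroup G s) + s.ncard = Nat.card X := by
  rw [← Set.ncard_add_ncard_compl s, add_comm]; rfl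

omit hF h4 in
theorem alt_le_of_fix {α : Type*} [Fintype α] [DecidableEq α] {G : Subgroup (Equiv.Perm α)}
    (h : IsMultiplyPretransitive G α 2) {g : G} (h1 : g ≠ 1)
    (h2 : Nat.card α ≤ (fixedBy α g).ncard + 3) : alternatingGroup α ≤ G := by
  refine CA.PermJordan.alt_le_of_support_le_three (isPreprimitive_of_is_two_pretransitive h) g.2
    (fun e => h1 (Subtype.ext e)) ?_
  have : fixedBy α g = ((g : Equiv.Perm α).supportᶜ : Finset α) := by
    ext y; simp only [Finset.coe_compl, Set.mem_compl_iff, Finset.mem_coe, Equiv.Perm.notMem_support]; rfl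
  rw [this, Set.ncard_coe_finset, Finset.card_compl, Nat.card_eq_fintype_card] at h2
  have := (g : Equiv.Perm α).support.card_le_univ
  omega

omit hF h4 in
theorem hallk {α : Type*} [Fintype α] [DecidableEq α] (G : Subgroup (Equiv.Perm α)) {k : ℕ}
    (h : IsMultiplyPretransitive G α (k + 4)) (hn : k + 4 ≤ Fintype.card α)
    (hF : ∀ g : G, g ≠ 1 → g * g = 1 → (fixedBy α g).ncard ≤ k + 3) :
    (Fintype.card α ≤ k + 7 ∧ alternatingGroup α ≤ G) ∨
      (Fintype.card α = k + 11 ∧ ∀ g : G, k + 4 ≤ (fixedBy α g).ncard → g = 1) := by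
  rw [← Nat.card_eq_fintype_card] at hn ⊢
  have key : ∀ s : Set α, s.ncard = k → (Nat.card α ≤ k + 7 ∧ alternatingGroup α ≤ G) ∨
      (Nat.card α = k + 11 ∧ ∀ g : fixingSubgroup G s, k + 4 ≤ (fixedBy α (g : G)).ncard →
        g = 1) := fun s hs => by
    have := faithful_fixing (G := G) s
    have hc := card_sub (G := G) s
    refine (hallG (fun g h1 h2 => ?_) (SubMulAction.ofFixingSubgroup.isMultiplyPretransitive G s
      (m := 4) (n := k + 4) (by rw [hs])) (by omega)).imp ?_ ?_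
    · have := hF g (fun e => h1 (Subtype.ext e)) (congrArg Subtype.val h2)
      have := fix_sub s g
      omega
    · rintro ⟨h1, g, h2, h3⟩
      have := fix_sub s g
      exact ⟨by omega, alt_le_of_fix (mpt_of_le h (by omega) hn) (g := g)
        (fun e => h2 (Subtype.ext e)) (by omega)⟩
    · rintro ⟨h1, h2⟩
      exact ⟨by omega, fun g hg => h2 g (by have := fix_sub s g; omega)⟩
  obtain ⟨s, -, hs⟩ := Set.exists_subset_card_eq (s := (Set.univ : Set α)) (n := k)
    (by rw [Set.ncard_univ]; omega)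
  refine (key s hs).imp_right fun h1 => ⟨h1.1, fun g hg => ?_⟩
  obtain ⟨t, ht, ht'⟩ := Set.exists_subset_card_eq (s := fixedBy α g) (n := k) (by omega)
  rcases key t ht' with h2 | h2
  · omega
  · exact congrArg Subtype.val (h2.2 ⟨g, (mem_fixingSubgroup_iff G).2 ht⟩ hg)

omit hF h4 in
theorem eq_or_top {α : Type*} [Fintype α] [DecidableEq α] [Nontrivial α]
    {G : Subgroup (Equiv.Perm α)} (h : alternatingGroup α ≤ G) : G = alternatingGroup α ∨ G = ⊤ := by
  have := Subgroup.index_dvd_of_le h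
  rw [alternatingGroup.index_eq_two] at this
  exact ((Nat.dvd_prime Nat.prime_two).1 this).symm.imp Equiv.Perm.eq_alternatingGroup_of_index_eq_two
    Subgroup.index_eq_one.1

end CA.Hall4
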