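import Mathlib
import Cfsg.Agent.Lib.Perm.Neumann3

/-! Highly transitive groups of degree `kp + r`. -/

set_option autoImplicit false
open MulAction CA.PermBasic CA.PermMulti CA.Sharp4 CA.PermJordan CA.Neumann3
open scoped Pointwise

namespace CA.KPR

variable {G Ω : Type*} [Group G] [MulAction G Ω]

theorem alt_exp {T : Type*} [Fintype T] [DecidableEq T] (h5 : 5 ≤ Nat.card T) {p : ℕ}
    (hp : p.Prime) (h : ∀ σ ∈ alternatingGroup T, σ ^ p = 1) : False := by
  have : Nontrivial T := Finite.one_lt_card_iff_nontrivial.1 (by omega)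
  have h1 := two_mul_nat_card_alternatingGroup (α := T)
  rw [Nat.card_perm] at h1
  have h2 : (5 : ℕ).factorial ∣ (Nat.card T).factorial := Nat.factorial_dvd_factorial h5
  rw [← h1] at h2
  have h3 : 60 ∣ Nat.card (alternatingGroup T) :=
    Nat.dvd_of_mul_dvd_mul_left (show 0 < 2 by norm_num) (by simpa [Nat.factorial] using h2)
  have key : ∀ q : ℕ, q.Prime → q ∣ 60 → q = p := by
    intro q hq hq'
    have := Fact.mk hq
    obtain ⟨x, hx⟩ := exists_prime_orderOf_dvd_card' (G := alternatingGroup T) q (hq'.trans h3)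
    have h4 : orderOf x ∣ p := orderOf_dvd_of_pow_eq_one (Subtype.ext (h x x.2))
    rw [hx] at h4
    exact (Nat.prime_dvd_prime_iff_eq hq hp).1 h4
  have := key 2 Nat.prime_two (by norm_num)
  have := key 3 Nat.prime_three (by norm_num)
  omega

theorem core [Fintype Ω] [DecidableEq Ω] [FaithfulSMul G Ω] {k p r : ℕ} (hp : p.Prime)
    (hΩ : Nat.card Ω = r + k * p) (hk1 : 1 ≤ k) (hpk : k < p) (hrk : k < r) (hr3 : 3 ≤ r)
    (hcase : k = 1 ∨ (k = 2 ∧ p ≠ 3) ∨ 5 ≤ r)
    (hG : IsMultiplyPretransitive G Ω (r + 1)) :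
    alternatingGroup Ω ≤ (toPermHom G Ω).range := by
  have := Fact.mk hp
  have : Finite G := finite_of_faithful (X := Ω)
  by_contra hcon
  have hΩ' : Fintype.card Ω = r + k * p := by rw [← hΩ, Nat.card_eq_fintype_card]
  have hmr : 1 * p ≤ k * p := Nat.mul_le_mul_right _ hk1
  have hp2 := hp.two_le
  obtain ⟨d⟩ : Nonempty (Fin r ↪ Ω) :=
    Function.Embedding.nonempty_of_card_le (by rw [Fintype.card_fin]; omega)
  let D : Finset Ω := Finset.univ.map d
  have hD : D.card = r := by simp [D]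
  have hk : IsMultiplyPretransitive G Ω r := mpt_of_le hG (by omega) (by omega)
  have hprim : IsPreprimitive G Ω :=
    isPreprimitive_of_is_two_pretransitive (mpt_of_le hG (by omega) (by omega))
  obtain ⟨R, hR⟩ := exists_isSylowIn p (fixingSubgroup G (D : Set Ω))
  have hRD : ∀ x ∈ R, ∀ y ∈ D, x • y = y := fun x hx y hy => hR.1 hx ⟨y, hy⟩
  have hDc : ((D : Set Ω)ᶜ).ncard = k * p := by
    rw [Set.ncard_compl, Set.ncard_coe_finset, hΩ, hD]; omega
  have hsub : ∀ y ∉ D, orbit (fixingSubgroup G (D : Set Ω)) y = (D : Set Ω)ᶜ := by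
    intro y hy
    ext z
    constructor
    · rintro ⟨g, rfl⟩ hz
      have := g⁻¹.2 ⟨_, hz⟩
      simp only [Subgroup.coe_inv, Subgroup.smul_def, inv_smul_smul] at this
      exact hy (by rw [this]; exact hz)
    · intro hz
      obtain ⟨g, hg⟩ := mpt_exists_injOn_le hG (by omega) (insert y D)
        (by rw [Finset.card_insert_of_notMem hy]; omega) (Equiv.swap y z) (Equiv.injective _).injOn
      refine ⟨⟨g, (mem_fixingSubgroup_iff G).2 fun x hx => ?_⟩,
        (hg y (Finset.mem_insert_self _ _)).trans (Equiv.swap_apply_left _ _)⟩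
      rw [hg x (Finset.mem_insert_of_mem hx), Equiv.swap_apply_of_ne_of_ne]
      · rintro rfl; exact hy hx
      · rintro rfl; exact hz hx
  have hY : ∀ y ∉ D, ∀ z ∈ orbit R y, z ∉ D := by
    rintro y hy _ ⟨x, rfl⟩
    exact (hsub y hy).subset ⟨⟨x, hR.1 x.2⟩, rfl⟩
  have horb : ∀ y ∉ D, Nat.card (orbit R y) = p := by
    intro y hy
    obtain ⟨n, hn⟩ := hR.isPGroup.card_orbit y
    have h1 := pow_dvd_card_orbit hR y (k := 1) (by
      rw [hsub y hy, Nat.card_coe_set_eq, hDc, pow_one]; exact dvd_mul_left _ _)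
    have h2 := Set.ncard_le_ncard (show orbit R y ⊆ (D : Set Ω)ᶜ from hY y hy)
    rw [← Nat.card_coe_set_eq, hn, hDc] at h2
    rw [hn] at h1 ⊢
    have h3 := (Nat.pow_dvd_pow_iff_le_right hp.one_lt).1 h1
    have h4 : p ^ n < p ^ 2 := by nlinarith
    rw [show n = 1 by have := (Nat.pow_lt_pow_iff_right hp.one_lt).1 h4; omega, pow_one]
  have hcyc := fun y hy => orbit_cyclic hR.isPGroup (horb y hy)
  have hexp : ∀ x ∈ R, x ^ p = 1 := fun x hx => eq_one_of_forall_smul (X := Ω) fun y => by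
    by_cases hy : y ∈ D
    · exact hRD _ (pow_mem hx _) y hy
    · exact (hcyc y hy).1 x hx y (mem_orbit_self y)
  have hne1 : ∀ g : G, g ≠ 1 → toPermHom G Ω g ≠ 1 := fun g hg e =>
    hg (toPerm_injective (e.trans (map_one (toPermHom G Ω)).symm))
  have hcycle : ∀ x ∈ R, ∀ y ∉ D, (∀ z, z ∉ orbit R y → x • z = z) → x = 1 := by
    intro x hx y hy hz
    by_contra hx1
    have h1 : orderOf (toPermHom G Ω x) = p :=
      orderOf_eq_prime (by rw [← map_pow, hexp x hx, map_one]) (hne1 x hx1)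
    have h2 : (toPermHom G Ω x).support.card ≤ p := by
      rw [← horb y hy, Nat.card_coe_set_eq, ← Set.ncard_coe_finset]
      refine Set.ncard_le_ncard fun z hz' => ?_
      by_contra h
      exact Equiv.Perm.mem_support.1 hz' (hz z h)
    have h3 := Equiv.Perm.isCycle_of_prime_order (h1 ▸ hp) (by rw [h1]; omega)
    exact hcon (alt_le_of_prime_cycle _ (preprimitive_range hprim) hp (by omega) h3
      (h3.orderOf.symm.trans h1) ⟨x, rfl⟩)
  have hsupp : ∀ g : G, (∀ y ∉ D, g • y = y) → g = 1 := by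
    intro g hg
    by_contra hg1
    refine hcon (alt_le_of_support_lt _ (k := r + 1) (by omega) (by omega) (mpt_range hG) _ ⟨g, rfl⟩
      (hne1 g hg1) ((Finset.card_le_card (t := D) fun z hz => ?_).trans_lt (by omega)))
    by_contra h
    exact Equiv.Perm.mem_support.1 hz (hg z h)
  have hcard : ∀ [DecidableEq (Set Ω)], (Dᶜ.image fun y => orbit R y).card = k := by
    intro _
    have h1 := Finset.card_eq_sum_card_image (fun y => orbit R y) Dᶜ
    rw [Finset.sum_const_nat (m := p), Finset.card_compl, hΩ', hD, Nat.add_sub_cancel_left] at h1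
    · exact (Nat.eq_of_mul_eq_mul_right hp.pos h1).symm
    · intro O hO
      obtain ⟨y, hy, rfl⟩ := Finset.mem_image.1 hO
      rw [← horb y (Finset.mem_compl.1 hy), Nat.card_coe_set_eq, ← Set.ncard_coe_finset]
      congr 1
      ext z
      simp only [Finset.coe_filter, Finset.mem_compl, Set.mem_setOf_eq, orbit_eq_iff]
      exact ⟨fun h => h.2, fun h => ⟨hY y (Finset.mem_compl.1 hy) z h, h⟩⟩
  have hcount : ∀ f : Fin (k + 1) → Ω, (∀ i, f i ∉ D) →
      ∃ i j, i ≠ j ∧ orbit R (f i) = orbit R (f j) := by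
    classical
    intro f hf
    obtain ⟨i, -, j, -, hij, h⟩ := Finset.exists_ne_map_eq_of_card_lt_of_maps_to
      (s := Finset.univ) (t := Dᶜ.image fun y => orbit R y) (f := fun i => orbit R (f i))
      (by rw [hcard]; simp)
      (fun i _ => Finset.mem_image_of_mem _ (Finset.mem_compl.2 (hf i)))
    exact ⟨i, j, hij, h⟩
  let N := Subgroup.normalizer (R : Set G)
  have hN : ∀ n ∈ N, ∀ x ∈ R, n * x * n⁻¹ ∈ R := fun n hn x hx =>
    (Subgroup.mem_normalizer_iff.1 hn x).1 hx
  have hNo : ∀ n ∈ N, ∀ y z : Ω, z ∈ orbit R y → n • z ∈ orbit R (n • y) := by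
    rintro n hn y _ ⟨x, rfl⟩
    exact ⟨⟨_, hN n hn x x.2⟩, by simp [mul_smul, Subgroup.smul_def]⟩
  have hmove : ∀ y ∉ D, ∃ x ∈ R, x • y ≠ y := by
    intro y hy
    by_contra h
    push Not at h
    have h1 : orbit R y = {y} := by
      ext z
      exact ⟨by rintro ⟨x, rfl⟩; exact h x x.2, by rintro rfl; exact mem_orbit_self _⟩
    have := horb y hy
    rw [h1, Nat.card_unique] at this
    omega
  have hND : ∀ n ∈ N, ∀ y ∉ D, n • y ∉ D := by
    intro n hn y hy hny
    obtain ⟨x, hx, hx'⟩ := hmove y hy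
    have := hRD _ (hN n hn x hx) _ hny
    rw [mul_smul, mul_smul, inv_smul_smul] at this
    exact hx' (MulAction.injective n this)
  have hND' : ∀ n ∈ N, ∀ y ∈ D, n • y ∈ D := by
    intro n hn y hy
    by_contra h
    have := hND _ (inv_mem hn) _ h
    rw [inv_smul_smul] at this
    exact this hy
  obtain ⟨y₀, hy₀⟩ : ∃ y, y ∉ D := by
    by_contra h
    push Not at h
    rw [Finset.eq_univ_of_forall h, Finset.card_univ] at hD
    omega
  -- centralising elements fixing all orbits have order dividing `p`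
  have hcent : ∀ c : G, (∀ x ∈ R, c * x = x * c) → (∀ y ∉ D, c • y ∈ orbit R y) → c ^ p = 1 := by
    intro c h2 h3
    refine hsupp _ fun y hy => ?_
    obtain ⟨x, hx⟩ := h3 y hy
    have h4 : ∀ k : ℕ, c ^ k • y = (x : G) ^ k • y := by
      intro k
      induction k with
      | zero => simp
      | succ k ih =>
        rw [pow_succ', mul_smul, ih, ← mul_smul, h2 _ (pow_mem x.2 k), mul_smul, ← hx, pow_succ,
          mul_smul]
        rfl
    rw [h4, hexp x x.2, one_smul]
  let T : SubMulAction N Ω := ⟨(D : Set Ω), fun n y hy => hND' n n.2 y hy⟩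
  have hT : Nat.card T = r := by
    rw [← hD, ← Set.ncard_coe_finset, ← Nat.card_coe_set_eq]; rfl
  let φ := toPermHom N T
  have hφ : Function.Surjective φ := by
    classical
    intro σ
    have := Fintype.ofFinite T
    obtain ⟨g, hg, hg'⟩ := witt_sylow_fun hk hD hR (ι := T) (by rw [← hT, Nat.card_eq_fintype_card])
      Subtype.val (Subtype.val ∘ σ) Subtype.val_injective
      (Subtype.val_injective.comp σ.injective) (fun g hg i => hRD g hg _ i.2)
      (fun g hg i => hRD g hg _ (σ i).2)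
    exact ⟨⟨g, hg⟩, Equiv.ext fun i => Subtype.ext (hg' i)⟩
  rcases hcase with rfl | ⟨rfl, hp3⟩ | h5
  · obtain ⟨x, hx, hx'⟩ := hmove y₀ hy₀
    suffices h : x = 1 from hx' (by rw [h, one_smul])
    refine hcycle x hx y₀ hy₀ fun z hz => ?_
    by_cases hzD : z ∈ D
    · exact hRD x hx z hzD
    obtain ⟨i, j, hij, h⟩ := hcount ![y₀, z] (fun i => by fin_cases i; exacts [hy₀, hzD])
    have h' : orbit R z = orbit R y₀ := by
      fin_cases i <;> fin_cases j
      exacts [absurd rfl hij, h.symm, h, absurd rfl hij]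
    exact absurd (orbit_eq_iff.1 h') hz
  · obtain ⟨x₀, hx₀, hx₀'⟩ := hmove y₀ hy₀
    have h3 : ∀ y z w, y ∉ D → z ∉ D → w ∉ D → z ∉ orbit R y → w ∉ orbit R y → w ∈ orbit R z := by
      intro y z w hy hz hw hzy hwy
      obtain ⟨i, j, hij, h⟩ := hcount ![y, z, w] (fun i => by fin_cases i; exacts [hy, hz, hw])
      fin_cases i <;> fin_cases j
      exacts [absurd rfl hij, absurd (orbit_eq_iff.1 h.symm) hzy,
        absurd (orbit_eq_iff.1 h.symm) hwy, absurd (orbit_eq_iff.1 h) hzy, absurd rfl hij,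
        orbit_eq_iff.1 h.symm, absurd (orbit_eq_iff.1 h) hwy, orbit_eq_iff.1 h, absurd rfl hij]
    have hRc : R = Subgroup.zpowers x₀ := by
      refine le_antisymm (fun x hx => ?_) ((Subgroup.zpowers_le).2 hx₀)
      obtain ⟨j, hj⟩ := (hcyc y₀ hy₀).2.2 x₀ hx₀ y₀ (mem_orbit_self _) hx₀' x hx
      have hm : x⁻¹ * x₀ ^ j ∈ R := mul_mem (inv_mem hx) (zpow_mem hx₀ j)
      have h1 : ∀ z ∈ orbit R y₀, (x⁻¹ * x₀ ^ j) • z = z := fun z hz => by
        rw [mul_smul, ← hj z hz, inv_smul_smul]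
      have h2 : x⁻¹ * x₀ ^ j = 1 := by
        by_cases h : ∃ z ∉ D, z ∉ orbit R y₀
        · obtain ⟨z, hz, hz'⟩ := h
          refine hcycle _ hm z hz fun w hw => ?_
          by_cases hwD : w ∈ D
          · exact hRD _ hm w hwD
          · by_contra h
            exact hw (h3 y₀ z w hy₀ hz hwD hz' fun h' => h (h1 w h'))
        · push Not at h
          refine eq_one_of_forall_smul (X := Ω) fun w => ?_
          by_cases hwD : w ∈ D
          · exact hRD _ hm w hwD
          · exact h1 w (h w hwD)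
      exact ⟨j, (inv_mul_eq_one.1 h2).symm⟩
    have hfin : ∀ s t : N, (s * t * s⁻¹ * t⁻¹) ^ (2 * p) = 1 := by
      intro s t
      have h1 : ∀ x ∈ R, Commute ((s * t * s⁻¹ * t⁻¹ : N) : G) x := by
        intro x hx
        rw [hRc] at hx
        obtain ⟨j, rfl⟩ := hx
        refine Commute.zpow_right ?_ j
        exact commutator_commute_of_normalizer (g := x₀) (x := s) (y := t)
          (by rw [← hRc]; exact s.2) (by rw [← hRc]; exact t.2)
      generalize s * t * s⁻¹ * t⁻¹ = c at h1 ⊢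
      apply Subtype.ext
      rw [pow_mul]
      refine hcent _ (fun x hx => ((h1 x hx).pow_left 2).eq) fun y hy => ?_
      change ((c : G) ^ 2) • y ∈ _
      rw [pow_two, mul_smul]
      by_cases h : (c : G) • y ∈ orbit R y
      · rw [← orbit_eq_iff.2 h]
        exact hNo _ c.2 _ _ h
      · by_contra h'
        have h4 := h3 y _ _ hy (hND _ c.2 y hy) (hND _ c.2 _ (hND _ c.2 y hy)) h h'
        have h5 := hNo _ (inv_mem c.2) _ _ h4
        rw [inv_smul_smul, inv_smul_smul] at h5
        exact h h5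
    classical
    have := Fintype.ofFinite T
    obtain ⟨e⟩ : Nonempty (Fin 3 ↪ T) :=
      Function.Embedding.nonempty_of_card_le (by rw [Fintype.card_fin, ← Nat.card_eq_fintype_card]; omega)
    obtain ⟨s, hs⟩ := hφ (Equiv.Perm.viaEmbeddingHom e (Equiv.swap 0 1))
    obtain ⟨t, ht⟩ := hφ (Equiv.Perm.viaEmbeddingHom e (Equiv.swap 1 2))
    have h1 := congrArg φ (hfin s t)
    simp only [map_pow, map_mul, map_inv, map_one, hs, ht] at h1
    rw [← map_inv, ← map_inv, ← map_mul, ← map_mul, ← map_mul, ← map_pow,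
      ← map_one (Equiv.Perm.viaEmbeddingHom e)] at h1
    have h2 := orderOf_dvd_of_pow_eq_one (Equiv.Perm.viaEmbeddingHom_injective e h1)
    have := Fact.mk Nat.prime_three
    rw [orderOf_eq_prime (p := 3) (by decide +kernel) (by decide +kernel)] at h2
    rcases (Nat.Prime.dvd_mul Nat.prime_three).1 h2 with h | h
    · omega
    · exact hp3 ((Nat.prime_dvd_prime_iff_eq Nat.prime_three hp).1 h).symm
  · have hA : ∀ n ∈ N, (∀ y ∉ D, n • y ∈ orbit R y) → ∀ y ∉ D, ∃ a : ℤ, ∀ x ∈ R,
        ∀ z ∈ orbit R y, (n * x * n⁻¹) • z = x ^ a • z := by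
      intro n hn hn0 y hy
      obtain ⟨x₀, hx₀, hx₀'⟩ := hmove y hy
      have h1 := (hcyc y hy).2.2 x₀ hx₀ y (mem_orbit_self y) hx₀'
      obtain ⟨a, ha⟩ := h1 _ (hN n hn x₀ hx₀)
      refine ⟨a, fun x hx z hz => ?_⟩
      obtain ⟨j, hj⟩ := h1 x hx
      have h2 : n⁻¹ • z ∈ orbit R y := by
        have h3 := hn0 _ (hND _ (inv_mem hn) z (hY y hy z hz))
        rw [smul_inv_smul] at h3
        rw [← orbit_eq_iff.2 hz, orbit_eq_iff.2 h3]
        exact mem_orbit_self _
      rw [mul_smul, mul_smul, hj _ h2, ← mul_smul, ← mul_smul, ← conj_zpow,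
        zpow_smul_eq_of_eq (hN n hn x₀ hx₀) ha j z hz, zpow_smul_eq_of_eq hx hj a z hz,
        ← zpow_mul, ← zpow_mul, mul_comm]
    have hsm : ∀ (n : N) (y : Ω), n • orbit R y = orbit R ((n : G) • y) := by
      intro n y
      ext z
      rw [Set.mem_smul_set_iff_inv_smul_mem]
      constructor
      · intro h
        have := hNo _ n.2 _ _ h
        rwa [Subgroup.smul_def, Subgroup.coe_inv, smul_inv_smul] at this
      · intro h
        have := hNo _ (inv_mem n.2) _ _ h
        rwa [inv_smul_smul] at this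
    let S : SubMulAction N (Set Ω) := ⟨{O | ∃ y ∉ D, O = orbit R y}, by
      rintro n _ ⟨y, hy, rfl⟩
      exact ⟨_, hND _ n.2 y hy, hsm n y⟩⟩
    have hS : Nat.card S = k := by
      classical
      rw [← hcard, ← Set.ncard_coe_finset, ← Nat.card_coe_set_eq]
      refine Nat.card_congr (Equiv.setCongr ?_)
      ext O
      simp only [Finset.coe_image, Finset.coe_compl, Set.mem_image, Set.mem_compl_iff,
        Finset.mem_coe]
      exact ⟨fun ⟨y, h1, h2⟩ => ⟨y, h1, h2.symm⟩, fun ⟨y, h1, h2⟩ => ⟨y, h1, h2.symm⟩⟩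
    let ψ := toPermHom N S
    have hker : ∀ n ∈ ψ.ker, ∀ y ∉ D, (n : G) • y ∈ orbit R y := by
      intro n hn y hy
      have h1 := congrArg (fun σ : Equiv.Perm S => (σ ⟨orbit R y, y, hy, rfl⟩ : Set Ω))
        (MonoidHom.mem_ker.1 hn)
      exact orbit_eq_iff.1 ((hsm n y).symm.trans h1)
    classical
    have := Fintype.ofFinite T
    have hMn : (ψ.ker.map φ).Normal := Subgroup.Normal.map inferInstance φ hφ
    have hMt : Nontrivial (ψ.ker.map φ) := by
      rw [Subgroup.nontrivial_iff_ne_bot]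
      intro h
      have h1 := Subgroup.index_dvd_of_le ((Subgroup.map_eq_bot_iff _).1 h)
      rw [Subgroup.index_ker, Subgroup.index_ker, MonoidHom.range_eq_top.2 hφ,
        Subgroup.card_top, Nat.card_perm, hT] at h1
      have h2 := Subgroup.card_subgroup_dvd_card ψ.range
      rw [Nat.card_perm, hS] at h2
      have h3 := Nat.le_of_dvd (Nat.factorial_pos _) (h1.trans h2)
      have := (Nat.factorial_lt (show 0 < k by omega)).2 hrk
      omega
    have hAM := Equiv.Perm.alternatingGroup_le_of_normal (N := ψ.ker.map φ) (by omega) hMt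
    let C : Subgroup N := ψ.ker ⊓ (Subgroup.centralizer (R : Set G)).subgroupOf N
    have hC : ⁅ψ.ker, ψ.ker⁆ ≤ C := by
      rw [Subgroup.commutator_le]
      intro s hs t ht
      refine ⟨Subgroup.commutator_le_left _ _ (Subgroup.commutator_mem_commutator hs ht), ?_⟩
      have h1 : ∀ x ∈ R, (s : G) * (t * x * (t : G)⁻¹) * (s : G)⁻¹ =
          t * (s * x * (s : G)⁻¹) * (t : G)⁻¹ := by
        intro x hx
        refine FaithfulSMul.eq_of_smul_eq_smul (α := Ω) fun y => ?_
        by_cases hy : y ∈ D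
        · rw [hRD _ (hN _ s.2 _ (hN _ t.2 x hx)) y hy, hRD _ (hN _ t.2 _ (hN _ s.2 x hx)) y hy]
        obtain ⟨a, ha⟩ := hA s s.2 (hker s hs) y hy
        obtain ⟨b, hb⟩ := hA t t.2 (hker t ht) y hy
        rw [ha _ (hN _ t.2 x hx) y (mem_orbit_self y), hb _ (hN _ s.2 x hx) y (mem_orbit_self y),
          zpow_smul_eq_of_eq (hN _ t.2 x hx) (hb x hx) a y (mem_orbit_self y),
          zpow_smul_eq_of_eq (hN _ s.2 x hx) (ha x hx) b y (mem_orbit_self y),
          ← zpow_mul, ← zpow_mul, mul_comm]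
      refine Subgroup.mem_subgroupOf.2 (Subgroup.mem_centralizer_iff.2 fun x hx => ?_)
      have h2 := h1 _ (hN _ (inv_mem s.2) _ (hN _ (inv_mem t.2) x hx))
      simp only [commutatorElement_def, Subgroup.coe_mul, Subgroup.coe_inv]
      calc x * ((s : G) * t * (s : G)⁻¹ * (t : G)⁻¹)
          = (t * (s * ((s : G)⁻¹ * ((t : G)⁻¹ * x * (t : G)⁻¹⁻¹) * (s : G)⁻¹⁻¹) * (s : G)⁻¹) *
            (t : G)⁻¹) * ((s : G) * t * (s : G)⁻¹ * (t : G)⁻¹) := by group
        _ = _ := by rw [← h2]; group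
    refine alt_exp (T := T) (by omega) hp fun σ hσ => ?_
    rw [← commutator_alternatingGroup_eq_self (by omega)] at hσ
    have h1 := Subgroup.commutator_mono hAM hAM hσ
    rw [← Subgroup.map_commutator] at h1
    obtain ⟨c, hc, rfl⟩ := h1
    have h2 := hC hc
    rw [← map_pow, show c ^ p = 1 from Subtype.ext (hcent c (fun x hx =>
      ((Subgroup.mem_centralizer_iff.1 h2.2) x hx).symm) (hker c h2.1)), map_one]

end CA.KPR

namespace CA.KPR

theorem range_eq {α : Type*} (G : Subgroup (Equiv.Perm α)) : (toPermHom G α).range = G := by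
  ext g
  exact ⟨by rintro ⟨x, rfl⟩; exact x.2, fun h => ⟨⟨g, h⟩, rfl⟩⟩

theorem kpr {α : Type*} [Fintype α] [DecidableEq α] (G : Subgroup (Equiv.Perm α)) {k p r : ℕ}
    (hp : p.Prime) (hn : Fintype.card α = k * p + r) (hk : 1 ≤ k) (hpk : k < p) (hrk : k < r)
    (hex : ¬ (k = 1 ∧ r = 2)) (hG : MulAction.IsMultiplyPretransitive G α (r + 1)) :
    alternatingGroup α ≤ G := by
  have hn' : Nat.card α = r + k * p := by rw [Nat.card_eq_fintype_card]; omega
  by_cases hcase : k = 1 ∨ (k = 2 ∧ p ≠ 3) ∨ 5 ≤ r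
  · rw [← range_eq G]
    exact core hp hn' hk hpk hrk (by omega) hcase hG
  by_cases h3 : k = 3
  · subst h3
    obtain rfl : r = 4 := by omega
    rw [← range_eq G]
    exact alt_le_of_five hG hp hpk (Or.inr rfl) hn'
  obtain rfl : k = 2 := by omega
  obtain rfl : p = 3 := by omega
  by_contra hcon
  have hsharp : ∀ x : Fin (r + 1) ↪ α, stabilizer G x = ⊥ := by
    intro x
    rw [eq_bot_iff]
    intro g hg
    by_contra hg1
    refine hcon (alt_le_of_support_lt G (k := r + 1) (by omega) (by omega) hG g g.2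
      (fun e => hg1 (Subtype.ext e))
      ((Finset.card_le_card (t := (Finset.univ.map x)ᶜ) fun z hz => ?_).trans_lt ?_))
    · rw [Finset.mem_compl, Finset.mem_map]
      rintro ⟨i, -, rfl⟩
      exact Equiv.Perm.mem_support.1 hz (DFunLike.congr_fun (mem_stabilizer_iff.1 hg) i)
    · rw [Finset.card_compl, Finset.card_map, Finset.card_univ, Fintype.card_fin]
      omega
  obtain rfl | rfl : r = 3 ∨ r = 4 := by omega
  · have := (card_of_sharp_four hG hsharp
      (Function.Embedding.nonempty_of_card_le (by rw [Fintype.card_fin]; omega))).2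
    omega
  · have := card_of_sharp_five hG hsharp (by omega)
    omega

end CA.KPR
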