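import Mathlib
import Cfsg.Agent.Lib.Perm.Hall4
import Cfsg.Agent.Lib.Perm.SubA8
import Cfsg.Agent.S0743
import Cfsg.Agent.S0744

/-! The Livingstone–Wagner theorems. -/

open MulAction CA.PermBasic CA.PermMulti CA.PermJordan CA.Hall4
open scoped Pointwise

namespace CA.LW
universe u
variable {α : Type*} [Fintype α] [DecidableEq α] {G : Subgroup (Equiv.Perm α)}

omit [Fintype α] in
theorem hom_iff {k : ℕ} : IsPretransitive G (Set.powersetCard α k) ↔
    ∀ s t : Finset α, s.card = k → t.card = k → ∃ g : G, g • s = t := homog_iff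

theorem coprime_choose {p a k : ℕ} (hp : p.Prime) (h : p ^ a ∣ k) :
    (p ^ a).Coprime ((k + (p ^ a - 1)).choose (p ^ a - 1)) := by
  refine Nat.Coprime.pow_left _ ((hp.coprime_iff_not_dvd).2 fun h1 => hp.one_lt.ne' (Nat.dvd_one.1 ?_))
  rw [Nat.add_choose_eq, ← Finset.add_sum_erase _ _ (a := (0, p ^ a - 1)) (by simp),
    Nat.choose_zero_right, Nat.choose_self] at h1
  refine (Nat.dvd_add_left (Finset.dvd_sum ?_)).1 h1
  rintro ⟨i, j⟩ hij
  have h5 : i + j = p ^ a - 1 := by simpa using Finset.mem_of_mem_erase hij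
  have h6 : i ≠ 0 := by rintro rfl; exact Finset.ne_of_mem_erase hij (by simpa using h5)
  refine Dvd.dvd.mul_right (?_ : p ∣ k.choose i) _
  obtain ⟨i, rfl⟩ : ∃ i', i = i' + 1 := ⟨i - 1, by omega⟩
  have h0 := pow_pos hp.pos a
  by_contra h2
  rcases k with _ | k
  · simp at h2
  have h3 : p ^ a ∣ (k + 1).choose (i + 1) * (i + 1) := by
    rw [← Nat.add_one_mul_choose_eq]; exact h.mul_right _
  have := Nat.le_of_dvd (by omega) ((Nat.Coprime.pow_left _
    ((hp.coprime_iff_not_dvd).2 h2)).dvd_of_dvd_mul_left h3)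
  omega

theorem wiel {k : ℕ} (hk : 2 ≤ k) (hG : IsPretransitive G (Set.powersetCard α k))
    (hq : ∀ q : ℕ, IsPrimePow q → q ∣ k → k + q - 1 ≤ Fintype.card α) :
    IsPretransitive G (Set.powersetCard α (k - 1)) := by
  classical
  rw [hom_iff] at hG ⊢
  intro s t hs ht
  obtain ⟨k, rfl⟩ : ∃ j, k = j + 1 := ⟨k - 1, by omega⟩
  simp only [Nat.add_sub_cancel] at hs ht
  let O : Finset α → Finset (Finset α) := fun B =>
    (B.powersetCard k).filter fun A => ∃ g : G, g • s = A
  have ext : ∀ A : Finset α, A.card = k → ∃ K, A ⊆ K ∧ K.card = k + 1 := fun A hA => by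
    have := hq _ (Nat.minFac_prime (by omega)).isPrimePow (Nat.minFac_dvd _)
    have := (Nat.minFac_prime (show k + 1 ≠ 1 by omega)).two_le
    exact Finset.exists_superset_card_eq (by omega) (by omega)
  obtain ⟨K, hK, hK'⟩ := ext t ht
  have cO : ∀ L : Finset α, L.card = k + 1 → (O L).card = (O K).card := fun L hL => by
    obtain ⟨g, rfl⟩ := hG K L hK' hL
    refine (Finset.card_equiv (toPerm g) fun A => ?_).symm
    simp only [O, Finset.mem_filter, Finset.mem_powersetCard, toPerm_apply,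
      Finset.smul_finset_subset_smul_finset_iff, Finset.card_smul_finset]
    exact and_congr_right fun _ => ⟨fun ⟨h, e⟩ => ⟨g * h, by rw [mul_smul, e]⟩,
      fun ⟨h, e⟩ => ⟨g⁻¹ * h, by rw [mul_smul, e, inv_smul_smul]⟩⟩
  have hd : k + 1 ∣ (O K).card := by
    rw [Nat.dvd_iff_prime_pow_dvd_dvd]
    intro p a hp h
    rcases a.eq_zero_or_pos with rfl | ha
    · simp
    have h0 := pow_pos hp.pos a
    obtain ⟨B, -, hB⟩ := Finset.exists_subset_card_eq (s := (Finset.univ : Finset α))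
      (hq _ (hp.isPrimePow.pow ha.ne') h)
    have := Finset.card_mul_eq_card_mul (s := B.powersetCard (k + 1)) (t := O B)
      (fun L A => A ⊆ L) (m := (O K).card) (n := p ^ a) (fun L hL => by
        rw [← cO L (Finset.mem_powersetCard.1 hL).2]
        congr 1
        ext A
        simp only [Finset.mem_bipartiteAbove, O, Finset.mem_filter, Finset.mem_powersetCard]
        exact ⟨fun h => ⟨⟨h.2, h.1.1.2⟩, h.1.2⟩,
          fun h => ⟨⟨⟨h.1.1.trans (Finset.mem_powersetCard.1 hL).1, h.1.2⟩, h.2⟩, h.1.1⟩⟩)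
      (fun A hA => by
        obtain ⟨hA1, hA2⟩ := Finset.mem_powersetCard.1 (Finset.mem_filter.1 hA).1
        rw [show p ^ a = (B \ A).card by rw [Finset.card_sdiff_of_subset hA1]; omega]
        refine (Finset.card_bij (fun x _ => insert x A) (fun x hx => ?_) (fun x hx y _ e => ?_)
          fun L hL => ?_).symm
        · rw [Finset.mem_sdiff] at hx
          simp only [Finset.mem_bipartiteBelow, Finset.mem_powersetCard]
          exact ⟨⟨Finset.insert_subset hx.1 hA1, by rw [Finset.card_insert_of_notMem hx.2, hA2]⟩,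
            Finset.subset_insert _ _⟩
        · exact (Finset.insert_inj (Finset.mem_sdiff.1 hx).2).1 e
        · simp only [Finset.mem_bipartiteBelow, Finset.mem_powersetCard] at hL
          obtain ⟨x, hx, rfl⟩ := (Finset.exists_eq_insert_iff).2 ⟨hL.2, by omega⟩
          exact ⟨x, Finset.mem_sdiff.2 ⟨hL.1.1 (Finset.mem_insert_self _ _), hx⟩, rfl⟩)
    rw [Finset.card_powersetCard, hB, Nat.add_sub_assoc h0, Nat.choose_symm_add] at this
    exact (coprime_choose hp h).dvd_of_dvd_mul_left (this ▸ dvd_mul_left _ _)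
  obtain ⟨L, hL, hL'⟩ := ext s hs
  have h0 : 0 < (O K).card := by
    rw [← cO L hL']
    exact Finset.card_pos.2 ⟨s, Finset.mem_filter.2 ⟨Finset.mem_powersetCard.2 ⟨hL, hs⟩, 1, one_smul _ _⟩⟩
  have e : O K = K.powersetCard k := Finset.eq_of_subset_of_card_le (Finset.filter_subset _ _) (by
    rw [Finset.card_powersetCard, hK', Nat.choose_succ_self_right]; exact Nat.le_of_dvd h0 hd)
  have : t ∈ O K := e ▸ Finset.mem_powersetCard.2 ⟨hK, ht⟩
  exact (Finset.mem_filter.1 this).2

variable (G) in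
/-- The permutations induced on a family of points. -/
def Ind {β : Type*} (e : β → α) : Subgroup (Equiv.Perm β) where
  carrier := {σ | ∃ g : G, ∀ i, g • e i = e (σ i)}
  one_mem' := ⟨1, fun _ => rfl⟩
  mul_mem' := fun ⟨g, hg⟩ ⟨h, hh⟩ => ⟨g * h, fun i => by rw [mul_smul, hh, hg]; rfl⟩
  inv_mem' := fun {σ} ⟨g, hg⟩ => ⟨g⁻¹, fun i => by rw [inv_smul_eq_iff, hg]; simp⟩

omit [Fintype α] [DecidableEq α] in
theorem ind_equiv {β γ : Type*} [Fintype β] [DecidableEq β] [Fintype γ] [DecidableEq γ] {e : β → α}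
    (h : alternatingGroup β ≤ Ind G e) (φ : γ ≃ β) : alternatingGroup γ ≤ Ind G (e ∘ φ) := fun σ hσ => by
  obtain ⟨g, hg⟩ := h (x := φ.permCongr σ) (by simpa using hσ)
  exact ⟨g, fun i => by simpa using hg (φ i)⟩

theorem top_of_swap {β : Type*} [Fintype β] [DecidableEq β] {K : Subgroup (Equiv.Perm β)} (a : β)
    (h : ∀ x, x ≠ a → Equiv.swap a x ∈ K) : K = ⊤ := by
  have h' : ∀ x, Equiv.swap a x ∈ K := fun x => by
    by_cases hx : x = a
    · rw [hx, Equiv.swap_self]; exact K.one_mem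
    · exact h x hx
  rw [eq_top_iff, ← Equiv.Perm.closure_isSwap, Subgroup.closure_le]
  rintro _ ⟨x, y, hxy, rfl⟩
  by_cases hx : x = a
  · rw [hx]; exact h' y
  · rw [Equiv.swap_comm, ← Equiv.swap_mul_swap_mul_swap hx hxy, Equiv.swap_comm x a]
    exact K.mul_mem (K.mul_mem (h' y) (h' x)) (h' y)

omit [Fintype α] in
theorem swap_mem {Δ : Finset α} {a b : Δ} {g : G} (h1 : g • (a : α) = b) (h2 : g • (b : α) = a)
    (h3 : ∀ x ∈ Δ, x ≠ a → x ≠ b → g • x = x) : Equiv.swap a b ∈ Ind G (Subtype.val : Δ → α) := by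
  refine ⟨g, fun i => ?_⟩
  rw [Equiv.swap_apply_def]
  split_ifs with e1 e2
  · rwa [e1]
  · rwa [e2]
  · exact h3 i i.2 (fun e => e1 (Subtype.ext e)) fun e => e2 (Subtype.ext e)

omit [Fintype α] in
theorem mpt_of_hom {k : ℕ} (hG : IsPretransitive G (Set.powersetCard α k)) {Δ : Finset α}
    (hΔ : Δ.card = k) (h : Ind G (Subtype.val : Δ → α) = ⊤) : IsMultiplyPretransitive G α k := by
  rw [hom_iff] at hG
  refine mpt_of_perm fun s hs σ => ?_
  obtain ⟨g, hg⟩ := hG s Δ hs hΔ
  obtain ⟨g', hg'⟩ := hG (σ • s) Δ (by rwa [Finset.card_smul_finset]) hΔ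
  have : ∀ x, ((g' : Equiv.Perm α) * σ * (g⁻¹ : G)) x ∈ Δ ↔ x ∈ Δ := fun x => by
    change g' • σ • g⁻¹ • x ∈ Δ ↔ _
    conv_lhs => rw [← hg']
    rw [Finset.smul_mem_smul_finset_iff, Finset.smul_mem_smul_finset_iff, Finset.inv_smul_mem_iff, hg]
  obtain ⟨c, hc⟩ : Equiv.Perm.subtypePerm _ this ∈ Ind G (Subtype.val : Δ → α) :=
    h ▸ Subgroup.mem_top _
  refine ⟨g'⁻¹ * c * g, fun x hx => ?_⟩
  have := hc ⟨g • x, hg ▸ Finset.smul_mem_smul_finset hx⟩
  change _ = g' • σ • g⁻¹ • g • x at this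
  rw [mul_smul, mul_smul, inv_smul_eq_iff, this, inv_smul_smul]
  rfl

theorem conj_fix {k : ℕ} (h : IsMultiplyPretransitive G α k) {u : G} (hu : k ≤ (fixedBy α u).ncard)
    (s : Finset α) (hs : s.card = k) : ∃ g : G, ∀ x ∈ s, (g * u * g⁻¹) • x = x := by
  obtain ⟨t, ht, ht'⟩ := Finset.exists_subset_card_eq (s := (fixedBy α u).toFinset) (n := k)
    (by rwa [← Set.ncard_eq_toFinset_card'])
  obtain ⟨g, hg⟩ := homog_iff.1 (Set.powersetCard.isPretransitive_of_isMultiplyPretransitive _ h)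
    t s ht' hs
  refine ⟨g, fun x hx => ?_⟩
  rw [← hg, ← Finset.inv_smul_mem_iff] at hx
  rw [mul_smul, mul_smul, mem_fixedBy.1 (Set.mem_toFinset.1 (ht hx)), smul_inv_smul]

theorem full {j : ℕ} (h : IsMultiplyPretransitive G α (j + 1))
    (hs : ∀ g : G, j + 2 ≤ (fixedBy α g).ncard → g = 1) {u : G} (u1 : u ≠ 1) (u2 : u * u = 1)
    (hu : j + 1 ≤ (fixedBy α u).ncard) (Δ : Finset α) (hΔ : Δ.card = j + 2) :
    Ind G (Subtype.val : Δ → α) = ⊤ := by
  obtain ⟨a, ha⟩ := Finset.card_pos.1 (show 0 < Δ.card by omega)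
  refine top_of_swap ⟨a, ha⟩ fun ⟨b, hb⟩ hab => ?_
  have hab : b ≠ a := fun e => hab (Subtype.ext e)
  obtain ⟨s, hs0⟩ : ∃ s, s = (Δ.erase a).erase b := ⟨_, rfl⟩
  have cs : s.card = j := by
    rw [hs0, Finset.card_erase_of_mem (Finset.mem_erase.2 ⟨hab, hb⟩), Finset.card_erase_of_mem ha]
    omega
  have two : ∀ (g : G) (x y : α), x ∉ s → y ∉ s → x ≠ y → (∀ z ∈ s, g • z = z) → g • x = x →
      g • y = y → g = 1 := fun g x y hx hy hxy h1 h2 h3 => hs g (by
    have := Set.ncard_le_ncard (s := (↑(insert x (insert y s)) : Set α)) (t := fixedBy α g) (by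
      intro z hz
      simp only [Finset.coe_insert, Set.mem_insert_iff, Finset.mem_coe] at hz
      rcases hz with rfl | rfl | hz
      exacts [h2, h3, h1 z hz])
    rwa [Set.ncard_coe_finset, Finset.card_insert_of_notMem (by simp [hx, hxy]),
      Finset.card_insert_of_notMem hy, cs] at this)
  have ex : ∀ z : {z // z ∉ s ∧ z ≠ a}, ∃ v : G, v ≠ 1 ∧ v * v = 1 ∧ (∀ x ∈ s, v • x = x) ∧
      v • z.1 = z.1 := fun z => by
    obtain ⟨g, hg⟩ := conj_fix h hu (insert z.1 s) (by rw [Finset.card_insert_of_notMem z.2.1, cs])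
    exact ⟨g * u * g⁻¹, by simpa using u1, by
      rw [show g * u * g⁻¹ * (g * u * g⁻¹) = g * (u * u) * g⁻¹ by group, u2]; simp,
      fun x hx => hg x (Finset.mem_insert_of_mem hx), hg _ (Finset.mem_insert_self _ _)⟩
  choose v v1 v2 v3 v4 using ex
  have as : a ∉ s := by simp [hs0]
  have vv : ∀ z (x : α), v z • v z • x = x := fun z x => by rw [smul_smul, v2, one_smul]
  have m : ∀ z, v z • a ∉ s ∧ v z • a ≠ a := fun z => ⟨fun h => as (by
    rwa [smul_left_cancel _ (v3 z _ h)] at h), fun h => v1 z (two _ _ _ as z.2.1 z.2.2.symm (v3 z) h (v4 z))⟩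
  obtain ⟨z, hz⟩ := Finite.surjective_of_injective (f := fun z => (⟨v z • a, m z⟩ : {z // z ∉ s ∧ z ≠ a}))
    (fun z w e => by
      have e : v z • a = v w • a := congrArg Subtype.val e
      have e2 := two (v z * v w) _ _ as (m z).1 (m z).2.symm
        (fun x hx => by rw [mul_smul, v3 w x hx, v3 z x hx]) (by rw [mul_smul, ← e, vv])
        (by rw [mul_smul, e, vv, e])
      have e3 : v z = v w := mul_left_cancel ((v2 z).trans e2.symm)
      by_contra hne
      exact v1 z (two _ _ _ z.2.1 w.2.1 (fun e => hne (Subtype.ext e)) (v3 z) (v4 z) (e3 ▸ v4 w)))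
    ⟨b, by simp [hs0], hab⟩
  have hz : v z • a = b := congrArg Subtype.val hz
  exact swap_mem hz (show v z • b = a by rw [← hz, vv]) fun x hx h1 h2 => v3 z x (by simp [hs0, hx, h1, h2])

theorem prime_deg {H X : Type*} [Group H] [MulAction H X] [FaithfulSMul H X] [IsPretransitive H X]
    {p : ℕ} (hp : p.Prime) (hX : Nat.card X = p) :
    ∃ d m, d ∣ p - 1 ∧ m % p = 1 ∧ Nat.card H = p * d * m := by
  have := Fact.mk hp
  have := CA.PrimeDeg.finite_of_card hX
  have := finite_of_faithful (G := H) (X := X)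
  obtain ⟨P⟩ : Nonempty (Sylow p H) := inferInstance
  obtain ⟨d, d1, d2⟩ := CA.PrimeDeg.card_normalizer hX P
  exact ⟨d, Nat.card (Sylow p H), d1, Eq.trans (card_sylow_modEq_one p H) (Nat.mod_eq_of_lt hp.one_lt), by
    rw [← d2, P.card_eq_index_normalizer]; exact (Subgroup.card_mul_index _).symm⟩

theorem prime_deg' (h : IsMultiplyPretransitive G α 2) {p : ℕ} (hp : p.Prime)
    (hX : Fintype.card α = p + 1) :
    ∃ d m, d ∣ p - 1 ∧ m % p = 1 ∧ Nat.card G = (p + 1) * (p * d * m) := by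
  rw [← Nat.card_eq_fintype_card] at hX
  have := hp.two_le
  have : IsPretransitive G α := is_one_pretransitive_iff.1 (mpt_of_le h (by norm_num) (by omega))
  obtain ⟨a⟩ : Nonempty α := (Nat.card_pos_iff.1 (by omega)).1
  have := faithful_stab (G := G) a
  have := pretransitive_stab_iff.2 ((two_iff_stab a).1 h)
  obtain ⟨d, m, h1, h2, h3⟩ := prime_deg (H := stabilizer G a) (X := SubMulAction.ofStabilizer G a)
    hp (by rw [SubMulAction.nat_card_ofStabilizer_eq]; omega)
  exact ⟨d, m, h1, h2, by rw [card_eq_card_mul_card_stabilizer a, hX, h3]⟩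

theorem choose_dvd {k : ℕ} (hG : IsPretransitive G (Set.powersetCard α k))
    (hk : k ≤ Fintype.card α) : (Fintype.card α).choose k ∣ Nat.card G := by
  obtain ⟨s, -, hs⟩ := Finset.exists_subset_card_eq (s := (Finset.univ : Finset α)) hk
  have : Nonempty (Set.powersetCard α k) := ⟨⟨s, hs⟩⟩
  have := card_dvd_card (G := G) (X := Set.powersetCard α k)
  rwa [Set.powersetCard.card, Nat.card_eq_fintype_card] at this

omit [Fintype α] in
theorem card_fix {k : ℕ} (hG : IsPretransitive G (Set.powersetCard α k)) {s t : Finset α}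
    (hs : s.card = k) (ht : t.card = k) :
    Nat.card (fixingSubgroup G (s : Set α)) = Nat.card (fixingSubgroup G (t : Set α)) := by
  obtain ⟨g, hg⟩ := hom_iff.1 hG s t hs ht
  exact Nat.card_congr (SubMulAction.fixingSubgroupEquivFixingSubgroup (g := g)
    (by rw [← hg, Finset.coe_smul_finset])).toEquiv

set_option synthInstance.maxSize 2000 in
theorem num1 : ∀ c < 25, ∀ t < 62, 2 ≤ c → t % 2 = 1 → c ∣ 2 → c * (c * t - 1) ∣ 6 →
    c = 2 ∧ t = 1 := by decide +kernel

set_option synthInstance.maxSize 2000 in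
theorem num2 : ∀ c < 25, ∀ t < 62, 2 ≤ c → t % 2 = 1 → c ∣ 6 → c * (c * t - 1) ∣ 24 →
    (c, t) ∈ [(2, 1), (3, 1), (3, 3)] := by decide +kernel

set_option synthInstance.maxSize 2000 in
theorem num3 : ∀ c < 25, ∀ t < 62, 2 ≤ c → t % 2 = 1 → c ∣ 24 → c * (c * t - 1) ∣ 120 →
    (c, t) ∈ [(2, 1), (2, 3), (3, 1), (3, 3), (3, 7), (4, 1), (6, 1)] := by decide +kernel

theorem lw {j : ℕ} (hj : 1 ≤ j) (hkn : j + 2 ≤ Fintype.card α) (ht : IsMultiplyPretransitive G α j)
    (hnt : ¬ IsMultiplyPretransitive G α (j + 1))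
    (hh1 : IsPretransitive G (Set.powersetCard α (j + 1)))
    (hh : IsPretransitive G (Set.powersetCard α (j + 2))) :
    (j + 2 = Fintype.card α ∧ G = alternatingGroup α) ∨
      (Fintype.card α = 5 ∧ j = 2 ∧ Nat.card G = 20) ∨ (Fintype.card α = 6 ∧ j = 3 ∧ Nat.card G = 120) ∨
      (Fintype.card α = 9 ∧ j = 3 ∧ (Nat.card G = 504 ∨ Nat.card G = 1512)) := by
  have hn := Nat.card_eq_fintype_card (α := α)
  have ex : ∀ i ≤ j + 2, ∃ s : Finset α, s.card = i := fun i hi =>
    (Finset.exists_subset_card_eq (s := (Finset.univ : Finset α)) (hi.trans hkn)).imp fun _ h => h.2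
  have hs : ∀ g : G, j + 1 ≤ (fixedBy α g).ncard → g = 1 := fun g hg => by
    obtain ⟨t, ht, ht'⟩ := Finset.exists_subset_card_eq (s := (fixedBy α g).toFinset) (n := j + 1)
      (by rwa [← Set.ncard_eq_toFinset_card'])
    obtain ⟨s, hs⟩ := ex _ le_rfl
    by_contra h1
    refine hnt (Cfsg.Agent.S0744.result G (k := j + 2) (by omega) hkn _ _ ?_
      (fun s hs => card_fix hh1 hs ht') fun t ht => card_fix hh ht hs)
    exact (Subgroup.one_lt_card_iff_ne_bot _).2 fun e => h1 (Subgroup.mem_bot.1 (e ▸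
      (mem_fixingSubgroup_iff G).2 fun y hy => mem_fixedBy.1 (Set.mem_toFinset.1 (ht hy))))
  have hi : ∀ u : G, u ≠ 1 → u * u = 1 → (fixedBy α u).ncard < j := fun u u1 u2 => by
    by_contra h
    obtain ⟨i, rfl⟩ : ∃ i, j = i + 1 := ⟨j - 1, by omega⟩
    obtain ⟨s, hs'⟩ := ex (i + 2) (by omega)
    exact hnt (mpt_of_hom hh1 hs' (full ht hs u1 u2 (by omega) s hs'))
  have : Nontrivial α := Fintype.one_lt_card_iff_nontrivial.1 (by omega)
  have hA : alternatingGroup α ≤ G → j + 2 = Fintype.card α ∧ G = alternatingGroup α := fun h => by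
    refine ⟨by_contra fun h1 => hnt (CA.Neumann3.mpt_of_alt_le (fun σ hσ => ⟨⟨σ, h hσ⟩, rfl⟩)
      (by omega)), (eq_or_top h).resolve_right ?_⟩
    rintro rfl
    exact hnt (mpt_of_perm fun s _ σ => ⟨⟨σ, trivial⟩, fun _ _ => rfl⟩)
  have d1 := choose_dvd hh1 (by omega)
  by_cases h4 : 4 ≤ j
  · obtain ⟨i, rfl⟩ : ∃ i, j = i + 4 := ⟨j - 4, by omega⟩
    rcases hallk G ht (by omega) (fun u u1 u2 => by have := hi u u1 u2; omega) with h | ⟨h1, h2⟩
    · exact Or.inl (hA h.2)
    exfalso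
    have h3 : ∀ x : Fin (i + 4) ↪ α, stabilizer G x = ⊥ := sharp_of_finset fun s hs g hg => h2 g (by
      rw [← hs, ← Set.ncard_coe_finset]; exact Set.ncard_le_ncard hg)
    have h5 := CA.Sharp4.card_eq_descFactorial ht h3 (by omega)
    rw [h5, hn, h1] at d1
    rcases i with _ | _ | i
    · revert d1; decide +kernel
    · revert d1; decide +kernel
    · have := CA.Sharp4.card_of_sharp_six_le i G α ht h3 (by omega)
      omega
  obtain ⟨s, cs⟩ := ex j (by omega)
  have e1 := ht.index_of_fixingSubgroup_mul (s := (s : Set α)) (by simpa using cs)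
  have e2 := (fixingSubgroup G (s : Set α)).card_mul_index
  have reg : ∀ g ∈ fixingSubgroup G (s : Set α), ∀ x ∈ (s : Set α)ᶜ, g • x = x → g = 1 :=
    fun g hg x hx h => hs g (by
      rw [← cs, ← Finset.card_insert_of_notMem hx, ← Set.ncard_coe_finset]
      refine Set.ncard_le_ncard fun y hy => ?_
      rcases Finset.mem_insert.1 hy with rfl | hy
      exacts [h, (mem_fixingSubgroup_iff G).1 hg y hy])
  have inv : ∀ g ∈ fixingSubgroup G (s : Set α), ∀ x ∈ (s : Set α)ᶜ, g • x ∈ (s : Set α)ᶜ :=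
    fun g hg x hx h => hx (by
      rwa [smul_left_cancel g ((mem_fixingSubgroup_iff G).1 hg _ h)] at h)
  have cc : ((s : Set α)ᶜ).ncard = Fintype.card α - j := by
    rw [Set.ncard_compl, hn, Set.ncard_coe_finset, cs]
  obtain ⟨c, hc⟩ := card_dvd_of_semiregular_on _ _ (Set.toFinite _) inv reg
  rw [cc] at hc
  have c1 : c ≠ 1 := by
    rintro rfl
    refine hnt (mpt_add_of_fixing ht (s : Set α) (Set.toFinite _) (by simpa using cs)
      (is_one_pretransitive_iff.2 (pretransitive_fixing_iff.2 fun x y hx hy => ?_)))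
    have h1 := card_orbit_mul_card_stabilizer (G := fixingSubgroup G (s : Set α)) x
    rw [show stabilizer (fixingSubgroup G (s : Set α)) x = ⊥ from eq_bot_iff.2 fun g hg =>
      Subtype.ext (reg g g.2 x hx hg), Subgroup.card_bot, Nat.card_coe_set_eq] at h1
    have := Set.eq_of_subset_of_ncard_le (s := orbit (fixingSubgroup G (s : Set α)) x)
      (t := (s : Set α)ᶜ) (by rintro _ ⟨g, rfl⟩; exact inv g g.2 x hx) (by omega)
    obtain ⟨g, hg⟩ : y ∈ orbit (fixingSubgroup G (s : Set α)) x := this ▸ hy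
    exact ⟨g, (mem_fixingSubgroup_iff G).1 g.2, hg⟩
  have t1 : Nat.card (fixingSubgroup G (s : Set α)) % 2 = 1 := by
    by_contra h
    obtain ⟨u, hu⟩ := exists_prime_orderOf_dvd_card' (G := fixingSubgroup G (s : Set α)) 2 (by omega)
    refine (hi u (fun e => by rw [show u = 1 from Subtype.ext e] at hu; simp at hu) (by
      rw [← Subgroup.coe_mul, ← sq, ← hu, pow_orderOf_eq_one]; rfl)).not_ge ?_
    rw [← cs, ← Set.ncard_coe_finset]
    exact Set.ncard_le_ncard ((mem_fixingSubgroup_iff G).1 u.2)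
  have d2 := choose_dvd hh hkn
  generalize Nat.card (fixingSubgroup G (s : Set α)) = t at *
  generalize (fixingSubgroup G (s : Set α)).index = I at *
  rw [hn] at e1
  obtain ⟨m, hm⟩ : ∃ m, Fintype.card α = m + (j + 2) := ⟨_, (Nat.sub_add_cancel hkn).symm⟩
  have f1 := Nat.add_choose_mul_factorial_mul_factorial (m + 1) (j + 1)
  have f2 := Nat.add_choose_mul_factorial_mul_factorial m (j + 2)
  rw [hm, show m + (j + 2) - j = m + 1 + 1 by omega] at e1 hc
  rw [show m + 1 + (j + 1) = m + (j + 2) by omega] at f1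
  obtain ⟨D, hD⟩ := d1
  obtain ⟨E, hE⟩ := d2
  have t0 : 0 < t := by omega
  have hG : 0 < Nat.card G := Nat.card_pos
  rw [hm] at hD hE
  have a1 : c ∣ (j + 1).factorial := ⟨D, by
    have p1 : 0 < (m + (j + 2)).choose (j + 1) := Nat.choose_pos (by omega)
    refine Nat.eq_of_mul_eq_mul_left (Nat.mul_pos p1 (Nat.factorial_pos (m + 1))) ?_
    rw [f1, ← e1, Nat.factorial_succ (m + 1), hc]
    linear_combination (c * (m + 1).factorial) * (e2.trans hD)⟩
  have a2 : c * (c * t - 1) ∣ (j + 2).factorial := ⟨E, by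
    have p1 : 0 < (m + (j + 2)).choose (j + 2) := Nat.choose_pos (by omega)
    refine Nat.eq_of_mul_eq_mul_left (Nat.mul_pos p1 (Nat.factorial_pos m)) ?_
    rw [f2, ← e1, Nat.factorial_succ (m + 1), Nat.factorial_succ m, mul_comm c t, ← hc,
      Nat.add_sub_cancel]
    nth_rw 1 [hc]
    linear_combination (c * (m + 1) * m.factorial) * (e2.trans hE)⟩
  have hi2 : m = 0 → t = 1 → j + 2 = Fintype.card α ∧ G = alternatingGroup α := by
    rintro rfl rfl
    refine ⟨by omega, Equiv.Perm.eq_alternatingGroup_of_index_eq_two ?_⟩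
    have := G.card_mul_index
    rw [Nat.card_perm, hn, hm, ← e1, ← e2, one_mul] at this
    exact Nat.eq_of_mul_eq_mul_left (by omega) this
  have c2 : 2 ≤ c := by
    rcases c with _ | _ | c <;> omega
  clear hD hE f1 f2 hi hs reg inv cc ex hA
  have b1 := Nat.le_of_dvd (Nat.factorial_pos _) a1
  have b2 := Nat.le_of_dvd (Nat.factorial_pos _) a2
  have b3 := Nat.mul_le_mul_right (c * t - 1) c2
  have b4 := Nat.mul_le_mul_right t c2
  have j3 : j = 1 ∨ j = 2 ∨ j = 3 := by omega
  rcases j3 with rfl | rfl | rfl <;> norm_num [Nat.factorial] at b1 b2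
  · obtain ⟨rfl, rfl⟩ := num1 c (by omega) t (by omega) c2 t1 a1 a2
    exact Or.inl (hi2 (by omega) rfl)
  · have := num2 c (by omega) t (by omega) c2 t1 a1 a2
    simp only [List.mem_cons, Prod.mk.injEq, List.not_mem_nil, or_false] at this
    rcases this with ⟨rfl, rfl⟩ | ⟨rfl, rfl⟩ | ⟨rfl, rfl⟩
    · exact Or.inl (hi2 (by omega) rfl)
    · obtain rfl : m = 1 := by omega
      norm_num [Nat.factorial] at e1
      omega
    · obtain rfl : m = 7 := by omega
      norm_num [Nat.factorial] at e1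
      have : IsPretransitive G α := is_one_pretransitive_iff.1 (mpt_of_le ht (by norm_num) (by omega))
      obtain ⟨d, k, h1, h2, h3⟩ := prime_deg (H := G) (X := α) (p := 11) (by norm_num) (by omega)
      have := Nat.le_of_dvd (by norm_num) h1
      interval_cases d <;> omega
  · have := num3 c (by omega) t (by omega) c2 t1 a1 a2
    simp only [List.mem_cons, Prod.mk.injEq, List.not_mem_nil, or_false] at this
    have h2 := mpt_of_le (m := 2) ht (by norm_num) (by omega)
    rcases this with ⟨rfl, rfl⟩ | ⟨rfl, rfl⟩ | ⟨rfl, rfl⟩ | ⟨rfl, rfl⟩ | ⟨rfl, rfl⟩ | ⟨rfl, rfl⟩ |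
      ⟨rfl, rfl⟩
    · exact Or.inl (hi2 (by omega) rfl)
    · obtain rfl : m = 4 := by omega
      norm_num [Nat.factorial] at e1
      omega
    · obtain rfl : m = 1 := by omega
      norm_num [Nat.factorial] at e1
      omega
    · obtain rfl : m = 7 := by omega
      norm_num [Nat.factorial] at e1
      obtain ⟨d, k, h1, h2, h3⟩ := prime_deg' h2 (p := 11) (by norm_num) (by omega)
      have := Nat.le_of_dvd (by norm_num) h1
      interval_cases d <;> omega
    · obtain rfl : m = 19 := by omega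
      norm_num [Nat.factorial] at e1
      obtain ⟨d, k, h1, h2, h3⟩ := prime_deg' h2 (p := 23) (by norm_num) (by omega)
      have := Nat.le_of_dvd (by norm_num) h1
      interval_cases d <;> omega
    · obtain rfl : m = 2 := by omega
      norm_num [Nat.factorial] at e1
      exfalso
      have : IsPretransitive G α := is_one_pretransitive_iff.1 (mpt_of_le ht (by norm_num) (by omega))
      have := Fact.mk (by norm_num : Nat.Prime 7)
      by_cases hs : Group.IsSolvable G
      · obtain ⟨P⟩ : Nonempty (Sylow 7 G) := inferInstance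
        have := (CA.PrimeDeg.isSolvable_iff (α := α) (by omega) P).1 hs
        obtain ⟨d, d1, d2⟩ := CA.PrimeDeg.card_normalizer (α := α) (by omega) P
        rw [Subgroup.normalizer_eq_top, Subgroup.card_top] at d2
        have := Nat.le_of_dvd (by norm_num) d1
        omega
      by_cases hA : alternatingGroup α ≤ G
      · have := Nat.le_of_dvd (by omega) (CA.Sharp4.factorial_le_of_alt_le hA)
        rw [hm] at this
        norm_num [Nat.factorial] at this
        omega
      · have := (CA.SubA8.deg7 hm G hs hA).1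
        omega
    · obtain rfl : m = 4 := by omega
      norm_num [Nat.factorial] at e1
      omega

theorem hom_le {k : ℕ} (hkn : 2 * k ≤ Fintype.card α) (hG : IsPretransitive G (Set.powersetCard α k))
    {j : ℕ} (hj : 1 ≤ j) (hjk : j ≤ k) : IsPretransitive G (Set.powersetCard α j) := by
  induction hjk using Nat.decreasingInduction with
  | self => exact hG
  | of_succ j h ih =>
    exact wiel (k := j + 1) (by omega) (ih (by omega)) fun q _ hq => by
      have := Nat.le_of_dvd (by omega) hq; omega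

theorem lw1 {k : ℕ} (hk : 2 ≤ k) (hkn : 2 * k ≤ Fintype.card α)
    (hG : IsPretransitive G (Set.powersetCard α k)) : IsMultiplyPretransitive G α (k - 1) := by
  have key : ∀ j, 1 ≤ j → j + 1 ≤ k → IsMultiplyPretransitive G α j := fun j hj => by
    induction j, hj using Nat.le_induction with
    | base =>
      refine fun _ => is_one_pretransitive_iff.2 ⟨fun x y => ?_⟩
      obtain ⟨g, hg⟩ := hom_iff.1 (hom_le hkn hG le_rfl (by omega)) {x} {y} rfl rfl
      exact ⟨g, by simpa using hg⟩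
    | succ j hj ih =>
      intro h
      by_contra h1
      have := lw hj (by omega) (ih (by omega)) h1 (hom_le hkn hG (by omega) (by omega))
        (hom_le hkn hG (by omega) h)
      omega
  exact key _ (by omega) (by omega)

theorem m11 {H X : Type*} [Group H] [MulAction H X] [Finite H] [Finite X] [FaithfulSMul H X]
    (h4 : IsMultiplyPretransitive H X 4) (hs : ∀ g : H, 4 ≤ (fixedBy X g).ncard → g = 1)
    (hn : Nat.card X = 11) {a b c d : X} (ab : a ≠ b) (ac : a ≠ c) (ad : a ≠ d) (bc : b ≠ c)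
    (bd : b ≠ d) (cd : c ≠ d) : ∃ e, e ∉ ({a, b, c, d} : Set X) ∧ ∀ g : H,
      (∀ x ∈ ({a, b, c, d} : Set X), g • x ∈ ({a, b, c, d} : Set X)) → g • e = e := by
  have hF : F3 H X := fun g h1 _ => by
    by_contra h
    exact h1 (hs g (by omega))
  have sh : ∀ g h : H, g • a = h • a → g • b = h • b → g • c = h • c → g • d = h • d → g = h :=
    fun g h h1 h2 h3 h4 => by
      rw [← inv_mul_eq_one]
      refine hs _ ((Set.three_lt_ncard_iff).2 ⟨a, b, c, d, ?_, ?_, ?_, ?_, ab, ac, ad, bc, bd, cd⟩) <;>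
        rw [mem_fixedBy, mul_smul, inv_smul_eq_iff] <;> simp only [*]
  obtain ⟨u, u1, u2, u3, u4⟩ := four_iff.1 h4 a b c d b a d c ab ac ad bc bd cd ab.symm bd bc ad ac
    cd.symm
  obtain ⟨v, v1, v2, v3, v4⟩ := four_iff.1 h4 a b c d c d a b ab ac ad bc bd cd cd ac.symm bc.symm
    ad.symm bd.symm ab
  have uu : u * u = 1 := by apply sh <;> simp only [mul_smul, one_smul, *]
  have vv : v * v = 1 := by apply sh <;> simp only [mul_smul, one_smul, *]
  have uv : u * v = v * u := by apply sh <;> simp only [mul_smul, *]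
  have c7 : (({a, b, c, d} : Set X)ᶜ).ncard = 7 := by
    rw [Set.ncard_compl, hn, Set.ncard_insert_of_notMem (by simp [*]),
      Set.ncard_insert_of_notMem (by simp [*]), Set.ncard_pair cd]
  have st : ∀ {w : H}, w * w = 1 → (∀ x ∈ ({a, b, c, d} : Set X), w • x ∈ ({a, b, c, d} : Set X)) →
      ∀ x ∈ ({a, b, c, d} : Set X)ᶜ, w • x ∈ ({a, b, c, d} : Set X)ᶜ := fun {w} h1 h2 x hx h => hx (by
    have := h2 _ h
    rwa [smul_smul, h1, one_smul] at this)
  have m1 := ncard_modEq_fixedBy (p := 2) (g := u) (k := 1) (by simpa [sq] using uu) _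
    (Set.toFinite _) (st uu (by simp [*]))
  have m2 := ncard_modEq_fixedBy (p := 2) (g := v) (k := 1) (by simpa [sq] using vv)
    {x ∈ ({a, b, c, d} : Set X)ᶜ | u • x = x} (Set.toFinite _) fun x hx =>
      ⟨st vv (by simp [*]) x hx.1, by rw [smul_smul, uv, mul_smul, hx.2]⟩
  obtain ⟨e, ⟨e1, e2⟩, e3⟩ : {x ∈ {x ∈ ({a, b, c, d} : Set X)ᶜ | u • x = x} | v • x = x}.Nonempty :=
    Set.nonempty_of_ncard_ne_zero fun e => by
      have := m1.trans m2
      rw [e, c7] at this
      exact absurd this (by decide)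
  have all : ∀ w : H, w * w = 1 → (∀ x ∈ ({a, b, c, d} : Set X), w • x ∈ ({a, b, c, d} : Set X) ∧
      w • x ≠ x) → w • e = e := fun w h1 h2 => by
    have i1 : ∀ x y : X, w • x = y → w • y = x := fun x y h => by rw [← h, smul_smul, h1, one_smul]
    have i2 : ∀ x y z t : X, (∀ s ∈ ({a, b, c, d} : Set X), s = x ∨ s = y ∨ s = z ∨ s = t) →
        z ∈ ({a, b, c, d} : Set X) → z ≠ x → z ≠ y → w • x = y → w • z = t :=
      fun x y z t j1 j2 j3 j4 j5 => by
        rcases j1 _ (h2 z j2).1 with h | h | h | h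
        · exact absurd ((i1 _ _ h).symm.trans j5) j4
        · exact absurd ((i1 _ _ h).symm.trans (i1 _ _ j5)) j3
        · exact absurd h (h2 z j2).2
        · exact h
    rcases (h2 a (by simp)).1 with h | h | h | h
    · exact absurd h (h2 a (by simp)).2
    · have := i2 a b c d (fun s hs => hs) (by simp) ac.symm bc.symm h
      rwa [sh w u (h.trans u1.symm) ((i1 _ _ h).trans u2.symm) (this.trans u3.symm)
        ((i1 _ _ this).trans u4.symm)]
    · have := i2 a c b d (fun s hs => by simp at hs; tauto) (by simp) ab.symm bc h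
      rwa [sh w v (h.trans v1.symm) (this.trans v2.symm) ((i1 _ _ h).trans v3.symm)
        ((i1 _ _ this).trans v4.symm)]
    · have := i2 a d b c (fun s hs => by simp at hs; tauto) (by simp) ab.symm bd h
      rw [sh w (u * v) (by rw [mul_smul, v1, u3]; exact h) (by rw [mul_smul, v2, u4, this])
        (by rw [mul_smul, v3, u1, i1 _ _ this]) (by rw [mul_smul, v4, u2, i1 _ _ h]),
        mul_smul, e3, e2]
  refine ⟨e, e1, fun g hg' => ?_⟩
  have hg : ∀ x, g • x ∈ ({a, b, c, d} : Set X) ↔ x ∈ ({a, b, c, d} : Set X) := fun x => ⟨fun h => by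
    obtain ⟨y, hy, e⟩ := (((Set.toFinite _).injOn_iff_bijOn_of_mapsTo hg').1
      (MulAction.injective g).injOn).surjOn h
    exact smul_left_cancel g e ▸ hy, hg' x⟩
  have cj : ∀ w : H, w * w = 1 → (∀ x ∈ ({a, b, c, d} : Set X), w • x ∈ ({a, b, c, d} : Set X) ∧
      w • x ≠ x) → w • g • e = g • e := fun w h1 h2 => by
    rw [← inv_smul_eq_iff, smul_smul, smul_smul]
    refine all _ (by rw [show g⁻¹ * w * g * (g⁻¹ * w * g) = g⁻¹ * (w * w) * g by group, h1]; simp)
      fun x hx => ?_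
    have := h2 _ ((hg x).2 hx)
    rw [mul_smul, mul_smul, ← hg, smul_inv_smul, Ne, inv_smul_eq_iff]
    exact this
  by_contra hne
  have := claimA hF h4 (by omega) (u := u) (v := v) (by rintro rfl; exact ab (by simpa using u1))
    (by rintro rfl; exact ac (by simpa using v1)) uu vv uv hne
    (cj u uu (by simp [*, ab.symm, cd.symm])) e2 (cj v vv (by simp [*, ac.symm, bd.symm])) e3
  exact bc (by rw [← u1, ← v1, this])

theorem sharp7 {i : ℕ} (h : IsMultiplyPretransitive G α (i + 4))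
    (hs : ∀ g : G, i + 4 ≤ (fixedBy α g).ncard → g = 1) (hn : Fintype.card α = i + 11) :
    ∃ Δ : Finset α, Δ.card = i + 5 ∧ Ind G (Subtype.val : Δ → α) = ⊤ := by
  obtain ⟨Λ, -, hΛ⟩ := Finset.exists_subset_card_eq (s := (Finset.univ : Finset α)) (n := i + 4)
    (by rw [Finset.card_univ]; omega)
  obtain ⟨a, b, c, ha, hb, hc, ab, ac, bc⟩ := Finset.two_lt_card_iff.1 (show 2 < Λ.card by omega)
  obtain ⟨t, ht⟩ := mpt_exists_injOn h Λ hΛ (Equiv.swap a c * Equiv.swap a b) (Equiv.injective _).injOn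
  have t1 : t • a = b := by rw [ht a ha]; simp [Equiv.swap_apply_of_ne_of_ne ab.symm bc]
  have t2 : t • b = c := by rw [ht b hb]; simp
  have t3 : t • c = a := by rw [ht c hc]; simp [Equiv.swap_apply_of_ne_of_ne ac.symm bc.symm]
  have t4 : ∀ x ∈ Λ, x ≠ a → x ≠ b → x ≠ c → t • x = x := fun x hx h1 h2 h3 => by
    rw [ht x hx]; simp [Equiv.swap_apply_of_ne_of_ne, *]
  clear ht
  have t5 : t ^ 3 ^ 1 = 1 := hs _ (by
    rw [← hΛ, ← Set.ncard_coe_finset]
    refine Set.ncard_le_ncard fun x hx => ?_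
    rw [mem_fixedBy, pow_one, pow_succ, sq, mul_smul, mul_smul]
    by_cases h1 : x = a
    · simp only [*]
    by_cases h2 : x = b
    · simp only [*]
    by_cases h3 : x = c
    · simp only [*]
    simp only [t4 x hx h1 h2 h3])
  have := Fact.mk Nat.prime_three
  have m1 := ncard_modEq_fixedBy (X := α) t5 Set.univ (Set.toFinite _) fun _ _ => trivial
  obtain ⟨Φ, hΦ⟩ : ∃ Φ : Finset α, ∀ x, x ∈ Φ ↔ t • x = x :=
    ⟨Finset.univ.filter fun x => t • x = x, by simp⟩
  have e1 : fixedBy α t = Φ := by ext x; simp [hΦ]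
  rw [show {x ∈ (Set.univ : Set α) | t • x = x} = Φ by ext x; simp [hΦ], Set.ncard_univ,
    Nat.card_eq_fintype_card, hn, Set.ncard_coe_finset] at m1
  have l1 : Φ.card < i + 4 := by
    by_contra h1
    have := hs t (by rw [e1, Set.ncard_coe_finset]; omega)
    exact ab (by simpa [this] using t1)
  have l2 := Finset.card_le_card (show ((Λ.erase a).erase b).erase c ⊆ Φ from fun x hx => by
    simp only [Finset.mem_erase] at hx
    exact (hΦ x).2 (t4 x hx.2.2.2 hx.2.2.1 hx.2.1 hx.1))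
  rw [Finset.card_erase_of_mem (by simp [*, ac.symm, bc.symm]),
    Finset.card_erase_of_mem (by simp [*, ab.symm]), Finset.card_erase_of_mem ha, hΛ] at l2
  have cΦ : Φ.card = i + 2 := by unfold Nat.ModEq at m1; omega
  have a1 : a ∉ Φ := fun h => ab (((hΦ a).1 h).symm.trans t1)
  have b1 : b ∉ Φ := fun h => bc (((hΦ b).1 h).symm.trans t2)
  have c1 : c ∉ Φ := fun h => ac (((hΦ c).1 h).symm.trans t3).symm
  refine ⟨insert a (insert b (insert c Φ)), by
    rw [Finset.card_insert_of_notMem (by simp [ab, ac, a1]),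
      Finset.card_insert_of_notMem (by simp [bc, b1]), Finset.card_insert_of_notMem c1, cΦ], top_of_swap ⟨a, by simp⟩ fun ⟨x, hx⟩ xa => ?_⟩
  have xa : x ≠ a := fun e => xa (Subtype.ext e)
  obtain ⟨d, hd, xd⟩ : ∃ d ∈ Φ, x ∈ ({a, b, c, d} : Set α) := by
    obtain ⟨d, hd⟩ := Finset.card_pos.1 (show 0 < Φ.card by omega)
    simp only [Finset.mem_insert] at hx
    rcases hx with rfl | rfl | rfl | hx
    exacts [⟨d, hd, by simp⟩, ⟨d, hd, by simp⟩, ⟨d, hd, by simp⟩, ⟨x, hx, by simp⟩]
  obtain ⟨d', hd'⟩ := Finset.card_pos.1 (show 0 < (Φ.erase d).card by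
    rw [Finset.card_erase_of_mem hd]; omega)
  obtain ⟨s, hs0⟩ : ∃ s, s = (Φ.erase d).erase d' := ⟨_, rfl⟩
  have cs : (s : Set α).ncard = i := by
    rw [Set.ncard_coe_finset, hs0, Finset.card_erase_of_mem hd', Finset.card_erase_of_mem hd]; omega
  have := faithful_fixing (G := G) (s : Set α)
  have c11 := card_sub (G := G) (s : Set α)
  rw [Nat.card_eq_fintype_card (α := α)] at c11
  have h4 := SubMulAction.ofFixingSubgroup.isMultiplyPretransitive G (s : Set α) (m := 4)
    (n := i + 4) (by rw [cs])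
  have ad : a ≠ d := fun e => a1 (e ▸ hd)
  have bd : b ≠ d := fun e => b1 (e ▸ hd)
  have cd : c ≠ d := fun e => c1 (e ▸ hd)
  have as : a ∉ s := by simp [hs0, a1]
  have bs : b ∉ s := by simp [hs0, b1]
  have cs' : c ∉ s := by simp [hs0, c1]
  have ds : d ∉ s := by simp [hs0]
  obtain ⟨⟨e, es⟩, e2, e3⟩ := m11 h4 (fun g hg => Subtype.ext (hs g (by
      have := fix_sub (s : Set α) g; omega))) (by omega)
    (a := ⟨a, as⟩) (b := ⟨b, bs⟩) (c := ⟨c, cs'⟩) (d := ⟨d, ds⟩) (Subtype.coe_ne_coe.1 ab)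
    (Subtype.coe_ne_coe.1 ac) (Subtype.coe_ne_coe.1 ad) (Subtype.coe_ne_coe.1 bc)
    (Subtype.coe_ne_coe.1 bd) (Subtype.coe_ne_coe.1 cd)
  have e4 : ∀ g : G, (∀ y ∈ s, g • y = y) → (∀ y ∈ ({a, b, c, d} : Set α),
      g • y ∈ ({a, b, c, d} : Set α)) → g • e = e := fun g h1 h2 => by
    refine congrArg Subtype.val (e3 ⟨g, (mem_fixingSubgroup_iff G).2 h1⟩ fun y => ?_)
    simp only [Set.mem_insert_iff, Set.mem_singleton_iff, Subtype.ext_iff]
    exact h2 y
  simp only [Set.mem_insert_iff, Set.mem_singleton_iff, Subtype.ext_iff, not_or] at e2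
  have e5 : e = d' := by
    have := (hΦ e).2 (e4 t (fun y hy => (hΦ y).1 (by simp only [hs0, Finset.mem_erase] at hy; tauto))
      (by simp [t1, t2, t3, (hΦ d).1 hd]))
    by_contra h
    exact es (show e ∈ s by simp [hs0, this, h, e2.2.2.2])
  obtain ⟨g, hg⟩ := mpt_exists_injOn h (insert a (insert b (insert c (insert d s)))) (by
    rw [Finset.card_insert_of_notMem (by simp [ab, ac, ad, as]),
      Finset.card_insert_of_notMem (by simp [bc, bd, bs]),
      Finset.card_insert_of_notMem (by simp [cd, cs']), Finset.card_insert_of_notMem ds,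
      ← Set.ncard_coe_finset, cs]) (Equiv.swap a x) (Equiv.injective _).injOn
  have sub : ∀ y ∈ ({a, b, c, d} : Set α), y ∈ insert a (insert b (insert c (insert d s))) := by simp
  refine swap_mem (g := g) (by rw [hg a (by simp)]; simp) (by rw [hg x (sub x xd)]; simp)
    fun y hy h1 h2 => ?_
  by_cases h3 : y = d'
  · rw [h3, ← e5]
    refine e4 g (fun y hy => ?_) fun y hy => ?_
    · rw [hg y (by simp [hy]), Equiv.swap_apply_of_ne_of_ne fun e => as (by rwa [e] at hy)]
      rintro rfl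
      rcases xd with rfl | rfl | rfl | rfl <;> contradiction
    · rw [hg y (sub y hy), Equiv.swap_apply_def]
      split_ifs
      exacts [xd, by simp, hy]
  · rw [hg y (by simp only [hs0, Finset.mem_insert, Finset.mem_erase] at hy ⊢; tauto),
      Equiv.swap_apply_of_ne_of_ne h1 h2]

theorem base {k : ℕ} (hk : 4 ≤ k) (hkn : k < Fintype.card α) (h : IsMultiplyPretransitive G α k)
    (hs : ∀ g : G, k + 1 ≤ (fixedBy α g).ncard → g = 1) :
    ∃ Δ : Finset α, Δ.card = k + 1 ∧ alternatingGroup Δ ≤ Ind G (Subtype.val : Δ → α) := by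
  obtain ⟨i, rfl⟩ : ∃ i, k = i + 4 := ⟨k - 4, by omega⟩
  obtain ⟨Δ, -, hΔ⟩ := Finset.exists_subset_card_eq (s := (Finset.univ : Finset α)) (n := i + 5) hkn
  by_cases hu : ∃ u : G, u ≠ 1 ∧ u * u = 1 ∧ i + 4 ≤ (fixedBy α u).ncard
  · obtain ⟨u, u1, u2, hu⟩ := hu
    exact ⟨Δ, hΔ, (full (j := i + 3) h hs u1 u2 hu Δ hΔ).ge.trans' le_top⟩
  push Not at hu
  rcases hallk G h hkn.le (fun u u1 u2 => by have := hu u u1 u2; omega) with h1 | h1
  · refine ⟨Δ, hΔ, fun σ hσ => ⟨⟨Equiv.Perm.ofSubtype σ, h1.2 ?_⟩, fun x => ?_⟩⟩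
    · rw [Equiv.Perm.mem_alternatingGroup] at hσ ⊢
      rw [← hσ]
      convert Equiv.Perm.sign_ofSubtype σ
    · exact Equiv.Perm.ofSubtype_apply_coe σ x
  · obtain ⟨Δ, h2, h3⟩ := sharp7 h h1.2 h1.1
    exact ⟨Δ, h2, h3.ge.trans' le_top⟩

theorem ind_aux {k : ℕ} (hk : 4 ≤ k) (n : ℕ) : ∀ (α : Type u) [Fintype α] [DecidableEq α]
    (G : Subgroup (Equiv.Perm α)), Fintype.card α = n → k < n → IsMultiplyPretransitive G α k →
    ∃ e : Fin (k + 1) → α, Function.Injective e ∧ alternatingGroup _ ≤ Ind G e := by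
  induction n using Nat.strong_induction_on with
  | _ n ih =>
  intro α _ _ G hn hkn h
  classical
  by_cases hs : ∀ g : G, k + 1 ≤ (fixedBy α g).ncard → g = 1
  · obtain ⟨Δ, h1, h2⟩ := base hk (hn ▸ hkn) h hs
    exact ⟨_, Subtype.val_injective.comp (Δ.equivFinOfCardEq h1).symm.injective, ind_equiv h2 _⟩
  push Not at hs
  obtain ⟨g, hg, g1⟩ := hs
  obtain ⟨p, hp, hd⟩ := Nat.exists_prime_and_dvd (n := orderOf g) (by simpa using g1)
  have := Fact.mk hp
  have ho := orderOf_pow_orderOf_div (orderOf_pos g).ne' hd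
  obtain ⟨Q, h1, ⟨hQ, hF⟩, hmax⟩ := Finite.exists_le_maximal
    (p := fun Q : Subgroup G => IsPGroup p Q ∧ k + 1 ≤ (fixedPoints Q α).ncard)
    (a := Subgroup.zpowers (g ^ (orderOf g / p))) ⟨IsPGroup.of_card (n := 1) (by
      rw [Nat.card_zpowers, ho, pow_one]), hg.trans (Set.ncard_le_ncard (by
        rintro x hx ⟨_, j, rfl⟩
        exact (stabilizer G x).zpow_mem ((stabilizer G x).pow_mem hx _) j))⟩
  have mF : ∀ x, x ∈ fixedPoints Q α ↔ ∀ g ∈ Q, g • x = x := fun x =>
    ⟨fun h g hg => h ⟨g, hg⟩, fun h g => h g g.2⟩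
  have hN : ∀ g ∈ Subgroup.normalizer (Q : Set G), ∀ x ∈ fixedPoints Q α, g • x ∈ fixedPoints Q α :=
    fun g hg x hx => (mF _).2 fun q hq => by
      rw [← inv_smul_eq_iff, smul_smul, smul_smul]
      exact (mF _).1 hx _ ((Subgroup.mem_normalizer_iff''.1 hg q).1 hq)
  let φ := CA.SubA8.res (G.subtype.comp (Subgroup.normalizer (Q : Set G)).subtype)
    (· ∈ fixedPoints Q α) fun g x => ⟨fun h => by
      have := hN _ (inv_mem g.2) _ h
      change (g : G)⁻¹ • (g : G) • x ∈ _ at this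
      rwa [inv_smul_smul] at this, hN g g.2 x⟩
  have cF : Fintype.card {x // x ∈ fixedPoints Q α} = (fixedPoints Q α).ncard := by
    rw [← Nat.card_eq_fintype_card]; rfl
  have lt : (fixedPoints Q α).ncard < n := by
    rw [← hn, ← Nat.card_eq_fintype_card]
    refine Set.ncard_lt_card fun e => hp.one_lt.ne' ?_
    rw [← ho, orderOf_eq_one_iff]
    exact eq_one_of_forall_smul (X := α) fun x =>
      (mF x).1 (e ▸ Set.mem_univ x) _ (h1 (Subgroup.mem_zpowers _))
  have hK : IsMultiplyPretransitive φ.range {x // x ∈ fixedPoints Q α} k := by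
    by_cases hSy : ∃ s : Finset α, s.card = k ∧ IsSylowIn p Q (fixingSubgroup G (s : Set α))
    · obtain ⟨s, hs, hP⟩ := hSy
      refine mpt_iff_fun.2 fun f f' hf hf' => ?_
      obtain ⟨g, hg, e⟩ := witt_sylow_fun h hs hP (Fintype.card_fin k) (fun i => (f i).1)
        (fun i => (f' i).1) (Subtype.val_injective.comp hf) (Subtype.val_injective.comp hf')
        (fun g hg i => (mF _).1 (f i).2 g hg) fun g hg i => (mF _).1 (f' i).2 g hg
      exact ⟨⟨_, ⟨g, hg⟩, rfl⟩, fun i => Subtype.ext (e i)⟩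
    push Not at hSy
    refine Cfsg.Agent.S0743.result _ hp (by omega) (by omega) fun s hs => ?_
    obtain ⟨P, hP, hQP⟩ := exists_isSylowIn_ge hQ (H := fixingSubgroup G
      (s.map (Function.Embedding.subtype _) : Set α)) fun q hq => (mem_fixingSubgroup_iff G).2 (by
        simp only [Finset.coe_map, Set.mem_image]
        rintro _ ⟨x, -, rfl⟩
        exact (mF _).1 x.2 q hq)
    have h2 := CA.SylIn.lt_inf_normalizer hP.isPGroup (hQP.lt_of_ne (by
      rintro rfl; exact hSy _ (by simpa using hs) hP))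
    have h3 : IsPGroup p ↥(P ⊓ Subgroup.normalizer (Q : Set G)) := hP.isPGroup.to_inf_left
    have h4 : (s.map (Function.Embedding.subtype _) : Set α) =
        fixedPoints ↥(P ⊓ Subgroup.normalizer (Q : Set G)) α :=
      Set.eq_of_subset_of_ncard_le (fun x hx g => (mem_fixingSubgroup_iff G).1 (hP.1 g.2.1) x hx) (by
        rw [Set.ncard_coe_finset, Finset.card_map, hs]
        by_contra h4
        exact h2.not_ge (hmax ⟨h3, by omega⟩ h2.le))
    refine ⟨_, (h3.comap_subtype (K := Subgroup.normalizer (Q : Set G))).map φ.rangeRestrict, ?_⟩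
    ext x
    rw [Finset.mem_coe, ← Finset.mem_map' (Function.Embedding.subtype _), ← Finset.mem_coe, h4]
    exact ⟨fun h g => congrArg Subtype.val (h ⟨_, ⟨g, g.2.2⟩, g.2, rfl⟩), by
      rintro h ⟨_, g, hg, rfl⟩; exact Subtype.ext (h ⟨g, hg⟩)⟩
  obtain ⟨e, he, h2⟩ := ih _ lt _ φ.range cF (by omega) hK
  refine ⟨_, Subtype.val_injective.comp he, fun σ hσ => ?_⟩
  obtain ⟨⟨_, g, rfl⟩, hg⟩ := h2 hσ
  exact ⟨g, fun i => congrArg Subtype.val (hg i)⟩

theorem ind_alt {k : ℕ} (hk : 4 ≤ k) (hkn : k < Fintype.card α) (h : IsMultiplyPretransitive G α k) :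
    ∃ Δ : Finset α, Δ.card = k + 1 ∧ alternatingGroup Δ ≤ Ind G (Subtype.val : Δ → α) := by
  obtain ⟨e, he, h2⟩ := ind_aux hk _ α G rfl hkn h
  let φ : Fin (k + 1) ≃ ↥(Finset.univ.image e) := Equiv.ofBijective
    (fun i => ⟨e i, Finset.mem_image_of_mem _ (Finset.mem_univ i)⟩)
    ⟨fun i j h => he (congrArg Subtype.val h), fun ⟨x, hx⟩ => by
      obtain ⟨i, -, rfl⟩ := Finset.mem_image.1 hx; exact ⟨i, rfl⟩⟩
  refine ⟨Finset.univ.image e, by simp [Finset.card_image_of_injective _ he], ?_⟩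
  have := ind_equiv h2 φ.symm
  rwa [show e ∘ φ.symm = Subtype.val from funext fun x =>
    congrArg Subtype.val (φ.apply_symm_apply x)] at this

theorem lw2 {k : ℕ} (hk : 5 ≤ k) (hkn : 2 * k ≤ Fintype.card α)
    (hG : IsPretransitive G (Set.powersetCard α k)) : IsMultiplyPretransitive G α k := by
  obtain ⟨i, rfl⟩ : ∃ i, k = i + 5 := ⟨k - 5, by omega⟩
  have h : IsMultiplyPretransitive G α (i + 4) := lw1 (by omega) hkn hG
  obtain ⟨Δ, hΔ, hA⟩ := ind_alt (by omega) (by omega) h
  have : Nontrivial Δ := Fintype.one_lt_card_iff_nontrivial.1 (by simp [hΔ])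
  refine mpt_of_hom hG hΔ ((eq_or_top hA).resolve_left fun e => ?_)
  have hu : ∀ u : G, u ≠ 1 → u * u = 1 → (fixedBy α u).ncard < i + 3 := fun u u1 u2 => by
    by_contra hu
    obtain ⟨t, ht, ht'⟩ := Finset.exists_subset_card_eq (s := (fixedBy α u).toFinset) (n := i + 3)
      (by rw [← Set.ncard_eq_toFinset_card']; omega)
    have ht : ∀ x ∈ t, u • x = x := fun x hx => mem_fixedBy.1 (Set.mem_toFinset.1 (ht hx))
    obtain ⟨x, hx⟩ : ∃ x : α, u • x ≠ x := by
      by_contra h
      push Not at h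
      exact u1 (eq_one_of_forall_smul h)
    have uu : u • u • x = x := by rw [smul_smul, u2, one_smul]
    obtain ⟨g, hg⟩ := hom_iff.1 hG (insert x (insert (u • x) t)) Δ (by
      rw [Finset.card_insert_of_notMem (by simpa using ⟨hx.symm, fun h => hx (ht x h)⟩),
        Finset.card_insert_of_notMem fun h => hx ((ht _ h).symm.trans uu),
        ht']) hΔ
    have := swap_mem (Δ := Δ) (a := ⟨g • x, hg ▸ Finset.smul_mem_smul_finset (by simp)⟩)
      (b := ⟨g • u • x, hg ▸ Finset.smul_mem_smul_finset (by simp)⟩) (g := g * u * g⁻¹)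
      (by simp [mul_smul]) (by simp only [mul_smul, inv_smul_smul, uu]) fun y hy h1 h2 => by
        rw [← hg] at hy
        obtain ⟨z, hz, rfl⟩ := Finset.mem_smul_finset.1 hy
        simp only [Finset.mem_insert] at hz
        rcases hz with rfl | rfl | hz
        · exact absurd rfl h1
        · exact absurd rfl h2
        · rw [mul_smul, mul_smul, inv_smul_smul, ht z hz]
    rw [e, Equiv.Perm.mem_alternatingGroup, Equiv.Perm.sign_swap (fun e => hx
      (smul_left_cancel g (congrArg Subtype.val e)).symm)] at this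
    exact absurd this (by decide)
  rcases hallk G h (by omega) (fun u u1 u2 => (hu u u1 u2).le) with h1 | ⟨h1, h2⟩
  · omega
  obtain ⟨s, -, hs⟩ := Finset.exists_subset_card_eq (s := (Finset.univ : Finset α)) (n := i + 3)
    (by rw [Finset.card_univ]; omega)
  have cs : (s : Set α).ncard = i + 3 := by simpa using hs
  have := is_one_pretransitive_iff.1 (SubMulAction.ofFixingSubgroup.isMultiplyPretransitive G
    (s : Set α) (m := 1) (n := i + 4) (by rw [cs]))
  have c8 := card_sub (G := G) (s : Set α)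
  rw [Nat.card_eq_fintype_card (α := α)] at c8
  have : Nonempty (SubMulAction.ofFixingSubgroup G (s : Set α)) := (Nat.card_pos_iff.1 (by omega)).1
  have d8 := card_dvd_card (G := fixingSubgroup G (s : Set α))
    (X := SubMulAction.ofFixingSubgroup G (s : Set α))
  obtain ⟨u, ho⟩ := exists_prime_orderOf_dvd_card' (G := fixingSubgroup G (s : Set α)) 2
    (Dvd.dvd.trans (by omega) d8)
  refine (hu u (fun e => by rw [show u = 1 from Subtype.ext e] at ho; simp at ho) (by
    rw [← Subgroup.coe_mul, ← sq, ← ho, pow_orderOf_eq_one]; rfl)).not_ge ?_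
  rw [← cs]
  exact Set.ncard_le_ncard ((mem_fixingSubgroup_iff G).1 u.2)

end CA.LW
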