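import Cfsg.Agent.Lib.Perm.ON4
import Cfsg.Agent.Lib.Perm.PermChar
import Cfsg.Agent.Lib.Grp.Kegel
import Cfsg.Agent.Lib.Char.CharBurn

/-! Doubly transitive symmetric designs with central automorphisms (Ito). -/

set_option autoImplicit false
open MulAction Finset

namespace CA.ON
variable {G X Y : Type*} [Group G] [MulAction G X] [MulAction G Y]

theorem abel_of_solv [Finite G] {K A : Subgroup G} (h1 : A ≤ K) (h2 : K ≤ Subgroup.normalizer (A : Set G))
    (h3 : Group.IsSolvable A) (h4 : A ≠ ⊥) : ∃ N : Subgroup G, N ≤ K ∧ N ≠ ⊥ ∧ IsMulCommutative N ∧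
      Subgroup.normalizer (K : Set G) ≤ Subgroup.normalizer (N : Set G) := by
  obtain ⟨N, e1, e2, e3, e4, -⟩ := CA.Fpf.exists_char_abelian (CA.Core.isSolvable_map_solvRad K)
    fun e => h4 (eq_bot_iff.2 (e ▸ CA.Core.le_map_solvRad h1 h2 h3))
  exact ⟨N, e1.trans (Subgroup.map_subtype_le _), e2, e3,
    (CA.Core.normalizer_le_normalizer_map_solvRad K).trans e4⟩

variable [Fintype X] [Fintype Y]

variable (G) in
structure Des (I : X → Y → Prop) : Prop where
  inv : ∀ (g : G) x y, I (g • x) (g • y) ↔ I x y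
  twoX : IsMultiplyPretransitive G X 2
  twoY : IsMultiplyPretransitive G Y 2
  card : Fintype.card X = Fintype.card Y

open Classical in
theorem dc {α β : Type*} (s : Finset α) (t : Finset β) (r : α → β → Prop) :
    ∑ a ∈ s, #{b ∈ t | r a b} = ∑ b ∈ t, #{a ∈ s | r a b} := by
  simp only [card_filter]; exact sum_comm

/-- the pointwise stabilizer of a block -/
def Kb (G : Type*) [Group G] [MulAction G X] (I : X → Y → Prop) (B : Y) : Subgroup G :=
  fixingSubgroup G {x | I x B}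

omit [Fintype X] [Fintype Y] [MulAction G Y] in
theorem mem_Kb {I : X → Y → Prop} {B : Y} {g : G} : g ∈ Kb G I B ↔ ∀ x, I x B → g • x = x :=
  mem_fixingSubgroup_iff _

namespace Des
variable {I : X → Y → Prop} (D : Des G I)
include D
open Classical

theorem dual : Des G fun y x => I x y := ⟨fun g y x => D.inv g x y, D.twoY, D.twoX, D.card.symm⟩

theorem card_pts (y y' : Y) : #{x | I x y} = #{x | I x y'} := by
  obtain ⟨g, rfl⟩ := (isPretransitive_of_is_two_pretransitive (h2 := D.twoY)).exists_smul_eq y y'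
  exact card_equiv (MulAction.toPerm g) fun x => by simp [D.inv]

theorem card_int {y y' z z' : Y} (h : y ≠ y') (h' : z ≠ z') :
    #{x | I x y ∧ I x y'} = #{x | I x z ∧ I x z'} := by
  obtain ⟨g, rfl, rfl⟩ := is_two_pretransitive_iff.1 D.twoY h h'
  exact card_equiv (MulAction.toPerm g) fun x => by simp [D.inv]

theorem int_eq {y y' z z' : Y} (h : y ≠ y') (h' : z ≠ z') (H : ∀ x, I x y → I x y' → I x z ∧ I x z')
    {x : X} (h1 : I x z) (h2 : I x z') : I x y ∧ I x y' := by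
  simpa [h1, h2] using Finset.ext_iff.1 (eq_of_subset_of_card_le (s := {x | I x y ∧ I x y'})
    (t := {x | I x z ∧ I x z'}) (fun x => by simpa using H x) (D.card_int h' h).le) x

theorem count {y y' : Y} (h : y ≠ y') (x : X) : (Fintype.card Y - 1) * #{x | I x y ∧ I x y'} =
    #{x | I x y} * (#{y | I x y} - 1) := by
  have := dc (univ.erase y) {x | I x y} fun z x => I x z
  rw [sum_congr rfl (g := fun _ => #{x | I x y ∧ I x y'}) fun z hz => by
      rw [filter_filter]; exact D.card_int (ne_of_mem_erase hz).symm h,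
    sum_congr rfl (s₁ := {x | I x y}) (g := fun _ => #{y | I x y} - 1) fun w hw => by
      rw [filter_erase, card_erase_of_mem (by simpa using hw)]
      exact congrArg (· - 1) (D.dual.card_pts w x)] at this
  simpa using this

theorem params [Nontrivial X] : ∃ k l : ℕ, (∀ y, #{x | I x y} = k) ∧
    (∀ y y', y ≠ y' → #{x | I x y ∧ I x y'} = l) ∧ (∀ x x', x ≠ x' → #{y | I x y ∧ I x' y} = l) ∧
    (Fintype.card X - 1) * l = k * (k - 1) := by
  have h1 : 1 < Fintype.card X := Fintype.one_lt_card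
  have : Nontrivial Y := Fintype.one_lt_card_iff_nontrivial.1 (D.card ▸ h1)
  obtain ⟨x, x', hx⟩ := exists_pair_ne X
  obtain ⟨y, y', hy⟩ := exists_pair_ne Y
  have h2 := dc univ univ I
  rw [sum_congr rfl fun z _ => D.dual.card_pts z x, sum_congr rfl fun z _ => D.card_pts z y,
    sum_const, sum_const, card_univ, card_univ, D.card, smul_eq_mul, smul_eq_mul,
    mul_right_inj' (D.card ▸ by omega)] at h2
  have h3 := D.count hy x
  have h4 := D.dual.count hx y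
  rw [h2, ← D.card] at h3
  rw [h2, ← h3, mul_right_inj' (by omega)] at h4
  exact ⟨_, _, fun z => D.card_pts z y, fun _ _ e => D.card_int e hy,
    fun _ _ e => (D.dual.card_int e hx).trans h4, h3⟩

theorem conj {B : Y} {g : G} (h : G) (hg : g ∈ Kb G I B) : h * g * h⁻¹ ∈ Kb G I (h • B) :=
  mem_Kb.2 fun x hx => by
    have := fix_conj (g := h) (mem_Kb.1 hg (h⁻¹ • x) (by rwa [← D.inv h, smul_inv_smul]))
    rwa [smul_inv_smul] at this

theorem one_fix {B : Y} {g : G} (hg : g ∈ Kb G I B) {u₁ u₂ : X} (hu : u₁ ≠ u₂) (h1 : I u₁ B)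
    (h2 : I u₂ B) {y y' : X} (hy : y ≠ y') (e1 : ¬ I y B) (e2 : ¬ I y' B) (e3 : g • y = y)
    (e4 : g • y' = y') (x : X) : g • x = x := by
  by_contra hx
  have c1 : ∀ y, ¬ I y B → g • y = y → ∀ C, I y C → g • C = C := fun y e1 e3 C hC => by
    by_contra hc
    exact e1 (D.int_eq (y := C) (y' := B) (fun e => e1 (e ▸ hC)) (Ne.symm hc) (fun x h1 h2 =>
      ⟨h1, by rw [← mem_Kb.1 hg x h2, D.inv]; exact h1⟩) hC (by rw [← e3, D.inv]; exact hC)).2
  have c2 : ∀ x y, g • x ≠ x → ¬ I y B → g • y = y → ∀ C, I x C ∧ I y C ↔ I x C ∧ I (g • x) C :=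
    fun x y hx e1 e3 => by
      have : ∀ C, I x C → I y C → I x C ∧ I (g • x) C := fun C h1 h2 =>
        ⟨h1, by rw [← c1 y e1 e3 C h2, D.inv]; exact h1⟩
      exact fun C => ⟨fun e => this C e.1 e.2, fun e =>
        D.dual.int_eq (y := x) (y' := y) (fun e => hx (e ▸ e3)) (Ne.symm hx) this e.1 e.2⟩
  have c3 : ∀ x, g • x ≠ x → ∀ C, I y C → I y' C → I x C := fun x hx C h1 h2 =>
    (D.dual.int_eq (y := x) (y' := y) (fun e => hx (e ▸ e3)) hy (fun C h1 h2 =>
      ⟨h2, ((c2 x y' hx e2 e4 C).2 ((c2 x y hx e1 e3 C).1 ⟨h1, h2⟩)).2⟩) h1 h2).1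
  have c4 : ∀ w, ¬ I w B → ∀ C, I y C → I y' C → I w C := fun w hw C h1 h2 => by
    by_cases e : g • w = w
    · exact ((c2 x w hx hw e C).2 ((c2 x y hx e1 e3 C).1 ⟨c3 x hx C h1 h2, h1⟩)).2
    · exact c3 w e C h1 h2
  obtain ⟨u, h3, h4⟩ : ∃ u, I u B ∧ ¬ ∀ C, I y C → I y' C → I u C := by
    by_contra! H
    exact e1 (D.dual.int_eq hy hu (fun C e e' => ⟨H _ h1 C e e', H _ h2 C e e'⟩) h1 h2).1
  have h5 : ¬ I x B := fun e => hx (mem_Kb.1 hg x e)
  have h6 : x ≠ u := fun e => h5 (e ▸ h3)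
  obtain ⟨k, rfl, rfl⟩ := is_two_pretransitive_iff.1 D.twoX h6 hy
  have h7 : ∀ C, I x C → I u C → I (k⁻¹ • x) C := fun C h1 h2 => by
    rw [← D.inv k, smul_inv_smul]
    exact c3 x hx _ ((D.inv k _ _).2 h1) ((D.inv k _ _).2 h2)
  have h8 : k⁻¹ • x ≠ x := fun e => hx (by rw [← inv_smul_eq_iff.1 e] at e3; exact e3)
  have h9 : k⁻¹ • x ≠ u := fun e => hx (by rw [← inv_smul_eq_iff.1 e] at e4; exact e4)
  by_cases e : I (k⁻¹ • x) B
  · exact h5 (D.dual.int_eq h6 h9 (fun C e e' => ⟨h7 C e e', e'⟩) e h3).1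
  · exact h4 fun C e' e'' => (D.dual.int_eq h6 h8 (fun C e e' => ⟨h7 C e e', e⟩)
      (c4 _ e C e' e'') (c4 _ h5 C e' e'')).2

variable {k l : ℕ} (h1 : ∀ y, #{x | I x y} = k) (h2 : ∀ y y', y ≠ y' → #{x | I x y ∧ I x y'} = l)
  (h3 : ∀ x x', x ≠ x' → #{y | I x y ∧ I x' y} = l) (h4 : (Fintype.card X - 1) * l = k * (k - 1))
  (hl : l < k) (hk : k < Fintype.card X)
  (hf : ∀ g : G, Nat.card (fixedBy X g) = Nat.card (fixedBy Y g))
include h1 h2 hl

theorem fixB {B : Y} {g : G} (hg : g ∈ Kb G I B) : g • B = B := by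
  by_contra e
  refine hl.not_ge (h1 B ▸ h2 _ _ e ▸ card_le_card fun x hx => ?_)
  simp only [mem_filter, mem_univ, true_and] at hx ⊢
  exact ⟨by rw [← mem_Kb.1 hg x hx, D.inv]; exact hx, hx⟩

omit D in
theorem exists_off {B C : Y} (h : B ≠ C) : ∃ x, I x C ∧ ¬ I x B := by
  by_contra! H
  exact hl.not_ge (h1 C ▸ h2 _ _ h ▸ card_le_card fun x hx => by simp_all)

include h3 h4 hk hf

theorem trace {B C C' : Y} {g : G} (hg : g ∈ Kb G I B) (hs : ∀ x, ¬ I x B → g • x ≠ x) (hC : C ≠ B)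
    (hC' : C' ≠ B) (e : g • C = C) (H : ∀ x, I x B → (I x C ↔ I x C')) : g • C' = C' := by
  by_contra e'
  obtain ⟨S, hS⟩ : ∃ S : Finset Y, S = ({E | g • E = E} : Finset Y).erase B := ⟨_, rfl⟩
  have m : ∀ E, E ∈ S ↔ E ≠ B ∧ g • E = E := by simp [hS]
  have h5 : #S = k - 1 := by
    rw [hS, card_erase_of_mem (by simpa using D.fixB h1 h2 hl hg), ← h1 B]
    have := hf g
    rw [Nat.card_eq_card_toFinset, Nat.card_eq_card_toFinset] at this
    congr 1
    convert this.symm using 2 <;> ext x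
    · simp
    · simpa using ⟨mem_Kb.1 hg x, fun e => by_contra fun h => hs x h e⟩
  have h6 : ∀ E, E ≠ B → #{x | ¬ I x B ∧ I x E} = k - l := fun E hE => by
    have := card_filter_add_card_filter_not (s := {x | I x E}) fun x => I x B
    simp only [filter_filter, h1, h2 _ _ hE, and_comm (a := I _ E) (b := ¬ _)] at this
    omega
  have h7 : ∀ x, ¬ I x B → #{E ∈ S | I x E} = l := by
    have := dc ({x | ¬ I x B} : Finset X) S I
    rw [sum_congr rfl (s₁ := S) (g := fun _ => k - l) fun E hE => by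
      rw [filter_filter]; exact h6 E ((m E).1 hE).1] at this
    have h8 := (sum_eq_sum_iff_of_le (s := ({x | ¬ I x B} : Finset X)) (g := fun _ => l)
      (f := fun x => #{E ∈ S | I x E}) fun x hx => (h3 _ _ (hs x (by simpa using hx))).le.trans' <|
        card_le_card (s := {E ∈ S | I x E}) fun E hE => by
        simp only [mem_filter, m, mem_univ, true_and] at hE ⊢
        exact ⟨by rw [← hE.1.2, D.inv]; exact hE.2, hE.2⟩).1 (by
      have h9 := card_filter_add_card_filter_not (s := univ) fun x => I x B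
      rw [this, sum_const, sum_const, h5, smul_eq_mul, smul_eq_mul]
      rw [h1, card_univ] at h9
      obtain ⟨a, rfl⟩ := Nat.exists_eq_add_of_lt hl
      rw [← h9] at h4
      have e1 : l + a + 1 - l = a + 1 := by omega
      have e2 : l + a + 1 + #{x | ¬ I x B} - 1 = l + a + #{x | ¬ I x B} := by omega
      rw [e2, add_tsub_cancel_right] at h4
      rw [e1, add_tsub_cancel_right]
      nlinarith)
    exact fun x hx => h8 x (by simpa using hx)
  have h8 : ∀ E, E ≠ B → ∑ F ∈ S, #{x | I x E ∧ I x F} =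
      ∑ x with I x B ∧ I x E, #{F ∈ S | I x F} + (k - l) * l := fun E hE => by
    have := dc ({x | I x E} : Finset X) S I
    simp only [filter_filter] at this
    rw [← this, ← sum_filter_add_sum_filter_not _ fun x => I x B, filter_filter, filter_filter,
      sum_congr rfl (s₁ := {x | I x E ∧ ¬ I x B}) fun x hx => h7 x (by simp_all), sum_const, ← h6 E hE]
    simp only [and_comm, smul_eq_mul]
  refine (sum_lt_sum (s := S) (f := fun F => #{x | I x C' ∧ I x F})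
    (g := fun F => #{x | I x C ∧ I x F}) (fun F hF => ?_) ⟨C, (m C).2 ⟨hC, e⟩, ?_⟩).ne ?_
  · rw [h2 C' F fun e => e' (e ▸ ((m F).1 hF).2)]
    by_cases e1 : C = F
    · simp [e1, h1, hl.le]
    · exact (h2 _ _ e1).ge
  · rw [h2 C' C fun e1 => e' (e1 ▸ e)]; simpa [h1] using hl
  · rw [h8 _ hC, h8 _ hC', filter_congr fun x _ => and_congr_right (H x)]

theorem abel [Finite G] (hs : ∀ B, ∀ g ∈ Kb G I B, g ≠ 1 → ∀ x, ¬ I x B → g • x ≠ x) {B B' : Y}
    (hB : B' ≠ B) : Kb G I B ≤ Subgroup.normalizer (↑(Kb G I B ⊓ stabilizer G B') : Set G) ∧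
      IsMulCommutative ↥(Kb G I B ⊓ stabilizer G B') := by
  have fB := fun {B g} => D.fixB h1 h2 hl (B := B) (g := g)
  have tr := fun {B C C' g} hg h => D.trace h1 h2 h3 h4 hl hk hf (B := B) (C := C) (C' := C') hg
    (hs B g hg h)
  have c0 : ∀ {B g h}, g ∈ Kb G I B → h • B = B → h * g * h⁻¹ ∈ Kb G I B := fun {_ _ h} hg e => by
    have := D.conj h hg; rwa [e] at this
  have c1 : ∀ n ∈ Kb G I B, ∀ a ∈ Kb G I B ⊓ stabilizer G B',
      n * a * n⁻¹ ∈ Kb G I B ⊓ stabilizer G B' := fun n hn a ha => by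
    refine ⟨c0 ha.1 (fB hn), show _ • B' = B' from ?_⟩
    by_cases e : a = 1
    · simp [e]
    rw [mul_smul, mul_smul, tr ha.1 e hB (fun e => hB (by rw [inv_smul_eq_iff.1 e, fB hn])) ha.2
      fun x hx => by rw [← D.inv n x (n⁻¹ • B'), smul_inv_smul, mem_Kb.1 hn x hx], smul_inv_smul]
  have ti : ∀ {B C c}, c ∈ Kb G I B → c ∈ Kb G I C → c ≠ 1 → B = C := fun e1 e2 e => by
    by_contra e3
    obtain ⟨x, e4, e5⟩ := exists_off h1 h2 hl e3
    exact hs _ _ e1 e x e5 (mem_Kb.1 e2 x e4)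
  have c2 : ∀ a ∈ Kb G I B ⊓ stabilizer G B', ∀ c ∈ Kb G I B' ⊓ stabilizer G B, a * c = c * a :=
    fun a ha c hc => by_contra fun e => hB (ti (mul_mem (c0 hc.1 ha.2) (inv_mem hc.1))
      (by simpa [mul_assoc] using mul_mem ha.1 (c0 (inv_mem ha.1) hc.2))
      fun e' => e (by rwa [mul_inv_eq_one, mul_inv_eq_iff_eq_mul] at e'))
  refine ⟨fun n hn => CA.Rad.mem_normalizer_of_conj_mem (c1 n hn), ⟨⟨fun a a' => Subtype.ext ?_⟩⟩⟩
  obtain ⟨a, ha⟩ := a
  obtain ⟨a', ha'⟩ := a'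
  change a * a' = a' * a
  by_cases e : a = 1
  · simp [e]
  obtain ⟨n, hn, e1⟩ : ∃ n ∈ Kb G I B, n • B' ≠ B' := by
    by_contra! H
    have e1 : fixedBy Y a = Set.univ := Set.eq_univ_of_forall fun E => by
      by_cases e1 : E = B
      · exact e1 ▸ fB ha.1
      obtain ⟨g, e2, rfl⟩ := is_two_pretransitive_iff.1 D.twoY hB.symm (Ne.symm e1)
      simpa [mul_assoc] using fix_conj (g := g) (H _ (c0 ha.1 (inv_fix e2)))
    have e2 := hf a
    rw [e1, Nat.card_univ, Nat.card_eq_fintype_card (α := Y), ← D.card, Nat.card_coe_set_eq,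
      ← Nat.card_eq_fintype_card, ← Set.eq_univ_iff_ncard] at e2
    obtain ⟨x, -, e4⟩ := exists_off h1 h2 hl hB.symm
    exact hs _ _ ha.1 e x e4 (e2.ge (Set.mem_univ x))
  obtain ⟨g, e2, e3⟩ := is_two_pretransitive_iff.1 D.twoY hB hB.symm
  obtain ⟨c, hc, rfl⟩ := Set.surj_on_of_inj_on_of_ncard_le
    (s := (Kb G I B' ⊓ stabilizer G B : Subgroup G)) (t := (Kb G I B ⊓ stabilizer G B' : Subgroup G))
    (fun c _ => n * c * n⁻¹ * c⁻¹) (fun c hc => Subgroup.mem_inf.2 ⟨by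
      simpa [mul_assoc] using mul_mem hn (c0 (inv_mem hn) hc.2), show _ • B' = B' from by
      by_cases e : c = 1
      · simp [e]
      have e4 : n⁻¹ • B' ≠ B' := fun e => e1 (inv_smul_eq_iff.1 e).symm
      have e5 : ∀ x, I x B' → I x B → I x B' ∧ I x (n⁻¹ • B') := fun x e e' =>
        ⟨e, by rw [← D.inv n, smul_inv_smul, mem_Kb.1 hn x e']; exact e⟩
      rw [mul_smul, mul_smul, mul_smul, inv_fix (fB hc.1), tr hc.1 e hB.symm e4 hc.2 fun x hx =>
        ⟨fun e => (e5 x hx e).2, fun e => (D.int_eq hB e4.symm e5 hx e).2⟩, smul_inv_smul]⟩)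
    (fun b b' hb hb' e => by
      by_contra hc
      refine e1 (ti ?_ (mul_mem (inv_mem hb'.1) hb.1) fun e => hc (inv_mul_eq_one.1 e).symm)
      convert D.conj n (mul_mem (inv_mem hb'.1) hb.1) using 1
      calc _ = n * b'⁻¹ * n⁻¹ * (n * b' * n⁻¹ * b'⁻¹) * b := by group
        _ = _ := by rw [← e]; group)
    (card_le _ _ (fun s => g⁻¹ * s * g⁻¹⁻¹) (fun s hs => ⟨by
      have := D.conj g⁻¹ hs.1; rwa [← e2, inv_smul_smul] at this, by
      have := fix_conj (g := g⁻¹) hs.2; rwa [← e3, inv_smul_smul] at this⟩)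
      fun _ _ _ _ e => by simpa using e) (Set.toFinite _) _ ha'
  have e4 := c2 _ (c1 _ (inv_mem hn) a ha) c hc
  have e5 := c2 a ha _ (inv_mem hc)
  calc _ = n * (n⁻¹ * a * n⁻¹⁻¹ * c) * n⁻¹ * c⁻¹ := by group
    _ = n * c * n⁻¹ * (a * c⁻¹) := by rw [e4]; group
    _ = _ := by rw [e5]; group

omit h1 h2 h3 h4 hl hk

theorem main [Finite G] [FaithfulSMul G X] {B : Y} {u₁ u₂ w : X} (hu : u₁ ≠ u₂) (e1 : I u₁ B)
    (e2 : I u₂ B) (hw : ¬ I w B) (h0 : Kb G I B ≠ ⊥) (hfix : ∀ x : X, ∃ c : G, c • B = B ∧ c • x ≠ x) :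
    stabilizer G B ≤
      Subgroup.normalizer (Kb G I B : Set G) ∧ Kb G I B ≤ stabilizer G B ∧ ∃ A : Subgroup G,
      A ≤ Kb G I B ∧ Kb G I B ≤ Subgroup.normalizer (A : Set G) ∧ Group.IsSolvable A ∧ A ≠ ⊥ := by
  have : Nontrivial X := ⟨_, _, hu⟩
  obtain ⟨k, l, h1, h2, h3, h4⟩ := D.params
  have hk : k < Fintype.card X := h1 B ▸ card_lt_card (filter_ssubset.2 ⟨w, mem_univ _, hw⟩)
  have hk' : 1 < k := h1 B ▸ one_lt_card.2 ⟨u₁, by simpa, u₂, by simpa, hu⟩
  have hl : l < k := by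
    by_contra! H
    obtain ⟨a, ha⟩ := Nat.exists_eq_add_of_lt hk
    obtain ⟨b, rfl⟩ := Nat.exists_eq_add_of_lt hk'
    rw [ha, add_tsub_cancel_right, add_tsub_cancel_right] at h4
    nlinarith
  refine ⟨fun g hg => CA.Rad.mem_normalizer_of_conj_mem fun a ha => by
    have := D.conj g ha; rwa [hg] at this, fun g hg => D.fixB h1 h2 hl hg, ?_⟩
  have fa : ∀ g : G, (∀ x : X, g • x = x) → g = 1 := fun g e =>
    eq_of_smul_eq_smul (α := X) fun x => by rw [e, one_smul]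
  obtain ⟨⟨g, hg⟩, g1⟩ := Subgroup.ne_bot_iff_exists_ne_one.1 h0
  replace g1 : g ≠ 1 := fun e => g1 (Subtype.ext e)
  by_cases hs : ∀ g ∈ Kb G I B, g ≠ 1 → ∀ x, ¬ I x B → g • x ≠ x
  · have h5 : 1 < (fixedBy Y g).ncard := by
      rw [← Nat.card_coe_set_eq, ← hf, Nat.card_coe_set_eq]
      exact (Set.one_lt_ncard (Set.toFinite _)).2 ⟨_, mem_Kb.1 hg _ e1, _, mem_Kb.1 hg _ e2, hu⟩
    obtain ⟨B', h6, h7⟩ := Set.exists_ne_of_one_lt_ncard h5 B
    obtain ⟨h8, h9⟩ := D.abel h1 h2 h3 h4 hl hk hf (fun C a ha a1 x hx e => by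
      obtain ⟨c, rfl⟩ := (isPretransitive_of_is_two_pretransitive (h2 := D.twoY)).exists_smul_eq C B
      exact hs _ (D.conj c ha) (by simpa using a1) (c • x) (by rwa [D.inv]) (fix_conj e)) h7
    exact ⟨_, inf_le_left, h8, by open scoped IsMulCommutative in infer_instance,
      Subgroup.ne_bot_iff_exists_ne_one.2 ⟨⟨g, hg, h6⟩, fun e => g1 (congrArg Subtype.val e)⟩⟩
  push Not at hs
  obtain ⟨a, ha, a1, y, hy, e⟩ := hs
  have h5 : ∀ g ∈ Kb G I B, ∀ y, ¬ I y B → ¬ I (g • y) B := fun g hg y hy => by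
    rwa [← D.fixB h1 h2 hl hg, D.inv]
  have h6 : Cfsg.IsFrobeniusComplement (stabilizer (Kb G I B) y) := CA.Frob.isFrob_iff.2
    ⟨Subgroup.ne_bot_iff_exists_ne_one.2 ⟨⟨⟨a, ha⟩, e⟩, fun e => a1 (congrArg (·.1.1) e)⟩, fun e' => by
      obtain ⟨c, h7, h8⟩ := hfix y
      have := fix_conj (g := c) (e'.ge (Subgroup.mem_top (⟨c⁻¹ * a * c⁻¹⁻¹, by
        have := D.conj c⁻¹ ha; rwa [inv_fix h7] at this⟩ : Kb G I B)))
      exact a1 (fa a (D.one_fix ha hu e1 e2 h8 (by rwa [← h7, D.inv]) hy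
        (by simpa [mul_assoc] using this) e)),
    fun c b hb b1 hc => by_contra fun e => b1 (Subtype.ext (fa _ (D.one_fix b.2 hu e1 e2
      (y := y) (y' := (c : G)⁻¹ • y) (fun e' => e (eq_inv_smul_iff.1 e')) hy (h5 _ (inv_mem c.2) y hy) hb
      (by simpa [mul_assoc] using fix_conj (g := (c : G)⁻¹) (n := c * b * (c : G)⁻¹) hc))))⟩
  obtain ⟨N, h7, -⟩ := CChar.CharBurn.exists_frobeniusKernel h6.2.2
  obtain ⟨h8, -, h9, h10⟩ := CA.Frob2.of_coe_eq_kernel h6 h7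
  have := CA.Kegel.isNilpotent_of_semireg (Subgroup.le_normalizer_of_normal) h6.1 h10
  exact ⟨N.map (Kb G I B).subtype, Subgroup.map_subtype_le _, CA.Rad.le_normalizer_map_subtype N,
    solvable_of_surjective (f := (N.equivMapOfInjective _ (Kb G I B).subtype_injective).toMonoidHom)
      (MulEquiv.surjective _),
    fun e => h9 ((Subgroup.map_eq_bot_iff_of_injective _ (Subgroup.subtype_injective _)).1 e)⟩

end Des

omit [Fintype X] [Fintype Y] [MulAction G Y] in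
theorem coset [Finite G] [Finite X] (h2 : IsMultiplyPretransitive G X 2) (H : Subgroup G)
    (hidx : H.index = Nat.card X) (hnt : ¬ IsPretransitive H X) :
    IsMultiplyPretransitive G (G ⧸ H) 2 ∧
      ∀ g : G, Nat.card (fixedBy X g) = Nat.card (fixedBy (G ⧸ H) g) := by
  have := Fintype.ofFinite G
  have : Nontrivial X := by
    by_contra h
    rw [not_nontrivial_iff_subsingleton] at h
    exact hnt ⟨fun a b => ⟨1, Subsingleton.elim _ _⟩⟩
  have := isPretransitive_of_is_two_pretransitive (h2 := h2)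
  have h1 := CA.PermChar.card_orbits_prod (G := G) ((1 : G) : G ⧸ H) X
  rw [stabilizer_quotient] at h1
  have h3 := CA.PermChar.pc_eq_of_two h2 (G ⧸ H) hidx (by
    rw [h1]
    exact fun h => hnt ((pretransitive_iff_subsingleton_quotient _ _).2
      (Nat.card_eq_one_iff_unique.1 h).1))
  have : Nontrivial (G ⧸ H) := Finite.one_lt_card_iff_nontrivial.1 (hidx.symm ▸ Finite.one_lt_card :)
  exact ⟨CA.PermChar.irr_iff_two.1 (h3 ▸ CA.PermChar.irr_iff_two.2 h2),
    fun g => Nat.cast_injective (R := ℂ) (congrFun h3 g).symm⟩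

omit [Fintype X] [Fintype Y] [MulAction G Y] in
theorem of_abel [Finite G] [Finite X] [FaithfulSMul G X] (h2 : IsMultiplyPretransitive G X 2)
    (H : Subgroup G) (hidx : H.index = Nat.card X) (hnt : ¬ IsPretransitive H X)
    (hfix : ∀ a : X, ∃ h : H, h • a ≠ a) {N : Subgroup G} (h1 : N ≤ H) (h0 : N ≠ ⊥)
    (hc : IsMulCommutative N) (hN : H ≤ Subgroup.normalizer (N : Set G)) {a : X}
    (ha : ∀ n ∈ N, n • a = a) : ∃ (m : ℕ) (F : Type) (_ : Field F) (_ : Fintype F), 2 ≤ m ∧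
      Nat.card X = (Fintype.card F ^ (m + 1) - 1) / (Fintype.card F - 1) ∧ ∃ N : Subgroup G,
      N.Normal ∧ Nonempty (N ≃* Matrix.ProjectiveSpecialLinearGroup (Fin (m + 1)) F) ∧
      Subgroup.centralizer (N : Set G) = ⊥ := by
  obtain ⟨h3, h4⟩ := coset h2 H hidx hnt
  have : FaithfulSMul G (G ⧸ H) := faithfulSMul_iff.2 fun g hg => eq_of_smul_eq_smul (α := X) fun x => by
    have e := h4 g
    rw [Set.eq_univ_of_forall (s := fixedBy (G ⧸ H) g) hg, Nat.card_univ, ← Subgroup.index, hidx,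
      Nat.card_coe_set_eq, ← Set.eq_univ_iff_ncard] at e
    rw [one_smul]; exact e.ge (Set.mem_univ x)
  obtain ⟨⟨n, hn⟩, n1⟩ := Subgroup.ne_bot_iff_exists_ne_one.1 h0
  obtain ⟨F, _, _, k, h5, h6, h7⟩ := onan h3 ((1 : G) : G ⧸ H) N (by rwa [stabilizer_quotient])
    (by rw [stabilizer_quotient]; exact fun g hg n hn => ((hN hg) n).1 hn)
    (fun a ha b hb => congrArg Subtype.val (hc.is_comm.comm ⟨a, ha⟩ ⟨b, hb⟩))
    ⟨n, hn, fun e => n1 (Subtype.ext e), by
      obtain ⟨c, hc⟩ := hfix a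
      have h5 : 1 < (fixedBy (G ⧸ H) n).ncard := by
        rw [← Nat.card_coe_set_eq, ← h4, Nat.card_coe_set_eq]
        exact (Set.one_lt_ncard (Set.toFinite _)).2 ⟨(c : G) • a, by
          simpa [mul_assoc] using fix_conj (g := (c : G)) (ha _ (((hN (inv_mem c.2)) n).1 hn)),
          _, ha n hn, hc⟩
      obtain ⟨y, h6, h7⟩ := Set.exists_ne_of_one_lt_ncard h5 ((1 : G) : G ⧸ H)
      exact ⟨y, h7, h6⟩⟩
  obtain ⟨m, rfl⟩ : ∃ m, k = m + 1 := ⟨k - 1, by omega⟩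
  exact ⟨m, F, inferInstance, inferInstance, by omega, hidx ▸ h6, h7⟩

omit [Fintype X] [Fintype Y] [MulAction G Y] in
theorem ito [Finite G] [Finite X] [FaithfulSMul G X] (h2 : IsMultiplyPretransitive G X 2)
    (H : Subgroup G) (hidx : H.index = Nat.card X) (hnt : ¬ IsPretransitive H X)
    (hfix : ∀ a : X, ∃ h : H, h • a ≠ a) {a : X} {g : G} (g1 : g ≠ 1)
    (hg : ∀ b ∈ orbit H a, g • b = b) : ∃ (m : ℕ) (F : Type) (_ : Field F) (_ : Fintype F), 2 ≤ m ∧
      Nat.card X = (Fintype.card F ^ (m + 1) - 1) / (Fintype.card F - 1) ∧ ∃ N : Subgroup G,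
      N.Normal ∧ Nonempty (N ≃* Matrix.ProjectiveSpecialLinearGroup (Fin (m + 1)) F) ∧
      Subgroup.centralizer (N : Set G) = ⊥ := by
  obtain ⟨h3, h4⟩ := coset h2 H hidx hnt
  have := Fintype.ofFinite X
  have := Fintype.ofFinite (G ⧸ H)
  have D : Des G fun (x : X) (q : G ⧸ H) => ∃ g : G, (g : G ⧸ H) = q ∧ g • a = x :=
    ⟨fun k x q => ⟨fun ⟨g, e1, e2⟩ => ⟨k⁻¹ * g, by
      rw [← inv_smul_smul k q, ← e1]; rfl, by rw [mul_smul, e2, inv_smul_smul]⟩,
      fun ⟨g, e1, e2⟩ => ⟨k * g, by rw [← e1]; rfl, by rw [mul_smul, e2]⟩⟩, h2, h3, by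
      rw [← Nat.card_eq_fintype_card, ← hidx, ← Nat.card_eq_fintype_card]; rfl⟩
  have h5 : ∀ x, (∃ g : G, (g : G ⧸ H) = (1 : G) ∧ g • a = x) ↔ x ∈ orbit H a := fun x => by
    simp only [CA.Atk.mem_orbit', QuotientGroup.eq, mul_one, inv_mem_iff]
  obtain ⟨c, hc⟩ := hfix a
  obtain ⟨w, hw⟩ : ∃ w, w ∉ orbit H a := by
    by_contra! e
    exact hnt ((isPretransitive_iff_orbit_eq_univ a).2 (Set.eq_univ_of_forall e))
  obtain ⟨h6, h7, A, h8⟩ := D.main h4 hc ((h5 _).2 (mem_orbit a c)) ((h5 _).2 (mem_orbit_self a))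
    (mt (h5 _).1 hw) (Subgroup.ne_bot_iff_exists_ne_one.2 ⟨⟨g, mem_Kb.2 fun x hx => hg x ((h5 x).1 hx)⟩,
      fun e => g1 (congrArg Subtype.val e)⟩) fun x => let ⟨c, hc⟩ := hfix x
      ⟨c, (stabilizer_quotient H).ge c.2, hc⟩
  rw [stabilizer_quotient] at h6 h7
  obtain ⟨N, e1, e2, e3, e4⟩ := abel_of_solv h8.1 h8.2.1 h8.2.2.1 h8.2.2.2
  exact of_abel h2 H hidx hnt hfix (e1.trans h7) e2 e3 (h6.trans e4)
    fun n hn => mem_Kb.1 (e1 hn) a ((h5 _).2 (mem_orbit_self a))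

end CA.ON
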