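import Cfsg.Agent.Lib.Perm.ON5
import Cfsg.Agent.Lib.Grp.PGBasic

/-! Finite projective planes: central collineations, Baer subplanes, and a prime power criterion. -/

set_option autoImplicit false
open MulAction CA.Atk CA.ON CA.PermMulti

namespace CA.OW
variable {P L : Type*}

structure PP (I : P → L → Prop) (m : ℕ) : Prop where
  line : ∀ p q, ∃ l, I p l ∧ I q l
  point : ∀ l l', ∃ p, I p l ∧ I p l'
  uniq : ∀ {p q l l'}, I p l → I q l → I p l' → I q l' → p = q ∨ l = l'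
  two : 2 ≤ m
  cp : ∀ l, {p | I p l}.ncard = m + 1
  cl : ∀ p, {l | I p l}.ncard = m + 1
  cP : Nat.card P = m ^ 2 + m + 1
  cL : Nat.card L = m ^ 2 + m + 1

/-- `S` contains a quadrangle -/
def Quad (I : P → L → Prop) (S : Set P) : Prop :=
  ∃ l l' a a' b b', a ∈ S ∧ a' ∈ S ∧ b ∈ S ∧ b' ∈ S ∧ a ≠ a' ∧ b ≠ b' ∧ I a l ∧ I a' l ∧ I b l' ∧
    I b' l' ∧ ¬ I a l' ∧ ¬ I a' l' ∧ ¬ I b l ∧ ¬ I b' l

theorem Quad.mono {I : P → L → Prop} {S T : Set P} (h : Quad I S) (e : S ⊆ T) : Quad I T :=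
  let ⟨l, l', a, a', b, b', h1, h2, h3, h4, h⟩ := h
  ⟨l, l', a, a', b, b', e h1, e h2, e h3, e h4, h⟩

theorem of_plane [Membership P L] [Finite P] [Finite L] [h : Configuration.ProjectivePlane P L] :
    PP (fun (p : P) (l : L) => p ∈ l) (Configuration.ProjectivePlane.order P L) := by
  have := Fintype.ofFinite P
  have := Fintype.ofFinite L
  have h1 : ∀ l : L, {p : P | p ∈ l}.ncard = _ := Configuration.ProjectivePlane.pointCount_eq P
  have h2 : ∀ p : P, {l : L | p ∈ l}.ncard = _ := Configuration.ProjectivePlane.lineCount_eq L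
  refine ⟨fun p q => ?_, fun p q => ?_, h.eq_or_eq, Configuration.ProjectivePlane.one_lt_order P L,
    h1, h2, Nat.card_eq_fintype_card.trans (Configuration.ProjectivePlane.card_points P L),
    Nat.card_eq_fintype_card.trans (Configuration.ProjectivePlane.card_lines P L)⟩ <;>
  by_cases e : p = q
  · obtain ⟨l, hl⟩ := Set.nonempty_of_ncard_ne_zero ((h2 p).trans_ne (Nat.succ_ne_zero _))
    exact ⟨l, hl, e ▸ hl⟩
  · exact ⟨_, h.mkLine_ax e⟩
  · obtain ⟨l, hl⟩ := Set.nonempty_of_ncard_ne_zero ((h1 p).trans_ne (Nat.succ_ne_zero _))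
    exact ⟨l, hl, e ▸ hl⟩
  · exact ⟨_, h.mkPoint_ax e⟩

theorem of_quad [Finite P] [Finite L] {I : P → L → Prop} (h1 : ∀ p q, p ≠ q → ∃ l, I p l ∧ I q l)
    (h2 : ∀ l l', l ≠ l' → ∃ p, I p l ∧ I p l')
    (h3 : ∀ {p q l l'}, I p l → I q l → I p l' → I q l' → p = q ∨ l = l') (h4 : Quad I Set.univ) :
    ∃ m, PP I m := by
  obtain ⟨l, l', a, a', b, b', -, -, -, -, e1, e2, e3, e4, e5, e6, e7, e8, e9, e10⟩ := h4
  let _ : Membership P L := ⟨fun l p => I p l⟩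
  obtain ⟨n, f1, f2⟩ := h1 b a' fun e => e8 (e ▸ e5)
  let _ : Configuration.ProjectivePlane P L :=
    { exists_point := fun k => by_contra fun H => by
        have H' : ∀ p, I p k := fun p => by_contra fun e => H ⟨p, e⟩
        exact e9 ((h3 e3 e4 (H' a) (H' a')).resolve_left e1 ▸ H' b)
      exists_line := fun p => by_contra fun H => by
        have H' : ∀ k, I p k := fun k => by_contra fun e => H ⟨k, e⟩
        rcases h3 (H' l) e4 (H' n) f2 with e | e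
        exacts [e8 (e ▸ H' l'), e9 (e ▸ f1)]
      eq_or_eq := h3
      mkPoint := fun e => (h2 _ _ e).choose
      mkPoint_ax := fun e => (h2 _ _ e).choose_spec
      mkLine := fun e => (h1 _ _ e).choose
      mkLine_ax := fun e => (h1 _ _ e).choose_spec
      exists_config := ⟨a, b, b', l, l', n, e7, fun e => e9 ((h3 e3 e4 e f2).resolve_left e1 ▸ f1),
        e9, e5, f1, e10, e6, fun e => e8 ((h3 f1 e e5 e6).resolve_left e2 ▸ f2)⟩ }
  exact ⟨_, of_plane⟩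

/-- the full collineation group -/
def Aut (I : P → L → Prop) : Subgroup (Equiv.Perm P × Equiv.Perm L) where
  carrier := {g | ∀ p l, I (g.1 p) (g.2 l) ↔ I p l}
  one_mem' := fun _ _ => Iff.rfl
  mul_mem' := fun ha hb p l => (ha _ _).trans (hb p l)
  inv_mem' := fun {a} ha p l => by simpa using (ha (a.1⁻¹ p) (a.2⁻¹ l)).symm

instance (I : P → L → Prop) : MulAction (Aut I) P :=
  MulAction.compHom P ((MonoidHom.fst _ _).comp (Aut I).subtype)

instance (I : P → L → Prop) : MulAction (Aut I) L :=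
  MulAction.compHom L ((MonoidHom.snd _ _).comp (Aut I).subtype)

variable (G : Type*) [Group G] [MulAction G P] [MulAction G L]

def Inv (I : P → L → Prop) : Prop := ∀ (g : G) p l, I (g • p) (g • l) ↔ I p l

theorem inv_aut (I : P → L → Prop) : Inv (Aut I) I := fun g => g.2

variable {G}

/-- `c` is a centre of `g` -/
def Cen (I : P → L → Prop) (g : G) (c : P) : Prop := ∀ l, I c l → g • l = l

variable (G) in
/-- there is an involutory homology with centre `c` and axis `l` -/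
def Hm (I : P → L → Prop) (c : P) (l : L) : Prop :=
  ¬ I c l ∧ ∃ h : G, h * h = 1 ∧ h ≠ 1 ∧ Cen I h c ∧ Cen (flip I) h l

theorem Hm.dual {I : P → L → Prop} {c : P} {l : L} (h : Hm G I c l) : Hm G (flip I) l c :=
  let ⟨h1, g, h2, h3, h4, h5⟩ := h; ⟨h1, g, h2, h3, h5, h4⟩

theorem Inv.dual {I : P → L → Prop} (v : Inv G I) : Inv G (flip I) := fun g l p => v g p l

theorem Inv.conj {I : P → L → Prop} (v : Inv G I) {g : G} {c : P} (h : Cen I g c) (k : G) :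
    Cen I (k * g * k⁻¹) (k • c) := fun l hl => by
  have := fix_conj (g := k) (h (k⁻¹ • l) (by rwa [← v k, smul_inv_smul]))
  rwa [smul_inv_smul] at this

theorem Cen.mul {I : P → L → Prop} {g k : G} {c : P} (h : Cen I g c) (h' : Cen I k c) :
    Cen I (g * k) c := fun l hl => by rw [mul_smul, h' l hl, h l hl]

theorem Cen.inv {I : P → L → Prop} {g : G} {c : P} (h : Cen I g c) : Cen I g⁻¹ c :=
  fun l hl => inv_fix (h l hl)

/-- the restricted incidence -/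
abbrev sub (I : P → L → Prop) (A : Subgroup G) (p : fixedPoints A P) (l : fixedPoints A L) : Prop :=
  I p l

theorem smul_mem_fix {X : Type*} [MulAction G X] {A : Subgroup G} {g : G}
    (hg : g ∈ Subgroup.normalizer (A : Set G)) (x : X) :
    g • x ∈ fixedPoints A X ↔ x ∈ fixedPoints A X :=
  ⟨fun e a => show (a : G) • x = x by simpa [mul_smul] using e ⟨g * a * g⁻¹, (hg a).1 a.2⟩,
    fun e a => show (a : G) • g • x = _ by
      simpa [mul_assoc] using fix_conj (g := g) (e ⟨g⁻¹ * a * g⁻¹⁻¹, (inv_mem hg a).1 a.2⟩)⟩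

theorem exists_res {I : P → L → Prop} (v : Inv G I) {A : Subgroup G} {g : G}
    (hg : g ∈ Subgroup.normalizer (A : Set G)) :
    ∃ t : Aut (sub I A), (∀ p : fixedPoints A P, (t • p).1 = g • p.1) ∧
      ∀ l : fixedPoints A L, (t • l).1 = g • l.1 :=
  ⟨⟨((toPerm g).subtypePerm (smul_mem_fix hg), (toPerm g).subtypePerm (smul_mem_fix hg)),
    fun p l => v g p l⟩, fun _ => rfl, fun _ => rfl⟩

theorem ncard_sub {X : Type*} (S : Set X) (p : X → Prop) :
    {x : S | p x}.ncard = {x | x ∈ S ∧ p x}.ncard := by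
  rw [← Set.ncard_image_of_injective _ Subtype.val_injective]
  congr 1; ext; simp [and_comm]

namespace PP
variable {I : P → L → Prop} {m : ℕ} (h : PP I m)
include h

theorem dual : PP (flip I) m :=
  ⟨h.point, h.line, fun a b c d => (h.uniq a c b d).symm, h.two, h.cl, h.cp, h.cL, h.cP⟩

theorem leq {p q : P} {l l' : L} (e : p ≠ q) (a : I p l) (b : I q l) (c : I p l') (d : I q l') :
    l = l' := (h.uniq a b c d).resolve_left e

theorem peq {p q : P} {l l' : L} (e : l ≠ l') (a : I p l) (b : I q l) (c : I p l') (d : I q l') :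
    p = q := (h.uniq a b c d).resolve_right e

theorem third (l : L) (a b : P) : ∃ c, I c l ∧ c ≠ a ∧ c ≠ b := by
  by_contra! H
  have := Set.ncard_le_ncard (s := {p | I p l}) (t := {a, b})
    (fun c hc => or_iff_not_imp_left.2 (H c hc))
  have := Set.ncard_insert_le a {b}
  rw [Set.ncard_singleton] at this
  have := h.two
  have := h.cp l
  omega

theorem off (l : L) (a : P) : ∃ p, ¬ I p l ∧ p ≠ a := by
  obtain ⟨c, h1, -⟩ := h.third l a a
  obtain ⟨k, h2, h3, -⟩ := h.dual.third c l l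
  obtain ⟨p, h4, h5, h6⟩ := h.third k c a
  exact ⟨p, fun e => h5 (h.peq h3 h4 h2 e h1), h6⟩

theorem quad : Quad I Set.univ := by
  obtain ⟨c⟩ : Nonempty P := (Nat.card_pos_iff.1 (h.cP ▸ Nat.succ_pos _)).1
  obtain ⟨l, h1, -⟩ := h.line c c
  obtain ⟨k, h2, h3, -⟩ := h.dual.third c l l
  obtain ⟨a, a1, a2, -⟩ := h.third l c c
  obtain ⟨a', a3, a4, a5⟩ := h.third l c a
  obtain ⟨b, b1, b2, -⟩ := h.third k c c
  obtain ⟨b', b3, b4, b5⟩ := h.third k c b
  exact ⟨l, k, a, a', b, b', trivial, trivial, trivial, trivial, a5.symm, b5.symm, a1, a3, b1, b3,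
    fun e => a2 (h.peq h3 e h2 a1 h1), fun e => a4 (h.peq h3 e h2 a3 h1),
    fun e => b2 (h.peq h3 b1 h2 e h1), fun e => b4 (h.peq h3 b3 h2 e h1)⟩

theorem ncard_off (l : L) [Finite P] : {p | ¬ I p l}.ncard = m ^ 2 := by
  have := Set.ncard_add_ncard_compl {p | I p l}
  rw [h.cp, h.cP] at this
  change _ + {p | ¬ I p l}.ncard = _ at this
  omega

open Classical Finset in
theorem sum_fix [Fintype P] [Fintype L] (f : P → P) :
    ∑ p, #{l | I p l ∧ I (f p) l} = m * #{p | f p = p} + (m ^ 2 + m + 1) := by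
  rw [← h.cP, Nat.card_eq_fintype_card, card_filter, mul_sum, ← card_univ, card_eq_sum_ones,
    ← sum_add_distrib]
  refine sum_congr rfl fun p _ => ?_
  split_ifs with e
  · simpa [e, Set.ncard_eq_toFinset_card'] using h.cl p
  · obtain ⟨l, a, b⟩ := h.line p (f p)
    simp only [mul_zero, zero_add, card_eq_one]
    exact ⟨l, eq_singleton_iff_unique_mem.2 ⟨by simp [a, b], fun k hk =>
      h.leq (Ne.symm e) (mem_filter.1 hk).2.1 (mem_filter.1 hk).2.2 a b⟩⟩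

variable (v : Inv G I)
include v

theorem fixL {g : G} {p q : P} {l : L} (e : p ≠ q) (a : I p l) (b : I q l) (hp : g • p = p)
    (hq : g • q = q) : g • l = l :=
  h.leq e (by rw [← hp, v]; exact a) (by rw [← hq, v]; exact b) a b

theorem fixP {g : G} {p : P} {l l' : L} (e : l ≠ l') (a : I p l) (b : I p l') (hp : g • l = l)
    (hq : g • l' = l') : g • p = p := h.dual.fixL v.dual e a b hp hq

theorem triv_of_off {g : G} {l : L} (H : ∀ p, ¬ I p l → g • p = p) (p : P) : g • p = p := by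
  by_cases e : I p l
  swap
  · exact H p e
  have key : ∀ k, I p k → k ≠ l → g • k = k := fun k h1 h2 => by
    obtain ⟨a, a1, a2, -⟩ := h.third k p p
    obtain ⟨b, b1, b2, b3⟩ := h.third k p a
    exact h.fixL v b3 b1 a1 (H b fun e' => b2 (h.peq h2 b1 h1 e' e))
      (H a fun e' => a2 (h.peq h2 a1 h1 e' e))
  obtain ⟨k, a1, a2, -⟩ := h.dual.third p l l
  obtain ⟨k', b1, b2, b3⟩ := h.dual.third p l k
  exact h.fixP v b3 b1 a1 (key _ b1 b2) (key _ a1 a2)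

theorem two_cen {g : G} {c c' : P} (e : c ≠ c') (h1 : Cen I g c) (h2 : Cen I g c') (p : P) :
    g • p = p := by
  obtain ⟨l, a, b⟩ := h.line c c'
  refine h.triv_of_off v (l := l) (fun p hp => ?_) p
  obtain ⟨k, a1, a2⟩ := h.line p c
  obtain ⟨k', b1, b2⟩ := h.line p c'
  exact h.fixP v (l := k) (l' := k') (fun e' => hp (h.leq e a2 (e' ▸ b2) a b ▸ a1)) a1 b1 (h1 k a2) (h2 k' b2)

theorem ax_cen {g : G} {l : L} {w : P} (h1 : Cen (flip I) g l) (hw : ¬ I w l) (e : g • w = w) :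
    Cen I g w := fun k hk => by
  obtain ⟨p, a, b⟩ := h.point k l
  exact h.fixL v (p := w) (q := p) (fun e => hw (e ▸ b)) hk a e (h1 p b)

theorem cen_fix {g : G} {c : P} (h1 : Cen I g c) : g • c = c := by
  obtain ⟨l, a, -⟩ := h.line c c
  obtain ⟨k, b, e, -⟩ := h.dual.third c l l
  exact h.fixP v e b a (h1 k b) (h1 l a)

theorem triv_dual {g : G} (H : ∀ l : L, g • l = l) (p : P) : g • p = p :=
  h.cen_fix v fun l _ => H l

theorem sub_pp [Finite P] [Finite L] {A : Subgroup G} (H : Quad I (fixedPoints A P)) :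
    ∃ k, PP (sub I A) k := by
  obtain ⟨l, l', a, a', b, b', h1, h2, h3, h4, e1, e2, e3, e4, e5, e6, e⟩ := H
  refine of_quad (fun p q e => ?_) (fun p q e => ?_) (fun a b c d => (h.uniq a b c d).imp
    Subtype.ext Subtype.ext) ⟨⟨l, fun g => h.fixL v e1 e3 e4 (h1 g) (h2 g)⟩,
    ⟨l', fun g => h.fixL v e2 e5 e6 (h3 g) (h4 g)⟩, ⟨a, h1⟩, ⟨a', h2⟩, ⟨b, h3⟩, ⟨b', h4⟩, trivial,
    trivial, trivial, trivial, fun e => e1 (congrArg Subtype.val e),
    fun e => e2 (congrArg Subtype.val e), e3, e4, e5, e6, e⟩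
  · obtain ⟨l, a, b⟩ := h.line p q
    exact ⟨⟨l, fun g => h.fixL v (fun e' => e (Subtype.ext e')) a b (p.2 g) (q.2 g)⟩, a, b⟩
  · obtain ⟨l, a, b⟩ := h.point p q
    exact ⟨⟨l, fun g => h.fixP v (fun e' => e (Subtype.ext e')) a b (p.2 g) (q.2 g)⟩, a, b⟩

open Classical Finset in
theorem fix_eq [Finite P] [Finite L] (g : G) :
    Nat.card (fixedBy P g) = Nat.card (fixedBy L g) := by
  have := Fintype.ofFinite P
  have := Fintype.ofFinite L
  have h1 := dc univ univ fun p l => I p l ∧ I (g • p) l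
  have h2 := h.dual.sum_fix fun l => g⁻¹ • l
  have h3 : ∀ p l, I p (g⁻¹ • l) ↔ I (g • p) l := fun p l => by rw [← v g, smul_inv_smul]
  simp only [flip, h3, inv_smul_eq_iff, eq_comm (b := g • _)] at h2
  have h4 := (h.sum_fix (g • ·)).symm.trans (Eq.trans (by convert h1) h2)
  rw [add_left_inj, mul_right_inj' (by have := h.two; omega)] at h4
  simpa [Nat.card_eq_card_toFinset, fixedBy] using h4

theorem fix_line {t : G} (ht : t * t = 1) {w : P} (hw : t • w ≠ w) : ∃ k, I w k ∧ t • k = k := by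
  obtain ⟨k, a, b⟩ := h.line w (t • w)
  exact ⟨k, a, h.leq hw ((v t _ _).2 a) (by
    have := (v t _ _).2 b; rwa [← mul_smul, ht, one_smul] at this) b a⟩

theorem other_line {t : G} (ht : t * t = 1) (l : L) : ∃ k, k ≠ l ∧ t • k = k := by
  obtain ⟨x, -⟩ := h.point l l
  obtain ⟨a, a1, -⟩ := h.off l x
  obtain ⟨b, b1, b2⟩ := h.off l a
  by_cases e : t • a = a
  · by_cases e' : t • b = b
    · obtain ⟨k, c1, c2⟩ := h.line a b
      exact ⟨k, fun e => a1 (e ▸ c1), h.fixL v b2 c2 c1 e' e⟩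
    · obtain ⟨k, c1, c2⟩ := h.fix_line v ht e'
      exact ⟨k, fun e => b1 (e ▸ c1), c2⟩
  · obtain ⟨k, c1, c2⟩ := h.fix_line v ht e
    exact ⟨k, fun e => a1 (e ▸ c1), c2⟩

omit v in
theorem quad_nv {S : Set P} {a b d s s' : P} {l k : L} (ha : a ∈ S) (hb : b ∈ S) (hs : s ∈ S)
    (hs' : s' ∈ S) (b1 : I b l) (d1 : I d l) (s1 : I s l) (a2 : I a k) (d2 : I d k) (s2 : I s' k)
    (e1 : ¬ I a l) (e2 : ¬ I b k) (e3 : s ≠ b) (e4 : s ≠ d) (e5 : s' ≠ a) (e6 : s' ≠ d) : Quad I S :=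
  have e : l ≠ k := fun e => e1 (e ▸ a2)
  ⟨l, k, b, s, a, s', hb, hs, ha, hs', e3.symm, e5.symm, b1, s1, a2, s2, e2,
    fun f => e4 (h.peq e s1 d1 f d2), e1, fun f => e6 (h.peq e f d1 s2 d2)⟩

theorem cen_of {t : G} (ht : t * t = 1) {a b d : P} {l k n : L} (ha : t • a = a) (hl : t • l = l)
    (hk : t • k = k) (hn : t • n = n) (b1 : I b l) (d1 : I d l) (a2 : I a k) (a3 : I a n) (e1 : ¬ I a l) (e : b ≠ d)
    (H1 : ∀ s, I s k → t • s = s → s = a ∨ s = d) (H2 : ∀ s, I s n → t • s = s → s = a ∨ s = b) :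
    Cen I t a ∧ Cen (flip I) t l := by
  have h1 : Cen I t a := fun N hN => by
    by_cases e2 : N = k
    · exact e2 ▸ hk
    by_cases e3 : N = n
    · exact e3 ▸ hn
    obtain ⟨s, s1, s2⟩ := h.point N l
    obtain ⟨w, w1, w2, w3⟩ := h.third N a s
    by_cases e4 : t • w = w
    · exact h.fixL v w2 w1 hN e4 ha
    obtain ⟨M, m1, m2⟩ := h.fix_line v ht e4
    suffices I a M from h.leq w2 m1 this w1 hN ▸ m2
    by_contra e5
    obtain ⟨x, x1, x2⟩ := h.point M k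
    obtain ⟨y, y1, y2⟩ := h.point M n
    obtain rfl := (H1 x x2 (h.fixP v (l := M) (l' := k) (fun e => e5 (e ▸ a2)) x1 x2 m2 hk)).resolve_left
      fun e => e5 (e ▸ x1)
    obtain rfl := (H2 y y2 (h.fixP v (l := M) (l' := n) (fun e => e5 (e ▸ a3)) y1 y2 m2 hn)).resolve_left
      fun e => e5 (e ▸ y1)
    exact w3 (h.peq (l := N) (l' := l) (fun e => e1 (e ▸ hN)) w1 s1 (h.leq e y1 x1 b1 d1 ▸ m1) s2)
  refine ⟨h1, fun s hs => ?_⟩
  obtain ⟨N, n1, n2⟩ := h.line a s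
  exact h.fixP v (l := N) (l' := l) (fun e => e1 (e ▸ n1)) n2 hs (h1 N n1) hl

theorem tri [Finite P] (hm : Odd m) {t : G} (ht : t * t = 1) (hq : ¬ Quad I (fixedBy P t)) {a b : P}
    {l : L} (ha : t • a = a) (hb : t • b = b) (hl : t • l = l) (b1 : I b l) (e1 : ¬ I a l) :
    Hm G I a l ∨ (∃ k, I a k ∧ Hm G I b k) ∨ ∃ c k, I c l ∧ I a k ∧ I b k ∧ Hm G I c k := by
  have t1 : t ≠ 1 := by rintro rfl; exact hq (h.quad.mono fun x _ => one_smul _ x)
  obtain ⟨d, ⟨d1, hd⟩, e⟩ : ∃ d ∈ {x ∈ {p | I p l} | t • x = x}, d ≠ b := by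
    have := ncard_modEq_fixedBy (p := 2) (k := 1) (g := t) (by simpa [sq] using ht) {p | I p l}
      (Set.toFinite _) fun x hx => by rw [← hl]; exact (v _ _ _).2 hx
    refine Set.exists_ne_of_one_lt_ncard ?_ b
    have h2 := (Set.ncard_pos (s := {x ∈ {p | I p l} | t • x = x})).2 ⟨b, b1, hb⟩
    rw [h.cp, Nat.ModEq] at this
    obtain ⟨r, rfl⟩ := hm
    omega
  obtain ⟨k, a2, d2⟩ := h.line a d
  obtain ⟨n, a3, b3⟩ := h.line a b
  have f1 : a ≠ d := fun e => e1 (e ▸ d1)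
  have f2 : a ≠ b := fun e => e1 (e ▸ b1)
  have e2 : ¬ I b k := fun f => e1 (h.leq e d2 f d1 b1 ▸ a2)
  have e3 : ¬ I d n := fun f => e1 (h.leq e f b3 d1 b1 ▸ a3)
  have hk := h.fixL v f1 a2 d2 ha hd
  have hn := h.fixL v f2 a3 b3 ha hb
  by_cases H1 : ∀ s, I s k → t • s = s → s = a ∨ s = d <;>
    by_cases H2 : ∀ s, I s n → t • s = s → s = a ∨ s = b
  · exact .inl ⟨e1, t, ht, t1, h.cen_of v ht ha hl hk hn b1 d1 a2 a3 e1 e.symm H1 H2⟩
  · push Not at H2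
    obtain ⟨s, s1, s2, s3, s4⟩ := H2
    exact .inr (.inr ⟨d, n, d1, a3, b3, e3, t, ht, t1, h.cen_of v ht hd hn hk hl b3 a3 d2 d1 e3
      f2.symm (fun s e e' => (H1 s e e').symm) fun u e e' => by_contra fun f => hq
        (h.quad_nv (S := fixedBy P t) hd ha s2 e' a3 b3 s1 d1 b1 e e3 e1 s3 s4 (not_or.1 f).1
          (not_or.1 f).2)⟩)
  · push Not at H1
    obtain ⟨s, s1, s2, s3, s4⟩ := H1
    exact .inr (.inl ⟨k, a2, e2, t, ht, t1, h.cen_of v ht hb hk hn hl d2 a2 b3 b1 e2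
      f1.symm (fun s e e' => (H2 s e e').symm) fun u e e' => by_contra fun f => hq
        (h.quad_nv (S := fixedBy P t) hb ha s2 e' a2 d2 s1 b1 d1 e e2 e1 s3 s4 (not_or.1 f).1
          (not_or.1 f).2)⟩)
  · push Not at H1 H2
    obtain ⟨s, s1, s2, s3, s4⟩ := H1
    obtain ⟨u, u1, u2, u3, u4⟩ := H2
    exact absurd (h.quad_nv (S := fixedBy P t) hb hd s2 u2 d2 a2 s1 b3 a3 u1 e2 e3 s4 s3 u4 u3) hq

theorem quad_of_tri [Finite P] {p : ℕ} [hp : Fact p.Prime] (hm : p ∣ m) {A : Subgroup G}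
    (hA : IsPGroup p A) {a b d : P} {l k : L} (ha : a ∈ fixedPoints A P) (hb : b ∈ fixedPoints A P)
    (hd : d ∈ fixedPoints A P) (b1 : I b l) (d1 : I d l) (a2 : I a k) (d2 : I d k) (e1 : ¬ I a l)
    (e2 : ¬ I b k) : Quad I (fixedPoints A P) := by
  have key : ∀ {b l}, b ∈ fixedPoints A P → b ≠ d → I b l → I d l →
      ∃ s ∈ fixedPoints A P, I s l ∧ s ≠ b ∧ s ≠ d := fun {b l} hb e b1 d1 => by
    by_contra! H
    have := ncard_modEq_fixed A hA {p | I p l} (Set.toFinite _) fun g hg x hx => by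
      rw [← h.fixL v e b1 d1 (hb ⟨g, hg⟩) (hd ⟨g, hg⟩)]; exact (v _ _ _).2 hx
    rw [h.cp, show {x ∈ {p | I p l} | ∀ g ∈ A, g • x = x} = {b, d} from Set.ext fun x =>
      ⟨fun hx => or_iff_not_imp_left.2 (H x (fun g => hx.2 g g.2) hx.1), by
        rintro (rfl | rfl)
        exacts [⟨b1, fun g hg => hb ⟨g, hg⟩⟩, ⟨d1, fun g hg => hd ⟨g, hg⟩⟩]⟩, Set.ncard_pair e] at this
    exact hp.out.one_lt.ne' (Nat.dvd_one.1 ((Nat.modEq_zero_iff_dvd.1 ((Nat.ModEq.add_right_cancel' 1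
      this).symm.trans (Nat.modEq_zero_iff_dvd.2 hm)))))
  obtain ⟨s, s1, s2, s3, s4⟩ := key hb (fun e => e2 (e ▸ d2)) b1 d1
  obtain ⟨u, u1, u2, u3, u4⟩ := key ha (fun e => e1 (e ▸ d1)) a2 d2
  exact h.quad_nv ha hb s1 u1 b1 d1 s2 a2 d2 u2 e1 e2 s3 s4 u3 u4

theorem baer [Finite P] [Finite L] {t : G} (ht : t * t = 1) {k : ℕ} (hq : Quad I (fixedBy P t))
    (hk : (fixedBy P t).ncard = k ^ 2 + k + 1) : m = k ∨ m = k ^ 2 := by
  have e1 : fixedPoints (Subgroup.zpowers t) P = fixedBy P t := Set.ext fun x =>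
    ⟨fun e => e ⟨t, Subgroup.mem_zpowers t⟩, fun e g => Subgroup.zpowers_le.2 (mem_stabilizer_iff.2 e) g.2⟩
  have e2 : fixedPoints (Subgroup.zpowers t) L = fixedBy L t := Set.ext fun x =>
    ⟨fun e => e ⟨t, Subgroup.mem_zpowers t⟩, fun e g => Subgroup.zpowers_le.2 (mem_stabilizer_iff.2 e) g.2⟩
  obtain ⟨j, hj⟩ := h.sub_pp v (e1 ▸ hq)
  have h1 := hj.cP
  have h2 := hj.cL
  rw [e1, Nat.card_coe_set_eq, hk] at h1
  obtain rfl : k = j := by nlinarith
  rw [e2, Nat.card_coe_set_eq] at h2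
  have h3 : ∀ l ∈ fixedBy L t, ({p | I p l} \ fixedBy P t).ncard + (k + 1) = m + 1 := fun l hl => by
    rw [← h.cp l, ← hj.cp ⟨l, e2 ▸ hl⟩, ncard_sub _ (I · l), e1,
      ← Set.ncard_inter_add_ncard_sdiff_eq_ncard {p | I p l} (fixedBy P t), add_comm, Set.inter_comm]
    rfl
  have h4 := Set.Finite.ncard_biUnion (Set.toFinite (fixedBy L t))
    (s := fun l => {p | I p l} \ fixedBy P t) (fun _ _ => Set.toFinite _) fun l hl l' hl' e =>
      Set.disjoint_left.2 fun p a b => a.2 (h.fixP v e a.1 b.1 hl hl')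
  rw [finsum_mem_congr rfl (g := fun _ => m - k) fun l hl => by have := h3 l hl; omega,
    finsum_mem_eq_finite_toFinset_sum _ (Set.toFinite _), Finset.sum_const,
    ← Set.ncard_eq_toFinset_card, smul_eq_mul, h2, show (⋃ l ∈ fixedBy L t, {p | I p l} \ fixedBy P t)
      = (fixedBy P t)ᶜ from Set.ext fun p => ⟨fun e => let ⟨_, _, e⟩ := Set.mem_iUnion₂.1 e; e.2,
        fun e => let ⟨l, a, b⟩ := h.fix_line v ht e; Set.mem_iUnion₂.2 ⟨l, b, a, e⟩⟩] at h4
  have h5 := Set.ncard_add_ncard_compl (fixedBy P t)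
  rw [hk, h4, h.cP] at h5
  obtain ⟨l, hl⟩ := Set.nonempty_of_ncard_ne_zero (h2.trans_ne (Nat.succ_ne_zero _))
  obtain ⟨r, rfl⟩ : ∃ r, m = k + r := ⟨m - k, by have := h3 l hl; omega⟩
  rw [add_tsub_cancel_left] at h5
  rcases Nat.eq_zero_or_pos r with rfl | hr
  · exact .inl rfl
  · exact .inr (Nat.eq_of_mul_eq_mul_left hr (by nlinarith))

theorem el_triv {g : G} {c w : P} {l : L} (h1 : Cen (flip I) g l) (h2 : I c l) (h3 : Cen I g c)
    (hw : ¬ I w l) (e : g • w = w) (p : P) : g • p = p :=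
  h.two_cen v (c := c) (c' := w) (fun e => hw (e ▸ h2)) h3 (h.ax_cen v h1 hw e) p

theorem ax_center {g : G} {l : L} (h1 : Cen (flip I) g l) (H : ∀ w, ¬ I w l → g • w ≠ w) :
    ∃ c, I c l ∧ Cen I g c := by
  have key : ∀ w, ¬ I w l → ∃ k, I w k ∧ g • k = k := fun w hw => by
    obtain ⟨k, a, b⟩ := h.line w (g • w)
    obtain ⟨c, c1, c2⟩ := h.point k l
    refine ⟨k, a, h.leq (p := g • w) (q := c) (fun e => hw ?_) ((v g _ _).2 a)
      (by rw [← h1 c c2, v]; exact c1) b c1⟩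
    rw [← h1 c c2, smul_left_cancel_iff] at e
    exact e ▸ c2
  obtain ⟨x, -⟩ := h.point l l
  obtain ⟨w, hw, -⟩ := h.off l x
  obtain ⟨k, a, b⟩ := key w hw
  obtain ⟨c, c1, c2⟩ := h.point k l
  refine ⟨c, c2, fun n hn => ?_⟩
  by_cases e : n = l
  · exact e ▸ h.dual.cen_fix v.dual h1
  obtain ⟨u, u1, u2, -⟩ := h.third n c c
  have u3 : ¬ I u l := fun f => u2 (h.peq e u1 hn f c2)
  obtain ⟨k', a', b'⟩ := key u u3
  suffices I c k' from h.leq u2 a' this u1 hn ▸ b'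
  by_cases e' : k = k'
  · exact e' ▸ c1
  obtain ⟨s, s1, s2⟩ := h.point k k'
  exact h.peq (l := k) (l' := l) (fun e => hw (e ▸ a)) s1 c1
    (by_contra fun f => H s f (h.fixP v e' s1 s2 b b')) c2 ▸ s2

/-- elations with axis `l` -/
def E (l : L) : Subgroup G where
  carrier := {g | Cen (flip I) g l ∧ ∃ c, I c l ∧ Cen I g c}
  one_mem' := ⟨fun _ _ => one_smul _ _, let ⟨c, e, _⟩ := h.point l l; ⟨c, e, fun _ _ => one_smul _ _⟩⟩
  inv_mem' := fun ⟨h1, c, h2, h3⟩ => ⟨h1.inv, c, h2, h3.inv⟩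
  mul_mem' := by
    rintro a b ⟨a1, c, a2, a3⟩ ⟨b1, d, b2, b3⟩
    refine ⟨a1.mul b1, ?_⟩
    by_cases e : c = d
    · exact ⟨c, a2, a3.mul (e ▸ b3)⟩
    by_cases H : ∀ w, ¬ I w l → (a * b) • w ≠ w
    · exact h.ax_center v (a1.mul b1) H
    push Not at H
    obtain ⟨w, hw, e1⟩ := H
    refine ⟨c, a2, a3.mul fun n _ => h.dual.triv_dual v.dual (h.el_triv v b1 b2 b3 hw ?_) n⟩
    by_contra e2
    obtain ⟨k, k1, k2⟩ := h.line w c
    obtain ⟨n, n1, n2⟩ := h.line w d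
    obtain rfl : k = n := h.leq e2 (by rw [← v a, ← mul_smul, e1, a3 k k2]; exact k1) k1
      (by rw [← b3 n n2, v]; exact n1) n1
    exact hw (h.leq e k2 n2 a2 b2 ▸ k1)

variable (fa : ∀ g : G, (∀ p : P, g • p = p) → g = 1) [Finite G] [Finite P] [Finite L]
include fa

omit [Finite G] [Finite P] [Finite L] in
theorem fa_dual (g : G) (H : ∀ l : L, g • l = l) : g = 1 := fa g (h.triv_dual v H)

theorem hm_orbit {c c' : P} {l : L} (h1 : Hm G I c l) (h2 : Hm G I c' l) :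
    ∃ e ∈ h.E v l, e • c = c' := by
  choose! f f1 f2 f3 f4 using fun c (e : Hm G I c l) => e.2
  have key : ∀ g : G, g ≠ 1 → Cen (flip I) g l → ∀ {a b}, ¬ I a l → ¬ I b l → g • a = a → g • b = b →
      a = b := fun g g1 g2 a b ha hb e e' => by_contra fun f =>
    g1 (fa g (h.two_cen v f (h.ax_cen v g2 ha e) (h.ax_cen v g2 hb e')))
  have h3 : ∀ d, Hm G I d l → f d * f c ∈ h.E v l := fun d hd => by
    by_cases e : f d * f c = 1
    · exact e ▸ one_mem _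
    refine ⟨(f4 d hd).mul (f4 c h1), h.ax_center v ((f4 d hd).mul (f4 c h1)) fun w hw e1 => e ?_⟩
    have h4 : ∀ t : G, t * t = 1 → Cen (flip I) t l → ¬ I (t • w) l := fun t _ t2 => by
      rwa [← h.dual.cen_fix v.dual t2, v]
    have e2 : f c • w = f d • w := by
      rw [← smul_left_cancel_iff (f d), ← mul_smul, e1, ← mul_smul, f1 d hd, one_smul]
    have e3 : f c • w = w := key _ e ((f4 d hd).mul (f4 c h1)) (h4 _ (f1 c h1) (f4 c h1)) hw
      (by rw [← mul_smul, mul_assoc, f1 c h1, mul_one, e2]) e1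
    rw [key _ (f2 d hd) (f4 d hd) hd.1 hw (h.cen_fix v (f3 d hd)) (e2 ▸ e3),
      ← key _ (f2 c h1) (f4 c h1) h1.1 hw (h.cen_fix v (f3 c h1)) e3, f1 c h1]
  refine mem_orbit'.1 ((Set.eq_of_subset_of_ncard_le (t := {d | Hm G I d l}) (fun d hd => ?_) ?_).ge h2)
  · obtain ⟨e, he, rfl⟩ := mem_orbit'.1 hd
    have e1 := h.dual.cen_fix v.dual he.1
    exact ⟨by rw [← e1, v]; exact h1.1, e * f c * e⁻¹, by simp [mul_assoc, ← mul_assoc (f c), f1 c h1],
      by simpa using f2 c h1, v.conj (f3 c h1) e, e1 ▸ v.dual.conj (f4 c h1) e⟩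
  have h4 := card_eq_orbit (h.E v l) c
  rw [show h.E v l ⊓ stabilizer G c = ⊥ from eq_bot_iff.2 fun e ⟨⟨a, d, b, b'⟩, e'⟩ =>
    fa e (h.el_triv v a b b' h1.1 e'), Subgroup.card_bot, mul_one] at h4
  exact h4 ▸ Set.ncard_le_ncard_of_injOn (t := h.E v l) (fun d => f d * f c) h3 fun d hd d' hd' e =>
    by_contra fun e' => f2 d hd (fa _ (h.two_cen v e' (f3 d hd) (mul_right_cancel e ▸ f3 d' hd')))

/-- the elations with axis `l` are transitive on the other lines through `b` -/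
def Tr (b : P) (l : L) : Prop :=
  ∀ k k', I b k → I b k' → k ≠ l → k' ≠ l → ∃ e ∈ h.E v l, e • k = k'

theorem tr_of (hm : Odd m) {a b : P} {l : L} (ha : I a l) (hb : I b l) (hab : a ≠ b)
    (H : ∀ k, I b k → k ≠ l → Hm G I a k ∨ ∃ c, I c k ∧ Hm G I c l) : h.Tr v b l := by
  have h1 : ∀ k k', I b k → I b k' → k ≠ l → k' ≠ l → (Hm G I a k ↔ Hm G I a k') →
      k' ∈ orbit (h.E v l) k := fun k k' k1 k2 k3 k4 e => by
    by_cases e1 : Hm G I a k
    · obtain ⟨e, ⟨e2, n, e3, e4⟩, e5⟩ := h.dual.hm_orbit v.dual (h.fa_dual v fa) e1.dual (e.1 e1).dual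
      refine mem_orbit'.2 ⟨e, ?_, e5⟩
      by_cases e6 : I b n
      · exact ⟨h.leq hab e3 e6 ha hb ▸ e4, a, ha, e2⟩
      · refine fa e (h.two_cen v hab e2 (h.ax_cen v e4 e6 (h.peq k4 ?_ k2 ?_ hb))) ▸ one_mem _
        · rw [← e5, v]; exact k1
        · rw [← e2 l ha, v]; exact hb
    obtain ⟨c, c1, c2⟩ := (H k k1 k3).resolve_left e1
    obtain ⟨d, d1, d2⟩ := (H k' k2 k4).resolve_left (mt e.2 e1)
    obtain ⟨e, e2, rfl⟩ := h.hm_orbit v fa c2 d2
    exact mem_orbit'.2 ⟨e, e2, h.leq (p := b) (q := e • c) (fun f => d2.1 (f ▸ hb))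
      (by rw [← e2.1 b hb, v]; exact k1) ((v _ _ _).2 c1) k2 d1⟩
  have h2 : ∀ k, I b k → k ≠ l → orbit (h.E v l) k ⊆ {k | I b k} \ {l} := fun k k1 k2 n hn => by
    obtain ⟨e, he, rfl⟩ := mem_orbit'.1 hn
    exact ⟨show I b _ by rw [← he.1 b hb, v]; exact k1, fun f => k2 (MulAction.injective e
      (f.trans (h.dual.cen_fix v.dual he.1).symm))⟩
  have h3 : ∀ k k', I b k → I b k' → k ≠ l → h.E v l ⊓ stabilizer G k ≤ h.E v l ⊓ stabilizer G k' := by
    rintro k k' k1 k2 k3 e ⟨⟨e1, c, e2, e3⟩, e4⟩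
    refine ⟨⟨e1, c, e2, e3⟩, ?_⟩
    by_cases e5 : c = b
    · exact e3 k' (e5 ▸ k2)
    obtain ⟨w, w1, w2, -⟩ := h.third k b b
    obtain ⟨n, n1, n2⟩ := h.line w c
    exact fa e (h.el_triv v e1 e2 e3 (fun f => w2 (h.peq k3 w1 k1 f hb)) (h.fixP v (l := k) (l' := n)
      (fun f => e5 (h.peq k3 (f ▸ n2) k1 e2 hb)) w1 n1 e4 (e3 n n2))) ▸ one_mem _
  intro k k' k1 k2 k3 k4
  by_contra e
  have h4 := card_eq_orbit (h.E v l) k
  rw [card_eq_orbit _ k', le_antisymm (h3 k k' k1 k2 k3) (h3 k' k k2 k1 k4),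
    mul_left_inj' Nat.card_pos.ne'] at h4
  have h5 := Set.ncard_sdiff_singleton_of_mem (s := {k | I b k}) hb
  rw [h.cl, add_tsub_cancel_right, ← (Set.union_subset (h2 k k1 k3) (h2 k' k2 k4)).antisymm
    fun n hn => by
      by_cases f : Hm G I a k ↔ Hm G I a n
      · exact .inl (h1 k n k1 hn.1 k3 hn.2 f)
      · exact .inr (h1 k' n k2 hn.1 k4 hn.2 (by
          have := mt (fun f => mem_orbit'.1 (h1 k k' k1 k2 k3 k4 f)) e
          tauto)),
    Set.ncard_union_eq (Set.disjoint_left.2 fun n a b => e (mem_orbit'.1 (by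
      rw [← orbit_eq_iff.2 a, orbit_eq_iff.2 b]; exact mem_orbit_self _))), h4] at h5
  obtain ⟨r, rfl⟩ := hm
  omega

theorem pp_of_two {b c d : P} {l : L} (hb : I b l) (H : h.Tr v b l) {e f : G} (he : e ∈ h.E v l)
    (hf : f ∈ h.E v l) (e1 : e ≠ 1) (f1 : f ≠ 1) (e2 : Cen I e c) (f2 : Cen I f d) (hcd : c ≠ d) :
    IsPrimePow m := by
  have u : ∀ {g : G} {c d}, Cen I g c → Cen I g d → c ≠ d → g = 1 := fun a b e =>
    fa _ (h.two_cen v e a b)
  have cl : ∀ {g : G} {c}, g ∈ h.E v l → g ≠ 1 → Cen I g c → I c l := fun ⟨_, _, a, b⟩ e f =>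
    by_contra fun k => e (u f b fun e => k (e ▸ a))
  have pw : ∀ {g : G} {c}, Cen I g c → ∀ n : ℕ, Cen I (g ^ n) c := fun a n k hk =>
    pow_mem (mem_stabilizer_iff.2 (a k hk)) n
  obtain ⟨p, hp, hd⟩ := Nat.exists_prime_and_dvd (mt orderOf_eq_one_iff.1 e1)
  have key : ∀ {e f : G} {c d}, e ∈ h.E v l → f ∈ h.E v l → e ≠ 1 → Cen I e c → Cen I f d → c ≠ d →
      e ^ p = 1 → f ^ p = 1 := fun {e f c d} he hf e1 e2 f2 hcd hp => by
    by_cases f1 : f = 1
    · simp [f1]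
    have : Commute e f := by
      have h1 := v.conj f2 e
      have h2 := v.conj e2.inv f
      rw [he.1 d (cl hf f1 f2)] at h1
      rw [hf.1 c (cl he e1 e2)] at h2
      exact commutatorElement_eq_one_iff_commute.1
        (u (by simpa [mul_assoc, commutatorElement_def] using e2.mul h2) (h1.mul f2.inv) hcd)
    obtain ⟨-, x, -, h3⟩ := mul_mem he hf
    have h4 := pw h3 p
    rw [this.mul_pow, hp, one_mul] at h4
    refine u h4 (pw f2 p) ?_
    rintro rfl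
    exact e1 (u e2 (by simpa using h3.mul f2.inv) hcd)
  have h1 := orderOf_pow_orderOf_div (orderOf_pos e).ne' hd
  have h2 : e ^ (orderOf e / p) ≠ 1 := fun e => hp.ne_one (by rw [← h1, e, orderOf_one])
  have h3 := fun {f d} hf f2 e => key (f := f) (d := d) (pow_mem he _) hf h2 (pw e2 _) f2 e
    (by rw [← pow_mul, Nat.div_mul_cancel hd, pow_orderOf_eq_one])
  have := Fact.mk hp
  have h4 : IsPGroup p (h.E v l) := fun ⟨g, hg⟩ => ⟨1, Subtype.ext (by
    obtain ⟨-, x, -, h5⟩ := id hg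
    by_cases e : c = x
    · simpa using key hf hg f1 f2 h5 (e ▸ hcd.symm) (h3 hf f2 hcd)
    · simpa using h3 hg h5 e)⟩
  obtain ⟨k, k1, k2, -⟩ := h.dual.third b l l
  obtain ⟨n, hn⟩ := h4.card_orbit k
  have h5 := Set.ncard_sdiff_singleton_of_mem (s := {k | I b k}) hb
  rw [h.cl, add_tsub_cancel_right, ← show orbit (h.E v l) k = {k | I b k} \ {l} from Set.ext fun n => ⟨fun hn => by
    obtain ⟨e, he, rfl⟩ := mem_orbit'.1 hn
    exact ⟨show I b _ by rw [← he.1 b hb, v]; exact k1, fun f => k2 (MulAction.injective e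
      (f.trans (h.dual.cen_fix v.dual he.1).symm))⟩, fun hn => mem_orbit'.2 (H k n k1 hn.1 k2 hn.2)⟩,
    ← Nat.card_coe_set_eq, hn] at h5
  refine (isPrimePow_nat_iff _).2 ⟨p, n, hp, Nat.pos_of_ne_zero ?_, h5⟩
  rintro rfl
  have := h.two
  rw [pow_zero] at h5
  omega

theorem pp_of_tr (H : ∀ b l, I b l → h.Tr v b l ∨ h.dual.Tr v.dual l b) {b : P} {l : L} (hb : I b l)
    (h1 : h.Tr v b l) : IsPrimePow m := by
  have nt : ∀ b l, h.Tr v b l → ∃ e ∈ h.E v l, ¬ Cen I e b := fun b l h1 => by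
    obtain ⟨k, k1, k2, -⟩ := h.dual.third b l l
    obtain ⟨n, n1, n2, n3⟩ := h.dual.third b l k
    obtain ⟨e, e1, e2⟩ := h1 k n k1 n1 k2 n2
    exact ⟨e, e1, fun f => n3 (e2 ▸ f k k1)⟩
  have n1 : ∀ {e : G} {b}, ¬ Cen I e b → e ≠ 1 := fun e f => e (f ▸ fun _ _ => one_smul _ _)
  obtain ⟨e, he, e1⟩ := nt b l h1
  obtain ⟨e3, c, c1, c2⟩ := id he
  rcases H c l c1 with h2 | h2
  · obtain ⟨f, hf, f1⟩ := nt c l h2
    obtain ⟨-, d, -, d2⟩ := id hf
    exact h.pp_of_two v fa hb h1 he hf (n1 e1) (n1 f1) c2 d2 fun e => f1 (e ▸ d2)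
  · obtain ⟨k, k1, k2, -⟩ := h.third l c c
    obtain ⟨n, n2, n3, n4⟩ := h.third l c k
    obtain ⟨f, hf, f1⟩ := h2 k n k1 n2 k2 n3
    obtain ⟨-, d, -, d2⟩ := id hf
    have f2 : f • k ≠ k := f1 ▸ n4
    exact h.dual.pp_of_two v.dual (h.fa_dual v fa) c1 h2 ⟨c2, l, c1, e3⟩ hf (n1 e1)
      (fun e => f2 (e ▸ one_smul _ _)) e3 d2 fun e => f2 (d2 k (e ▸ k1))

/-- a plane of odd order with enough involutory homologies has prime power order -/
theorem pp (hm : Odd m) (H : ∀ a b l, I b l → ¬ I a l → Hm G I a l ∨ (∃ k, I a k ∧ Hm G I b k) ∨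
    ∃ c k, I c l ∧ I a k ∧ I b k ∧ Hm G I c k) : IsPrimePow m := by
  have key : ∀ b l, I b l → h.Tr v b l ∨ h.dual.Tr v.dual l b := fun b l hb => by
    by_cases e : ∀ a, I a l → a ≠ b → ∃ k, I a k ∧ Hm G I b k
    · obtain ⟨k, k1, k2, -⟩ := h.dual.third b l l
      exact .inr (h.dual.tr_of v.dual (h.fa_dual v fa) hm k1 hb k2 fun a a1 a2 =>
        .inr ((e a a1 a2).imp fun k e => ⟨e.1, e.2.dual⟩))
    simp only [not_forall] at e
    obtain ⟨a, a1, a2, e⟩ := e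
    exact .inl (h.tr_of v fa hm a1 hb a2 fun k k1 k2 =>
      (H a b k k1 fun f => k2 (h.leq a2 f k1 a1 hb)).imp_right fun f =>
        let ⟨c, n, c1, c2, c3, c4⟩ := f.resolve_left e; ⟨c, c1, h.leq a2 c2 c3 a1 hb ▸ c4⟩)
  obtain ⟨c⟩ : Nonempty P := (Nat.card_pos_iff.1 (h.cP ▸ Nat.succ_pos _)).1
  obtain ⟨l, h1, -⟩ := h.line c c
  exact (key c l h1).elim (h.pp_of_tr v fa key h1)
    (h.dual.pp_of_tr v.dual (h.fa_dual v fa) (fun l b e => (key b l e).symm) h1)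

end PP
end CA.OW
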