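import Cfsg.Agent.Lib.Perm.OW1

/-! The Ostrom–Wagner theorem. -/

set_option autoImplicit false
open MulAction CA.Atk CA.ON CA.PermMulti CA.PermChar

namespace CA.OW
variable {P L : Type*} {G : Type*} [Group G] [MulAction G P] [MulAction G L]

theorem syl_not {p : ℕ} [hp : Fact p.Prime] [Finite G] {Q H : Subgroup G} (h : IsSylowIn p Q H) :
    ¬ Nat.card Q * p ∣ Nat.card H := by
  rw [h.2, ← pow_succ]
  exact Nat.pow_succ_factorization_not_dvd Nat.card_pos.ne' hp.out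

theorem fa_aut {I : P → L → Prop} {m : ℕ} (h : PP I m) (g : Aut I) (H : ∀ p : P, g • p = p) :
    g = 1 :=
  Subtype.ext (Prod.ext (Equiv.ext H) (Equiv.ext (h.dual.triv_dual (inv_aut I).dual H)))

theorem step {I : P → L → Prop} (v : Inv G I) {p : ℕ} [Fact p.Prime] [Finite G] {B K : Subgroup G}
    (hK : IsPGroup p K) (hB : B < K) : ∃ C, B ≤ C ∧ C ≤ K ∧ Nat.card C = Nat.card B * p ∧
      ∃ t : Aut (sub I B), (p = 2 → t * t = 1) ∧
        (∀ x : fixedPoints B P, t • x = x ↔ x.1 ∈ fixedPoints C P) ∧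
        ∀ x : fixedPoints B L, t • x = x ↔ x.1 ∈ fixedPoints C L := by
  obtain ⟨g, g1, g2, g3, g4⟩ := CA.PGBasic.exists_mem_normalizer hK hB
  obtain ⟨t, t1, t2⟩ := exists_res v g3
  refine ⟨B ⊔ Subgroup.zpowers g, le_sup_left, sup_le hB.le (Subgroup.zpowers_le.2 g1),
    CA.PGBasic.card_sup_zpowers Fact.out g3 g2 g4, t, ?_, fun x => ?_, fun x => ?_⟩
  · rintro rfl
    exact Subtype.ext (Prod.ext (Equiv.ext fun x => Subtype.ext (show ((t * t) • x).1 = x by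
      rw [mul_smul, t1, t1, ← mul_smul, ← sq]; exact x.2 ⟨_, g4⟩)) (Equiv.ext fun x => Subtype.ext
        (show ((t * t) • x).1 = x by rw [mul_smul, t2, t2, ← mul_smul, ← sq]; exact x.2 ⟨_, g4⟩)))
  all_goals
    rw [Subtype.ext_iff]
    first | rw [t1] | rw [t2]
    exact ⟨fun e a => (sup_le (fun b hb => x.2 ⟨b, hb⟩) (Subgroup.zpowers_le.2 e) :
      _ ≤ stabilizer G x.1) a.2, fun e => e ⟨g, Subgroup.mem_sup_right (Subgroup.mem_zpowers g)⟩⟩

theorem fix_anti {X : Type*} [MulAction G X] {B C : Subgroup G} (h : B ≤ C) :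
    fixedPoints C X ⊆ fixedPoints B X := fun _ e a => e ⟨a, h a.2⟩

theorem quad_up {I : P → L → Prop} {B : Subgroup G} {S : Set (fixedPoints B P)} {T : Set P}
    (e : ∀ x, x ∈ S → x.1 ∈ T) (h : Quad (sub I B) S) : Quad I T :=
  let ⟨l, l', a, a', b, b', h1, h2, h3, h4, h5, h6, h⟩ := h
  ⟨l, l', a, a', b, b', e _ h1, e _ h2, e _ h3, e _ h4, fun f => h5 (Subtype.ext f),
    fun f => h6 (Subtype.ext f), h⟩

namespace PP
variable {I : P → L → Prop} {m : ℕ} (h : PP I m) (v : Inv G I)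
include h v

theorem quad_down {B C : Subgroup G} (hB : B ≤ C) {S : Set (fixedPoints B P)}
    (e : ∀ x, x.1 ∈ fixedPoints C P → x ∈ S) (H : Quad I (fixedPoints C P)) : Quad (sub I B) S :=
  let ⟨l, l', a, a', b, b', h1, h2, h3, h4, e1, e2, e3, e4, e5, e6, f⟩ := H
  ⟨⟨l, fun g => h.fixL v e1 e3 e4 (fix_anti hB h1 g) (fix_anti hB h2 g)⟩,
    ⟨l', fun g => h.fixL v e2 e5 e6 (fix_anti hB h3 g) (fix_anti hB h4 g)⟩, ⟨a, fix_anti hB h1⟩,
    ⟨a', fix_anti hB h2⟩, ⟨b, fix_anti hB h3⟩, ⟨b', fix_anti hB h4⟩, e _ h1, e _ h2, e _ h3, e _ h4,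
    fun e => e1 (congrArg Subtype.val e), fun e => e2 (congrArg Subtype.val e), e3, e4, e5, e6, f⟩

variable [Finite G] [Finite P] [Finite L] (h2 : IsMultiplyPretransitive G P 2)
include h2

theorem trans : IsMultiplyPretransitive G L 2 ∧
    ∀ a l a' l', (I a l ↔ I a' l') → ∃ g : G, g • a = a' ∧ g • l = l' := by
  have := Fintype.ofFinite G
  have h0 : 1 < m ^ 2 + m + 1 := by have := h.two; omega
  have : Nontrivial P := Finite.one_lt_card_iff_nontrivial.1 (h.cP ▸ h0)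
  have : Nontrivial L := Finite.one_lt_card_iff_nontrivial.1 (h.cL ▸ h0)
  have := isPretransitive_of_is_two_pretransitive (h2 := h2)
  have h3 : pc G P = pc G L := funext fun g => congrArg Nat.cast (h.fix_eq v g)
  have h4 := inner_pc_one (G := G) (X := L)
  rw [← h3, inner_pc_one_of_pretransitive] at h4
  have : IsPretransitive G L := (pretransitive_iff_subsingleton_quotient _ _).2
    (Nat.card_eq_one_iff_unique.1 (by exact_mod_cast h4.symm)).1
  refine ⟨irr_iff_two.1 (h3 ▸ irr_iff_two.2 h2), fun a l a' l' e => ?_⟩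
  have h5 := inner_pc_pc (G := G) (X := P) L
  rw [← h3, inner_pc_self a, (rank_eq_two_iff a).2 h2] at h5
  let f : orbitRel.Quotient G (P × L) → Prop := Quotient.lift (fun x => I x.1 x.2) fun x y ⟨g, e⟩ =>
    e ▸ propext (v g _ _)
  have h6 : f.Surjective := fun q => by
    by_cases hq : q
    · obtain ⟨p, hp, -⟩ := h.point l l
      exact ⟨⟦(p, l)⟧, eq_true hp |>.trans (eq_true hq).symm⟩
    · obtain ⟨p, hp, -⟩ := h.off l a
      exact ⟨⟦(p, l)⟧, eq_false hp |>.trans (eq_false hq).symm⟩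
  obtain ⟨g, hg⟩ := Quotient.exact ((h6.bijective_of_nat_card_le (by
    rw [← Nat.cast_injective (R := ℂ) h5]; simp)).1 (a₁ := ⟦(a', l')⟧) (a₂ := ⟦(a, l)⟧)
      (propext e.symm))
  exact ⟨g, congrArg Prod.fst hg, congrArg Prod.snd hg⟩

theorem orb {a : P} {l : L} : orbit (stabilizer G l) a = {p | I p l ↔ I a l} :=
  Set.ext fun p => mem_orbit'.trans ⟨fun ⟨g, e, f⟩ => show _ ↔ _ by rw [← f, ← v g a l, e],
    fun e => let ⟨g, a, b⟩ := (h.trans v h2).2 a l p l e.symm; ⟨g, b, a⟩⟩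

theorem card_l (l : L) : Nat.card G = (m ^ 2 + m + 1) * Nat.card (stabilizer G l) := by
  have := isPretransitive_of_is_two_pretransitive (h2 := (h.trans v h2).1)
  rw [← h.cL, CA.PermBasic.card_eq_card_mul_card_stabilizer l]

theorem card_af {a : P} {l : L} (ha : ¬ I a l) :
    Nat.card (stabilizer G l) = m ^ 2 * Nat.card ↥(stabilizer G l ⊓ stabilizer G a) := by
  rw [card_eq_orbit _ a, h.orb v h2, ← h.ncard_off l]
  simp [ha]

theorem card_tr {a b : P} {l : L} (ha : ¬ I a l) (hb : I b l) :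
    Nat.card ↥(stabilizer G l ⊓ stabilizer G a) =
      (m + 1) * Nat.card ↥(stabilizer G l ⊓ stabilizer G a ⊓ stabilizer G b) := by
  have h1 := h.card_af v h2 ha
  rw [card_eq_orbit _ b, h.orb v h2, card_eq_orbit (_ ⊓ _) a,
    card_eq_orbit (stabilizer G l ⊓ stabilizer G a) b, inf_right_comm, ← mul_assoc, ← mul_assoc, mul_left_inj' Nat.card_pos.ne'] at h1
  simp only [hb, iff_true, h.cp] at h1
  have h3 := (Nat.Coprime.pow_right 2 (by simp)).dvd_of_dvd_mul_left ⟨_, h1.symm⟩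
  rw [card_eq_orbit _ b, le_antisymm (h.cp l ▸ Set.ncard_le_ncard (fun p hp => ?_))
    (Nat.le_of_dvd ((Set.ncard_pos (Set.toFinite _)).2 ⟨b, mem_orbit_self b⟩) h3)]
  obtain ⟨g, e, rfl⟩ := mem_orbit'.1 hp
  rw [← e.1]
  exact (v _ _ _).2 hb

variable (fa : ∀ g : G, (∀ p : P, g • p = p) → g = 1)
include fa

theorem cen_even (hm : 2 ∣ m) : ∃ g : G, g ≠ 1 ∧ ∃ c, Cen I g c := by
  obtain ⟨S, hS⟩ := exists_isSylowIn 2 (⊤ : Subgroup G)
  obtain ⟨l, -, hl⟩ := exists_fixed_of_not_dvd S hS.isPGroup (Set.univ : Set L) (fun _ _ _ _ => trivial)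
    (by rw [Set.ncard_univ, h.cL]; obtain ⟨r, rfl⟩ := hm; ring_nf; omega)
  have h1 := hS.of_le (K := stabilizer G l) hl le_top
  have m0 : m ≠ 0 := by have := h.two; omega
  have h3 : ∀ a, ¬ I a l → 2 ^ (m.factorization 2 * 2) ∣ Nat.card (orbit S a) := fun a ha =>
    pow_dvd_card_orbit h1 a (by
      rw [Nat.card_coe_set_eq, h.orb v h2, pow_mul]
      simpa [ha, h.ncard_off l] using pow_dvd_pow_of_dvd (Nat.ordProj_dvd m 2) 2)
  have h4 := Nat.prime_two.factorization_pos_of_dvd m0 hm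
  obtain ⟨x, -⟩ := h.point l l
  obtain ⟨a, ha, -⟩ := h.off l x
  obtain ⟨⟨t, t1⟩, -, t2, t3⟩ := CA.PGBasic.exists_mem_center_orderOf hS.isPGroup (M := ⊤) fun e => by
    have := h3 a ha
    rw [Subgroup.eq_bot_iff_card, Nat.card_congr Subgroup.topEquiv.toEquiv] at e
    exact absurd (Nat.dvd_one.1 (e ▸ this.trans (CA.PermBasic.card_orbit_dvd a))) (by simp; omega)
  rw [Subgroup.orderOf_mk] at t3
  have t4 : t * t = 1 := by rw [← sq, ← t3, pow_orderOf_eq_one]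
  have t5 : t ≠ 1 := fun e => by simp [e] at t3
  have t6 : fixedPoints (Subgroup.zpowers t) P = fixedBy P t := Set.ext fun x =>
    ⟨fun e => e ⟨t, Subgroup.mem_zpowers t⟩, fun e g => Subgroup.zpowers_le.2 (mem_stabilizer_iff.2 e) g.2⟩
  refine ⟨t, t5, ?_⟩
  by_cases hq : Quad I (fixedBy P t)
  · obtain ⟨k, hk⟩ := h.sub_pp v (t6 ▸ hq)
    have h5 := hk.ncard_off ⟨l, fun g => Subgroup.zpowers_le.2 (mem_stabilizer_iff.2 (hl t t1)) g.2⟩
    have h6 := hk.cP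
    rw [ncard_sub _ (¬ I · l), t6] at h5
    rw [t6, Nat.card_coe_set_eq] at h6
    rcases h.baer v t4 hq h6 with rfl | e
    · exact absurd (fa t fun p => ((Set.eq_univ_iff_ncard _).2 (h6.trans h.cP.symm)).ge
        (Set.mem_univ p)) t5
    have h7 := CA.Derange.dvd_ncard_of_orbits S {x | x ∈ fixedBy P t ∧ ¬ I x l} (Set.toFinite _)
      (fun g hg x hx => ⟨fix_comm (congrArg Subtype.val (Subgroup.mem_center_iff.1 t2 ⟨g, hg⟩)) hx.1,
        by rw [← hl g hg, v]; exact hx.2⟩) fun x hx => h3 x hx.2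
    rw [h5, ← e, Nat.prime_two.pow_dvd_iff_le_factorization m0] at h7
    omega
  obtain ⟨M, m1, m2⟩ := h.other_line v t4 l
  obtain ⟨c, c1, c2⟩ := h.point M l
  have c3 := h.fixP v m1 c1 c2 m2 (hl t t1)
  refine ⟨c, fun N hN => by_contra fun e => hq ?_⟩
  obtain ⟨w, w1, w2, -⟩ := h.third N c c
  obtain ⟨k, k1, k2⟩ := h.fix_line v t4 fun f => e (h.fixL v w2 w1 hN f c3)
  have k3 : ¬ I c k := fun f => e (h.leq w2 k1 f w1 hN ▸ k2)
  obtain ⟨a, a1, a2⟩ := h.point M k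
  obtain ⟨b, b1, b2⟩ := h.point l k
  rw [← t6]
  exact h.quad_of_tri v hm (hS.isPGroup.to_le (Subgroup.zpowers_le.2 t1))
    (t6.ge (h.fixP v (l := M) (l' := k) (fun f => k3 (f ▸ c1)) a1 a2 m2 k2))
    (t6.ge (h.fixP v (l := l) (l' := k) (fun f => k3 (f ▸ c2)) b1 b2 (hl t t1) k2)) (t6.ge c3) b1 c2 a1 c1
    (fun f => k3 (h.peq m1 a1 c1 f c2 ▸ a2)) fun f => k3 (h.peq m1 f c1 b1 c2 ▸ b2)

theorem cen_pp (hm : IsPrimePow m) : ∃ g : G, g ≠ 1 ∧ ∃ c, Cen I g c := by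
  obtain ⟨p, r, hp, hr, rfl⟩ := (isPrimePow_nat_iff _).1 hm
  have := Fact.mk hp
  obtain ⟨l⟩ : Nonempty L := (Nat.card_pos_iff.1 (h.cL ▸ Nat.succ_pos _)).1
  obtain ⟨Q, hQ⟩ := exists_isSylowIn p (stabilizer G l)
  have h1 : ∀ a, ¬ I a l → (p ^ r) ^ 2 ≤ (orbit Q a).ncard := fun a ha =>
    Nat.le_of_dvd ((Set.ncard_pos (Set.toFinite _)).2 ⟨a, mem_orbit_self a⟩) (by
      rw [← pow_mul]
      refine pow_dvd_card_orbit hQ a ?_
      rw [Nat.card_coe_set_eq, h.orb v h2, pow_mul]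
      simp [ha, h.ncard_off l])
  have h0 : ∀ g ∈ Q, ∀ x, I (g • x) l ↔ I x l := fun g hg x => by rw [← v g x l, hQ.1 hg]
  obtain ⟨x, x1, x2⟩ := exists_fixed_of_not_dvd Q hQ.isPGroup {x | I x l}
    (fun g hg x => (h0 g hg x).2) (by
      rw [h.cp, Nat.dvd_add_right (dvd_pow_self p hr.ne'), Nat.dvd_one]; exact hp.ne_one)
  have h3 := h.two
  obtain ⟨c, c1, c2, c3⟩ := exists_cent hQ.isPGroup hQ.isPGroup (by
    by_contra! H
    obtain ⟨a, ha, -⟩ := h.off l x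
    have := (h1 a ha).trans (Set.ncard_le_ncard (t := {a}) fun b hb => by
      obtain ⟨g, e, rfl⟩ := mem_orbit'.1 hb
      simp [H g e])
    rw [Set.ncard_singleton] at this
    nlinarith) fun a ha d hd => mul_mem (mul_mem ha hd) (inv_mem ha)
  refine ⟨c, c2, x, fun N hN => ?_⟩
  by_cases e : N = l
  · exact e ▸ hQ.1 c1
  obtain ⟨o, o1, o2, -⟩ := h.third N x x
  have o3 : ¬ I o l := fun f => o2 (h.peq e o1 hN f x1)
  refine h.leq (p := c • o) (q := x) (fun f => o3 ((h0 c c1 o).1 (f ▸ x1))) ((v _ _ _).2 o1)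
    (by rw [← x2 c c1, v]; exact hN) (by_contra fun f => ?_) hN
  obtain ⟨k, k1, k2⟩ := h.line (c • o) o
  have hx : x ∈ fixedPoints ↥(Q ⊓ stabilizer G o) P := fun g => x2 g g.2.1
  obtain ⟨j, hj⟩ := h.sub_pp v (h.quad_of_tri v (dvd_pow_self p hr.ne') (hQ.isPGroup.to_inf_left)
    (a := c • o) (fun g => fix_comm (c3 g g.2.1).symm (mem_stabilizer_iff.1 g.2.2)) hx (fun g => g.2.2) hN o1 k1 k2 f
    fun e => f (h.leq o2 k2 e o1 hN ▸ k1))
  obtain ⟨y, y1, y2, -⟩ := hj.third ⟨l, fun g => hQ.1 g.2.1⟩ ⟨x, hx⟩ ⟨x, hx⟩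
  have h4 := card_eq_orbit Q o
  obtain ⟨C, C1, C2, C3, t, -, t1, t2⟩ := step v (hQ.isPGroup.to_inf_left (K := stabilizer G y.1))
    (B := Q ⊓ stabilizer G o) (lt_of_le_of_ne (fun g hg => ⟨hg.1, y.2 ⟨g, hg⟩⟩) fun e => by
      have h5 := Set.ncard_le_ncard (s := orbit Q y.1) (t := {x | I x l}) fun b hb => by
        obtain ⟨g, e, rfl⟩ := mem_orbit'.1 hb
        exact (h0 g e _).2 y1
      rw [card_eq_orbit Q y.1, ← e, mul_left_inj' Nat.card_pos.ne'] at h4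
      have := h1 o o3
      rw [h.cp] at h5
      nlinarith)
  have h5 : 1 < (fixedBy (fixedPoints ↥(Q ⊓ stabilizer G o) L) t).ncard := by
    rw [← Nat.card_coe_set_eq, ← hj.fix_eq (inv_aut _), Nat.card_coe_set_eq]
    exact (Set.one_lt_ncard (Set.toFinite _)).2 ⟨y, (t1 _).2 fun g => (C2 g.2).2, ⟨x, hx⟩,
      (t1 _).2 fun g => x2 g (C2 g.2).1, y2⟩
  obtain ⟨M, m1, m2⟩ := Set.exists_ne_of_one_lt_ncard h5 ⟨l, fun g => hQ.1 g.2.1⟩
  obtain ⟨z, z1, z2⟩ : ∃ z, ¬ I z M.1 ∧ C ≤ stabilizer G z := by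
    by_cases e : I x M.1
    · exact ⟨y, fun e' => m2 (hj.leq y2 e' e y1 x1), fun g hg => (C2 hg).2⟩
    · exact ⟨x, e, fun g hg => x2 g (C2 hg).1⟩
  have h6 := Subgroup.card_dvd_of_le (le_inf (show C ≤ stabilizer G M.1 from
    fun g hg => (t2 M).1 m1 ⟨g, hg⟩) z2)
  refine syl_not hQ ?_
  rw [Nat.eq_of_mul_eq_mul_left (Nat.succ_pos _) ((h.card_l v h2 l).symm.trans (h.card_l v h2 M.1)),
    h.card_af v h2 z1, h4, mul_assoc, ← C3, le_antisymm (h.ncard_off l ▸ Set.ncard_le_ncard fun b hb => by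
      obtain ⟨g, e, rfl⟩ := mem_orbit'.1 hb
      exact mt (h0 g e _).1 o3) (h1 o o3)]
  exact mul_dvd_mul_left _ h6

omit fa in
theorem pp_odd (hm : Odd m) : IsPrimePow m := by
  have h0 : Quad I (fixedPoints (⊥ : Subgroup G) P) :=
    h.quad.mono fun x _ g => Subsingleton.elim g 1 ▸ one_smul _ x
  obtain ⟨A, ⟨A1, A2⟩, A3⟩ := Set.exists_max_image {A : Subgroup G | IsPGroup 2 A ∧
    Quad I (fixedPoints A P)} (fun A => Nat.card A) (Set.toFinite _) ⟨⊥, .of_bot, h0⟩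
  obtain ⟨k, hk⟩ := h.sub_pp v A2
  obtain ⟨a⟩ : Nonempty (fixedPoints A P) := (Nat.card_pos_iff.1 (hk.cP ▸ Nat.succ_pos _)).1
  obtain ⟨l, -⟩ := hk.line a a
  have k1 : Odd k := by
    have := ncard_modEq_fixed A A1 {p | I p l} (Set.toFinite _) fun g hg x hx => by
      rw [← l.2 ⟨g, hg⟩]; exact (v _ _ _).2 hx
    have h3 := hk.cp l
    rw [ncard_sub _ (I · l)] at h3
    rw [h.cp, show {x ∈ {p | I p l} | ∀ g ∈ A, g • x = x} = {x | x ∈ fixedPoints A P ∧ I x l} from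
      Set.ext fun x => ⟨fun e => ⟨fun g => e.2 g g.2, e.1⟩, fun e => ⟨e.2, fun g hg => e.1 ⟨g, hg⟩⟩⟩,
      h3, Nat.ModEq] at this
    rw [Nat.odd_iff] at hm ⊢
    omega
  obtain ⟨S, S1, S2⟩ := exists_isSylowIn_ge A1 (le_top (a := A))
  obtain ⟨C, -, C2, C3, t, t0, t1, t2⟩ := step v S1.isPGroup (lt_of_le_of_ne S2 fun e => by
    obtain ⟨b, -, b1⟩ := hk.off l a
    have := pow_dvd_card_orbit ((e ▸ S1).of_le (K := stabilizer G a.1) (fun g hg => a.2 ⟨g, hg⟩) le_top)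
      b.1 (k := 1) (by
        rw [Nat.card_coe_set_eq, show orbit (stabilizer G a.1) b.1 = {a.1}ᶜ from Set.ext fun y =>
          mem_orbit'.trans ⟨fun ⟨g, hg, e⟩ e' => b1 (Subtype.ext (MulAction.injective g
            (e.trans (e'.trans hg.symm)))), fun hy => is_two_pretransitive_iff.1 h2
            (fun e => b1 (Subtype.ext e.symm)) (Ne.symm hy)⟩, Set.ncard_compl, Set.ncard_singleton, h.cP]
        obtain ⟨r, rfl⟩ := hm
        exact ⟨2 * r ^ 2 + 3 * r + 1, by rw [add_tsub_cancel_right]; ring⟩)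
    rw [show orbit A b.1 = {b.1} from Set.eq_singleton_iff_unique_mem.2
      ⟨mem_orbit_self _, fun y ⟨g, e⟩ => e.symm.trans (b.2 g)⟩] at this
    simp at this)
  have t3 : t ^ 2 ^ 1 = 1 := by simpa [sq] using t0 rfl
  obtain ⟨a', -, a1⟩ : {x ∈ (Set.univ : Set (fixedPoints A P)) | t • x = x}.Nonempty :=
    Set.nonempty_of_ncard_ne_zero fun e => by
      have := ncard_modEq_fixedBy t3 (Set.univ : Set (fixedPoints A P)) (Set.toFinite _) fun _ _ => trivial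
      rw [e, Set.ncard_univ, hk.cP, Nat.ModEq] at this
      obtain ⟨r, rfl⟩ := k1
      ring_nf at this; omega
  obtain ⟨l', l1, l2⟩ : {x ∈ {l | ¬ sub I A a' l} | t • x = x}.Nonempty :=
    Set.nonempty_of_ncard_ne_zero fun e => by
      have := ncard_modEq_fixedBy t3 {l | ¬ sub I A a' l} (Set.toFinite _) fun x hx => by
        rw [← a1]; exact mt (inv_aut _ _ _ _).1 hx
      rw [e, show {l | ¬ sub I A a' l}.ncard = _ from hk.dual.ncard_off a', Nat.ModEq] at this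
      obtain ⟨r, rfl⟩ := k1
      ring_nf at this; omega
  obtain ⟨n, n1, n2⟩ := hk.other_line (inv_aut _) (t0 rfl) l'
  obtain ⟨b', b1, b2⟩ := hk.point n l'
  have h3 := Subgroup.card_dvd_of_le (le_inf (le_inf (fun g hg => (t2 _).1 l2 ⟨g, hg⟩)
    fun g hg => (t1 _).1 a1 ⟨g, hg⟩) fun g hg => (t1 _).1 (hk.fixP (inv_aut _) n1 b1 b2 n2 l2) ⟨g, hg⟩ :
      C ≤ stabilizer G l'.1 ⊓ stabilizer G a'.1 ⊓ stabilizer G b'.1)
  have h4 : IsPrimePow k := hk.pp (inv_aut _) (fa_aut hk) k1 fun a b l hb ha => by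
    obtain ⟨S, S1, S2⟩ := exists_isSylowIn_ge A1 (le_inf (le_inf (fun g hg => l.2 ⟨g, hg⟩)
      fun g hg => a.2 ⟨g, hg⟩) fun g hg => b.2 ⟨g, hg⟩ :
        A ≤ stabilizer G l.1 ⊓ stabilizer G a.1 ⊓ stabilizer G b.1)
    obtain ⟨C, C1, C2, C3, t, t0, t1, t2⟩ := step v S1.isPGroup (lt_of_le_of_ne S2 fun e => by
      refine syl_not S1 ?_
      have h4 := (h.card_l v h2 l.1).symm.trans (h.card_l v h2 l'.1)
      rw [h.card_af v h2 ha, h.card_af v h2 l1, h.card_tr v h2 ha hb, h.card_tr v h2 l1 b2,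
        mul_right_inj' (by omega), mul_right_inj' (pow_ne_zero _ hm.pos.ne'),
        mul_right_inj' (by omega)] at h4
      rwa [← e, ← C3, h4])
    refine hk.tri (inv_aut _) k1 (t0 rfl) (fun H => ?_) ((t1 _).2 fun g => (S1.1 (C2 g.2)).1.2)
      ((t1 _).2 fun g => (S1.1 (C2 g.2)).2) ((t2 _).2 fun g => (S1.1 (C2 g.2)).1.1) hb ha
    have := A3 C ⟨S1.isPGroup.to_le C2, quad_up (fun x => (t1 x).1) H⟩
    have := Nat.card_pos (α := A)
    omega
  have h5 : ∀ B : Subgroup G, B ≤ A → ∀ j, Nat.card (fixedPoints B P) = j ^ 2 + j + 1 →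
      IsPrimePow j := fun B => by
    induction B using WellFoundedGT.induction with | _ B ih
    intro hB j hj
    rcases hB.eq_or_lt with rfl | e
    · rwa [show j = k by have := hk.cP; nlinarith]
    obtain ⟨C, C1, C2, C3, t, t0, t1, -⟩ := step v A1 e
    obtain ⟨i, hi⟩ := h.sub_pp v (A2.mono (fix_anti hB))
    obtain ⟨n, hn⟩ := h.sub_pp v (A2.mono (fix_anti C2))
    obtain rfl : i = j := by have := hi.cP; nlinarith
    have h5 := ih C (lt_of_le_of_ne C1 fun e => by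
      have := Nat.card_pos (α := B)
      rw [← e] at C3; omega) C2 n hn.cP
    rcases hi.baer (inv_aut _) (t0 rfl) (h.quad_down v C1 (fun x => (t1 x).2) (A2.mono (fix_anti C2)))
      (k := n) (by
        rw [← hn.cP, show fixedBy _ t = {x | x.1 ∈ fixedPoints C P} from Set.ext t1, ncard_sub,
          Nat.card_coe_set_eq]
        exact congrArg _ (Set.inter_eq_right.2 (fix_anti C1))) with rfl | rfl
    exacts [h5, h5.pow two_ne_zero]
  exact h5 ⊥ bot_le m (by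
    rw [← h.cP, Set.eq_univ_of_forall (s := fixedPoints (⊥ : Subgroup G) P) fun x g =>
      Subsingleton.elim g 1 ▸ one_smul _ x, Nat.card_univ])

theorem exists_cen : ∃ g : G, g ≠ 1 ∧ ∃ c, Cen I g c :=
  m.even_or_odd.elim (fun e => h.cen_even v h2 fa e.two_dvd) fun e => h.cen_pp v h2 fa (h.pp_odd v h2 e)

theorem exists_sys : ∃ (p : ℕ) (_ : Fact p.Prime) (M : P → Subgroup G), Sys p M ∧
    ∀ y, ∀ n ∈ M y, Cen I n y := by
  have := Fintype.ofFinite P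
  have := Fintype.ofFinite L
  have : FaithfulSMul G L := faithfulSMul_iff.2 (h.fa_dual v fa)
  have : FaithfulSMul G P := faithfulSMul_iff.2 fa
  have D : Des G (flip I) := ⟨v.dual, (h.trans v h2).1, h2, by
    rw [← Nat.card_eq_fintype_card, ← Nat.card_eq_fintype_card, h.cP, h.cL]⟩
  obtain ⟨g, g1, c, g2⟩ := h.exists_cen v h2 fa
  obtain ⟨u, u1, -⟩ := h.line c c
  obtain ⟨u', u2, u3, -⟩ := h.dual.third c u u
  obtain ⟨w, w1, -⟩ := h.dual.off c u
  obtain ⟨h6, h7, A, h8⟩ := D.main (fun g => (h.fix_eq v g).symm) u3 u2 u1 w1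
    (Subgroup.ne_bot_iff_exists_ne_one.2 ⟨⟨g, mem_Kb.2 g2⟩, fun e => g1 (congrArg Subtype.val e)⟩)
    fun l => by
      obtain ⟨p, p1, p2, -⟩ := h.third l c c
      obtain ⟨q, q1, q2⟩ := h.off l c
      obtain ⟨g, e, rfl⟩ := is_two_pretransitive_iff.1 h2 p2.symm q2.symm
      exact ⟨g, e, fun f => q1 (by rw [← f, v]; exact p1)⟩
  obtain ⟨N, e1, e2, e3, e4⟩ := abel_of_solv h8.1 h8.2.1 h8.2.2.1 h8.2.2.2
  obtain ⟨⟨n, hn⟩, n1⟩ := Subgroup.ne_bot_iff_exists_ne_one.1 e2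
  obtain ⟨p, hp, M, h9, h10⟩ := ON.exists_sys h2 c N (e1.trans h7)
    (fun g hg n hn => (e4 (h6 hg) n).1 hn)
    (fun a ha b hb => congrArg Subtype.val (e3.is_comm.comm ⟨a, ha⟩ ⟨b, hb⟩))
    ⟨n, hn, fun e => n1 (Subtype.ext e), by
      have h5 : 1 < (fixedBy P n).ncard := by
        rw [← Nat.card_coe_set_eq, h.fix_eq v, Nat.card_coe_set_eq]
        exact (Set.one_lt_ncard (Set.toFinite _)).2
          ⟨u', mem_Kb.1 (e1 hn) _ u2, u, mem_Kb.1 (e1 hn) _ u1, u3⟩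
      obtain ⟨y, h6, h7⟩ := Set.exists_ne_of_one_lt_ncard h5 c
      exact ⟨y, h7, h6⟩⟩
  refine ⟨p, hp, M, h9, fun y n hn => ?_⟩
  obtain ⟨g, rfl⟩ := (isPretransitive_of_is_two_pretransitive (h2 := h2)).exists_smul_eq c y
  simpa [mul_assoc] using v.conj (g := g⁻¹ * n * g⁻¹⁻¹) (c := c)
    (mem_Kb.1 (e1 (h10 (by simpa using h9.conj g⁻¹ hn)))) g

omit h2 in
theorem col_iff {p : ℕ} [Fact p.Prime] {M : P → Subgroup G} (S : Sys p M)
    (H : ∀ y, ∀ n ∈ M y, Cen I n y) {x u w : P} {k : L} (e : u ≠ x) (hx : I x k) (hu : I u k) :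
    Col M x u w ↔ I w k := by
  have h1 : ∀ {x u w k}, u ≠ x → I x k → I u k → Col M x u w → I w k := fun {x u w k} e hx hu c => by
    obtain rfl | ⟨n, hn, rfl⟩ := (S.col_iff e).1 c
    · exact hx
    · rw [← H x n hn k hx, v]; exact hu
  refine ⟨h1 e hx hu, fun hw n hn f => ?_⟩
  obtain ⟨n', e1, e2⟩ := S.exists_move e
  by_cases e3 : ∃ z, ¬ I z k ∧ n • z = z
  · obtain ⟨z, z1, z2⟩ := e3
    have key : ∀ u, I u k → u ≠ x → n • u = u → ∃ l, I z l ∧ I u l ∧ Cen (flip I) n l :=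
      fun u hu e f => by
        obtain ⟨l, l1, l2⟩ := h.line z u
        refine ⟨l, l1, l2, fun s hs => ?_⟩
        obtain ⟨N, n1, n2⟩ := h.line x s
        exact h.fixP v (l := l) (l' := N) (fun e' => z1 (h.leq e l2 (e' ▸ n1) hu hx ▸ l1)) hs n2
          (h.fixL v (p := z) (q := u) (fun e => z1 (e ▸ hu)) l1 l2 z2 f) (H x n hn N n1)
    have h3 := h1 e hx hu (S.col_orbit e1)
    obtain ⟨l, l1, l2, l3⟩ := key u hu e f
    obtain ⟨l', l4, l5, l6⟩ := key _ h3 (fun g => e (MulAction.injective n' (g.trans (S.fix e1).symm)))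
      (fix_comm (S.comm e1 hn) f)
    exact h.triv_dual v (h.dual.two_cen v.dual (c := l) (c' := l')
      (fun g => z1 (h.leq e2 (g ▸ l5) l2 h3 hu ▸ l1)) l3 l6) w
  obtain ⟨N, n1, n2, -⟩ := h.dual.third w k k
  obtain ⟨s, s1, s2, -⟩ := h.third N w w
  obtain ⟨z, z1, z2⟩ := S.hyp hn s2
  exact h.peq n2 (h1 s2 n1 s1 z1) n1 (by_contra fun g => e3 ⟨z, g, z2⟩) hw ▸ z2

open Module Submodule in
theorem main : ∃ (F : Type) (_ : Field F) (_ : Fintype F) (φ : P ≃ Projectivization F (Fin 3 → F)),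
    (∀ l : L, ∃ W : Submodule F (Fin 3 → F), finrank F W = 2 ∧ ∀ p, I p l ↔ (φ p).submodule ≤ W) ∧
    ∀ W : Submodule F (Fin 3 → F), finrank F W = 2 → ∃ l : L, ∀ p, I p l ↔ (φ p).submodule ≤ W := by
  obtain ⟨p, _, M, S, H⟩ := h.exists_sys v h2 fa
  have : Nontrivial P := Finite.one_lt_card_iff_nontrivial.1 (by have := h.two; have := h.cP; omega)
  obtain ⟨F, _, _, n, f, f1, f2, f3, f4⟩ := S.coords
  have h3 : ∀ {x u k}, u ≠ x → I x k → I u k → ∀ w, I w k ↔ f w ∈ span F {f x, f u} :=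
    fun e hx hu w => by
      rw [← h.col_iff v fa S H e hx hu, f4 _ _ _ e, mem_span_pair]; simp only [eq_comm]
  have h4 : ∀ {x u}, u ≠ x → finrank F (span F {f x, f u}) = 2 := fun {x u} e => by
    rw [← Matrix.range_cons_cons_empty _ _ ![], finrank_span_eq_card
      ((LinearIndependent.pair_iff' (f1 x)).2 fun a e' => e (f2 _ _ _ e'.symm)), Fintype.card_fin]
  obtain rfl : n = 3 := by
    refine le_antisymm ?_ (by simpa using Co.three_le ⟨f1, f2, f3, f4⟩ S)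
    obtain ⟨x, u, e⟩ := exists_pair_ne P
    obtain ⟨k, k1, k2⟩ := h.line x u
    obtain ⟨z, z1, -⟩ := h.off k x
    simpa using finrank_le_of_span_eq_top (R := F) (v := ![f x, f u, f z]) (eq_top_iff.2 fun w _ => by
      by_cases e' : w = 0
      · exact e' ▸ zero_mem _
      obtain ⟨s, c, rfl⟩ := f3 w e'
      obtain ⟨l, l1, l2⟩ := h.line s z
      obtain ⟨r, r1, r2⟩ := h.point l k
      refine smul_mem _ _ (span_le.2 (Set.pair_subset (subset_span (Set.mem_range_self 2)) ?_)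
        ((h3 (u := r) (x := z) (fun e => z1 (e ▸ r2)) l2 r1 s).1 l1))
      exact span_le.2 (Set.pair_subset (subset_span (Set.mem_range_self 0))
        (subset_span (Set.mem_range_self 1))) ((h3 e.symm k1 k2 r).1 r2))
  refine ⟨F, inferInstance, inferInstance, .ofBijective (fun w => .mk F (f w) (f1 w))
    ⟨fun a b e => let ⟨c, e⟩ := (Projectivization.mk_eq_mk_iff' ..).1 e; f2 _ _ _ e.symm, fun q => ?_⟩,
    fun l => ?_, fun W hW => ?_⟩
  · obtain ⟨w, c, e⟩ := f3 _ q.rep_nonzero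
    exact ⟨w, ((Projectivization.mk_eq_mk_iff' ..).2 ⟨c, e.symm⟩).symm.trans q.mk_rep⟩
  · obtain ⟨x, hx, -⟩ := h.point l l
    obtain ⟨u, hu, e, -⟩ := h.third l x x
    exact ⟨_, h4 e, fun w => (h3 e hx hu w).trans (span_singleton_le_iff_mem ..).symm⟩
  have key : ∀ U : Submodule F (Fin 3 → F), finrank F U ≤ 1 → ∃ x, f x ∈ W ∧ f x ∉ U := fun U hU => by
    obtain ⟨a, a1, a2⟩ := SetLike.not_le_iff_exists.1 fun e : W ≤ U => by
      have := finrank_mono e; omega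
    have a3 : a ≠ 0 := fun e => a2 (e ▸ zero_mem _)
    obtain ⟨x, c, rfl⟩ := f3 a a3
    exact ⟨x, (smul_mem_iff _ (left_ne_zero_of_smul a3)).1 a1, fun e => a2 (smul_mem _ _ e)⟩
  obtain ⟨x, x1, -⟩ := key ⊥ (by simp)
  obtain ⟨u, u1, u2⟩ := key _ (finrank_span_singleton (f1 x)).le
  have e : u ≠ x := fun e => u2 (e ▸ mem_span_singleton_self _)
  obtain ⟨l, l1, l2⟩ := h.line x u
  exact ⟨l, fun w => eq_of_le_of_finrank_eq (span_le.2 (Set.pair_subset x1 u1)) ((h4 e).trans hW.symm) ▸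
    (h3 e l1 l2 w).trans (span_singleton_le_iff_mem ..).symm⟩

end PP
end CA.OW
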