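import Mathlib
import Cfsg.Agent.Lib.Perm.PermBasic

/-! Certificates for subgroups of `GL(2,p)` acting regularly on non-zero vectors. -/

namespace CA.RegCert
open Matrix

abbrev T := ℕ × ℕ × ℕ × ℕ

def mm (p : ℕ) (a b : T) : T :=
  ((a.1 * b.1 + a.2.1 * b.2.2.1) % p, (a.1 * b.2.1 + a.2.1 * b.2.2.2) % p,
    (a.2.2.1 * b.1 + a.2.2.2 * b.2.2.1) % p, (a.2.2.1 * b.2.1 + a.2.2.2 * b.2.2.2) % p)

def R (p : ℕ) (a : T) : Matrix (Fin 2) (Fin 2) (ZMod p) := !![a.1, a.2.1; a.2.2.1, a.2.2.2]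

theorem R_mm (p : ℕ) (a b : T) : R p (mm p a b) = R p a * R p b := by
  simp [R, mm, Matrix.mul_fin_two]

theorem R_one (p : ℕ) : R p (1, 0, 0, 1) = 1 := by
  simp [R, Matrix.one_fin_two]

def eqT (a b : T) : Bool :=
  a.1 == b.1 && a.2.1 == b.2.1 && a.2.2.1 == b.2.2.1 && a.2.2.2 == b.2.2.2

theorem eq_of_eqT {a b : T} (h : eqT a b = true) : a = b := by
  simp only [eqT, Bool.and_eq_true, beq_iff_eq] at h
  exact Prod.ext h.1.1.1 (Prod.ext h.1.1.2 (Prod.ext h.1.2 h.2))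

def tree (p : ℕ) (gs : List T) : List T → Bool
  | [] => true
  | x :: xs => tree p gs xs && (eqT x (1, 0, 0, 1) || gs.any fun g => xs.any fun m => eqT (mm p g m) x)

def closed (p : ℕ) (gs L : List T) : Bool :=
  L.any (eqT (1, 0, 0, 1)) && gs.all fun g => L.all fun m => L.any (eqT (mm p g m))

def trans (p r d : ℕ) (L : List T) : Bool :=
  (List.range p).all fun x => (List.range p).all fun y => (x == 0 && y == 0) ||
    L.any fun m => (m.1 * y % p == m.2.2.1 * x % p) && (List.range d).any fun k =>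
      r ^ k * m.1 % p == x && r ^ k * m.2.2.1 % p == y

variable {p : ℕ} [Fact p.Prime]

theorem tree_spec (H : Subgroup (GL (Fin 2) (ZMod p))) {gs : List T}
    (hg : ∀ g ∈ gs, ∃ h ∈ H, (h : Matrix (Fin 2) (Fin 2) (ZMod p)) = R p g) (L : List T) (h : tree p gs L = true) :
    ∀ x ∈ L, ∃ h ∈ H, (h : Matrix (Fin 2) (Fin 2) (ZMod p)) = R p x := by
  induction L with
  | nil => simp
  | cons x xs ih =>
    simp only [tree, Bool.and_eq_true, Bool.or_eq_true, List.any_eq_true] at h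
    intro y hy
    rcases List.mem_cons.1 hy with rfl | hy
    · rcases h.2 with e | ⟨g, h1, m, h2, e⟩
      · exact ⟨1, H.one_mem, by rw [eq_of_eqT e, R_one]; rfl⟩
      · obtain ⟨a, ha, e1⟩ := hg g h1
        obtain ⟨b, hb, e2⟩ := ih h.1 m h2
        exact ⟨a * b, H.mul_mem ha hb, by rw [← eq_of_eqT e, R_mm, ← e1, ← e2]; rfl⟩
    · exact ih h.1 y hy

theorem reg (S : Set (GL (Fin 2) (ZMod p))) (gs L : List T) (r d : ℕ) (hd : 0 < d)
    (hr : (r : ZMod p) ^ d = 1)
    (hS : ∀ s ∈ S, (s : Matrix (Fin 2) (Fin 2) (ZMod p)) = (r : ZMod p) • (1 : Matrix (Fin 2) (Fin 2) (ZMod p)) ∨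
      ∃ g ∈ gs, (s : Matrix (Fin 2) (Fin 2) (ZMod p)) = R p g)
    (hg : ∀ g ∈ gs, ∃ h ∈ S, (h : Matrix (Fin 2) (Fin 2) (ZMod p)) = R p g)
    (hc : ∃ h ∈ Subgroup.closure S, (h : Matrix (Fin 2) (Fin 2) (ZMod p)) = (r : ZMod p) • (1 : Matrix (Fin 2) (Fin 2) (ZMod p)))
    (h1 : tree p gs L = true) (h2 : closed p gs L = true) (h3 : trans p r d L = true)
    (h4 : d * L.length + 1 = p * p) :
    Nat.card (Subgroup.closure S) = d * L.length ∧ ∀ v w : Fin 2 → ZMod p, v ≠ 0 → w ≠ 0 →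
      ∃! h : Subgroup.closure S, mulVec ((h : GL (Fin 2) (ZMod p)) : Matrix (Fin 2) (Fin 2) (ZMod p)) v = w := by
  classical
  set H := Subgroup.closure S
  have hp : 0 < p := (Fact.out : p.Prime).pos
  have t1 := tree_spec H (fun g h => (hg g h).imp fun a ha => ⟨Subgroup.subset_closure ha.1, ha.2⟩) L h1
  simp only [closed, Bool.and_eq_true, List.any_eq_true, List.all_eq_true] at h2
  have up : ∀ h ∈ H, ∃ k : Fin d, ∃ i : Fin L.length,
      (h : Matrix (Fin 2) (Fin 2) (ZMod p)) = (r : ZMod p) ^ (k : ℕ) • R p L[i] := by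
    intro h hh
    have hh' : h ∈ Submonoid.closure S := by
      rw [← Subgroup.closure_toSubmonoid_of_finite]; exact hh
    suffices ∃ k : ℕ, ∃ m ∈ L, (h : Matrix (Fin 2) (Fin 2) (ZMod p)) = (r : ZMod p) ^ k • R p m by
      obtain ⟨k, m, hm, e⟩ := this
      obtain ⟨i, rfl⟩ := List.get_of_mem hm
      refine ⟨⟨k % d, Nat.mod_lt _ hd⟩, i, ?_⟩
      rw [e, ← pow_eq_pow_mod k hr]; rfl
    clear hh
    induction hh' using Submonoid.closure_induction_left with
    | one =>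
      obtain ⟨m, hm, e⟩ := h2.1
      exact ⟨0, m, hm, by rw [← eq_of_eqT e, R_one]; simp⟩
    | mul_left x hx y _ ih =>
      obtain ⟨k, m, hm, e⟩ := ih
      rcases hS x hx with e1 | ⟨g, h5, e1⟩
      · exact ⟨k + 1, m, hm, by rw [Units.val_mul, e, e1]; simp [pow_succ, smul_smul]⟩
      · obtain ⟨m', hm', e2⟩ := h2.2 g h5 m hm
        exact ⟨k, m', hm', by rw [Units.val_mul, e, e1, ← eq_of_eqT e2, R_mm, Matrix.mul_smul]⟩
  have hle : Nat.card H ≤ d * L.length := by
    choose k i e using fun h : H => up h h.2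
    have := Nat.card_le_card_of_injective (fun h : H => (k h, i h)) fun a b hab => by
      obtain ⟨e1, e2⟩ := Prod.ext_iff.1 hab
      exact Subtype.ext (Units.ext (by rw [e a, e b]; simp only at e1 e2; rw [e1, e2]))
    simpa using this
  let e₁ : Fin 2 → ZMod p := ![1, 0]
  have tr : ∀ v : Fin 2 → ZMod p, v ≠ 0 → ∃ h : H, h • e₁ = v := by
    intro v hv
    simp only [trans, List.all_eq_true, List.mem_range, Bool.or_eq_true, Bool.and_eq_true,
      beq_iff_eq, List.any_eq_true] at h3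
    rcases h3 (v 0).val (ZMod.val_lt _) (v 1).val (ZMod.val_lt _) with e | ⟨m, hm, -, k, -, a, b⟩
    · refine absurd (funext fun i => ?_) hv
      fin_cases i
      · exact (ZMod.val_eq_zero _).1 e.1
      · exact (ZMod.val_eq_zero _).1 e.2
    · obtain ⟨c, hc, ec⟩ := hc
      obtain ⟨u, hu, eu⟩ := t1 m hm
      refine ⟨⟨c ^ k * u, H.mul_mem (H.pow_mem hc k) hu⟩, ?_⟩
      show mulVec ((c ^ k * u : GL (Fin 2) (ZMod p)) : Matrix (Fin 2) (Fin 2) (ZMod p)) e₁ = v
      have a' := congrArg (Nat.cast : ℕ → ZMod p) a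
      have b' := congrArg (Nat.cast : ℕ → ZMod p) b
      simp only [ZMod.natCast_mod, Nat.cast_mul, Nat.cast_pow, ZMod.natCast_val, ZMod.cast_id', id] at a' b'
      rw [Units.val_mul, Units.val_pow_eq_pow_val, ec, eu, smul_pow, one_pow, Matrix.smul_mul,
        Matrix.one_mul]
      funext i
      fin_cases i
      · simpa [R, e₁, mulVec, dotProduct] using a'
      · simpa [R, e₁, mulVec, dotProduct] using b'
  have tr2 : ∀ v w : Fin 2 → ZMod p, v ≠ 0 → w ≠ 0 → ∃ h : H, h • v = w := fun v w hv hw => by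
    obtain ⟨a, rfl⟩ := tr v hv
    obtain ⟨b, rfl⟩ := tr w hw
    exact ⟨b * a⁻¹, by rw [mul_smul, inv_smul_smul]⟩
  have orb : ∀ v : Fin 2 → ZMod p, v ≠ 0 → Nat.card (MulAction.orbit H v) = d * L.length := by
    intro v hv
    have : MulAction.orbit H v = {0}ᶜ := by
      ext w
      refine ⟨?_, fun hw => tr2 v w hv hw⟩
      rintro ⟨h, rfl⟩ e
      exact hv ((smul_eq_zero_iff_eq h).1 e)
    have h5 := Set.ncard_add_ncard_compl ({0} : Set (Fin 2 → ZMod p))
    rw [Set.ncard_singleton, Nat.card_fun, Nat.card_zmod, Nat.card_fin, pow_two] at h5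
    rw [this, Nat.card_coe_set_eq]
    omega
  have st : ∀ v : Fin 2 → ZMod p, v ≠ 0 → Nat.card (MulAction.stabilizer H v) = 1 ∧
      Nat.card H = d * L.length := fun v hv => by
    have h5 := CA.PermBasic.card_orbit_mul_card_stabilizer (G := H) v
    rw [orb v hv] at h5
    have h6 : 0 < Nat.card (MulAction.stabilizer H v) := Nat.card_pos
    have h7 : 0 < d * L.length := by have := (Fact.out : p.Prime).two_le; nlinarith
    have h8 : Nat.card (MulAction.stabilizer H v) = 1 := by nlinarith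
    exact ⟨h8, by rw [← h5, h8, mul_one]⟩
  refine ⟨(st e₁ (by simp [e₁])).2, fun v w hv hw => ?_⟩
  obtain ⟨a, ha⟩ := tr2 v w hv hw
  refine ⟨a, ha, fun b hb => ?_⟩
  have h5 : a⁻¹ * b ∈ MulAction.stabilizer H v := by
    rw [MulAction.mem_stabilizer_iff, mul_smul, show b • v = w from hb, ← ha, inv_smul_smul]
  rw [Subgroup.card_eq_one.1 (st v hv).1, Subgroup.mem_bot, inv_mul_eq_one] at h5
  exact h5.symm

end CA.RegCert
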