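import Mathlib
import Cfsg.Agent.Lib.Perm.PermChar

/-! Automorphisms of odd order of doubly transitive groups (Feit's lemma on linked symmetric
designs). -/

set_option autoImplicit false
open Cfsg MulAction CA.PermBasic CA.PermMulti CA.Derange CA.PermChar Matrix

namespace CA.TwoAut

variable {G X : Type*} [Group G] [MulAction G X]

/-- The action twisted by an endomorphism. -/
def Tw (_φ : MulAut G) (X : Type*) : Type _ := X

instance (φ : MulAut G) : MulAction G (Tw φ X) := MulAction.compHom X φ.toMonoidHom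
instance (φ : MulAut G) [h : Finite X] : Finite (Tw φ X) := h

theorem tw_pretransitive (φ : MulAut G) [IsPretransitive G X] : IsPretransitive G (Tw φ X) :=
  ⟨fun a b => by
    obtain ⟨g, hg⟩ := exists_smul_eq G (show X from a) (show X from b)
    exact ⟨φ.symm g, by show φ (φ.symm g) • (show X from a) = b; rw [φ.apply_symm_apply]; exact hg⟩⟩

theorem design [Fintype X] [DecidableEq X] [Nontrivial X] (h2 : IsMultiplyPretransitive G X 2)
    (φ : MulAut G) (M : Matrix X X ℤ) (h01 : ∀ x y, M x y * M x y = M x y)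
    (hM : ∀ (g : G) x y, M (g • x) (φ g • y) = M x y) :
    ∃ k l : ℤ, (∀ y, ∑ x, M x y = k) ∧ M * of (fun _ _ => 1) = k • of (fun (_ _ : X) => (1 : ℤ)) ∧
      of (fun _ _ => 1) * M = k • of (fun (_ _ : X) => (1 : ℤ)) ∧
      Mᵀ * M = (k - l) • (1 : Matrix X X ℤ) + l • of (fun _ _ => 1) ∧
      k * k = (k - l) + l * Fintype.card X := by
  have hX : 1 < Nat.card X := Finite.one_lt_card
  have : IsPretransitive G X := is_one_pretransitive_iff.1 (mpt_of_le h2 (by norm_num) hX)
  obtain ⟨a, b, hab⟩ := exists_pair_ne X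
  have hc : ∀ y, ∑ x, M x y = ∑ x, M x a := by
    intro y
    obtain ⟨g, rfl⟩ := exists_smul_eq G a y
    rw [← Equiv.sum_comp (toPerm (φ.symm g))]
    refine Finset.sum_congr rfl fun x _ => ?_
    rw [← hM (φ.symm g) x a, φ.apply_symm_apply]; rfl
  have hr : ∀ x, ∑ y, M x y = ∑ y, M a y := by
    intro x
    obtain ⟨g, rfl⟩ := exists_smul_eq G a x
    rw [← Equiv.sum_comp (toPerm (φ g))]
    exact Finset.sum_congr rfl fun y _ => hM g a y
  have hrc : ∑ y, M a y = ∑ x, M x a := by
    have h1 : ∑ x, ∑ y, M x y = ∑ y, ∑ x, M x y := Finset.sum_comm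
    simp only [hc, hr, Finset.sum_const, nsmul_eq_mul] at h1
    exact mul_left_cancel₀ (by simp) h1
  have h3 : M * of (fun _ _ => 1) = (∑ x, M x a) • of (fun (_ _ : X) => (1 : ℤ)) := by
    ext x y; simp [mul_apply, hr, hrc]
  have h4 : of (fun _ _ => 1) * M = (∑ x, M x a) • of (fun (_ _ : X) => (1 : ℤ)) := by
    ext x y; simp [mul_apply, hc]
  have h5 : Mᵀ * M = (∑ x, M x a - ∑ x, M x a * M x b) • (1 : Matrix X X ℤ) +
      (∑ x, M x a * M x b) • of (fun _ _ => 1) := by
    ext y z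
    by_cases h : y = z
    · subst h
      simp only [mul_apply, transpose_apply, Matrix.add_apply, Matrix.smul_apply, one_apply_eq,
        of_apply, smul_eq_mul, mul_one, h01, hc, sub_add_cancel]
    · obtain ⟨g, rfl, rfl⟩ := two_iff.1 h2 a b y z hab h
      simp only [mul_apply, transpose_apply, Matrix.add_apply, Matrix.smul_apply, one_apply_ne h, mul_zero,
        zero_add, of_apply, smul_eq_mul, mul_one]
      rw [← Equiv.sum_comp (toPerm (φ.symm g)) (fun x => M x (g • a) * M x (g • b))]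
      refine Finset.sum_congr (M := ℤ) rfl fun x _ => ?_
      rw [← hM (φ.symm g) x a, ← hM (φ.symm g) x b, φ.apply_symm_apply]; rfl
  refine ⟨_, _, hc, h3, h4, h5, ?_⟩
  have h6 := congrArg (fun N => (N * of (fun (_ _ : X) => (1 : ℤ))) a a) h5
  simp only [Matrix.mul_assoc, h3, Matrix.mul_smul, Matrix.smul_apply, Matrix.add_mul, Matrix.smul_mul,
    Matrix.one_mul, Matrix.add_apply] at h6
  simpa only [mul_apply, of_apply, smul_eq_mul, mul_one, Finset.sum_const, Finset.card_univ,
    nsmul_eq_mul, transpose_apply] using h6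

theorem arith {n k l k' l' d y : ℤ} (h1 : k * k = (k - l) + l * n) (h2 : k' * k' = (k' - l') + l' * n)
    (h3 : (k - l) * (k - l) = d * d * (k' - l')) (h4 : k * k = d * k' + y * n)
    (hc : IsCoprime k n) (ha : 2 ≤ k') (hb : k' + 2 ≤ n) : False := by
  obtain ⟨s, hs⟩ : d ∣ k - l := (Int.pow_dvd_pow_iff two_ne_zero).1 ⟨k' - l', by rw [sq, sq, h3]⟩
  have hc' : IsCoprime n d := by
    have : IsCoprime (d * s + l * n) n := by rw [← hs, ← h1]; exact hc.mul_left hc
    exact (IsCoprime.of_mul_left_left (IsCoprime.of_add_mul_right_left this)).symm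
  have hd : d ≠ 0 := by
    rintro rfl
    rw [isCoprime_zero_right, Int.isUnit_iff] at hc'
    omega
  have h5 : s * s = k' - l' := by
    apply mul_left_cancel₀ (mul_ne_zero hd hd)
    rw [← h3, hs]; ring
  have h6 : n ∣ k' - s := hc'.dvd_of_dvd_mul_left ⟨l - y, by linear_combination h1 - h4 + hs⟩
  obtain ⟨b, rfl⟩ : ∃ b, n = k' + b := ⟨n - k', by ring⟩
  have h7 : s * s * (k' + b - 1) = k' * b := by rw [h5]; linear_combination h2
  have h8 : s < k' := by
    by_contra h
    have : k' * k' ≤ s * s := by nlinarith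
    have h1 : k' * k' * (k' + b - 1) ≤ k' * b := h7 ▸ mul_le_mul_of_nonneg_right this (by omega)
    have h2 : k' * (k' + b - 1) ≤ b := le_of_mul_le_mul_left (by linarith) (by omega : 0 < k')
    nlinarith
  have h9 : -s < b := by
    by_contra h
    have : b * b ≤ s * s := by nlinarith
    have h1 : b * b * (k' + b - 1) ≤ k' * b := h7 ▸ mul_le_mul_of_nonneg_right this (by omega)
    have h2 : b * (k' + b - 1) ≤ k' := le_of_mul_le_mul_left (by linarith) (by omega : 0 < b)
    nlinarith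
  have := Int.le_of_dvd (by omega) h6
  omega

theorem exists_fixed_of_card_eq_one [Fintype X] (p : X → Prop) [DecidablePred p] (H : Subgroup G)
    (hp : ∀ g ∈ H, ∀ x, p x → p (g • x)) (h : (Finset.univ.filter p).card = 1) :
    ∃ x : X, ∀ g ∈ H, g • x = x := by
  obtain ⟨x, hx⟩ := Finset.card_eq_one.1 h
  have h1 : ∀ y, p y ↔ y = x := fun y => by simpa using Finset.ext_iff.1 hx y
  exact ⟨x, fun g hg => (h1 _).1 (hp g hg x ((h1 x).2 rfl))⟩

theorem exists_fixed [Finite G] [Fintype X] (h2 : IsMultiplyPretransitive G X 2) (o : X)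
    (α : MulAut G) (hα : Odd (orderOf α)) (ω : X)
    (hk : (Nat.card (orbit ((stabilizer G o).map α.toMonoidHom) ω)).Coprime (Fintype.card X)) :
    ∃ x : X, ∀ g ∈ (stabilizer G o).map α.toMonoidHom, g • x = x := by
  classical
  have := Fintype.ofFinite G
  rcases subsingleton_or_nontrivial X with hs | hs
  · exact ⟨o, fun _ _ => Subsingleton.elim _ _⟩
  have hX : 1 < Nat.card X := Finite.one_lt_card
  have : IsPretransitive G X := is_one_pretransitive_iff.1 (mpt_of_le h2 (by norm_num) hX)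
  have hmem : ∀ (β : MulAut G) (g : G), g ∈ (stabilizer G o).map β.toMonoidHom ↔ β⁻¹ g • o = o :=
    fun β g => Subgroup.mem_map_equiv
  -- the incidence matrix
  let A : Matrix X X ℤ := fun x y => if ∃ g : G, g • ω = x ∧ α⁻¹ g • o = y then 1 else 0
  have hA : ∀ (g : G) x y, A (g • x) (α⁻¹ g • y) = A x y := fun g x y => if_congr
    ⟨fun ⟨h, h1, h2⟩ => ⟨g⁻¹ * h, by rw [mul_smul, h1, inv_smul_smul],
      by rw [map_mul, map_inv, mul_smul, h2, inv_smul_smul]⟩,
    fun ⟨h, h1, h2⟩ => ⟨g * h, by rw [mul_smul, h1], by rw [map_mul, mul_smul, h2]⟩⟩ rfl rfl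
  obtain ⟨k, l, a1, a2, a3, a4, a5⟩ := design h2 α⁻¹ A (fun x y => by
    simp only [A]; split_ifs <;> simp) hA
  have hk' : k = Nat.card (orbit ((stabilizer G o).map α.toMonoidHom) ω) := by
    rw [← a1 o]
    simp only [A, Finset.sum_boole]
    rw [Nat.card_eq_fintype_card, Fintype.card_subtype]
    congr 2
    ext x
    simp only [Finset.mem_filter, Finset.mem_univ, true_and]
    exact ⟨fun ⟨g, h1, h2⟩ => ⟨⟨g, (hmem α g).2 h2⟩, h1⟩, fun ⟨g, h⟩ => ⟨g, h, (hmem α g).1 g.2⟩⟩
  have hcop : IsCoprime k (Fintype.card X : ℤ) := by rw [hk']; exact Nat.isCoprime_iff_coprime.2 hk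
  -- the permutation character is invariant
  have := tw_pretransitive (X := X) α⁻¹
  have := tw_pretransitive (X := X) (α⁻¹ * α⁻¹)
  have hpc : pc G (Tw α⁻¹ X) = pc G X := by
    refine pc_eq_of_two h2 _ rfl fun h => ?_
    have h1 := (pretransitive_iff_subsingleton_quotient _ _).2 (Nat.card_eq_one_iff_unique.1 h).1
    have h3 : orbit ((stabilizer G o).map α.toMonoidHom) ω = Set.univ := by
      refine Set.eq_univ_of_forall fun x => ?_
      obtain ⟨g, hg⟩ := exists_smul_eq G ((o, ω) : Tw α⁻¹ X × X) (o, x)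
      exact ⟨⟨g, (hmem α g).2 (congrArg Prod.fst hg)⟩, congrArg Prod.snd hg⟩
    rw [h3, Nat.card_univ, Nat.card_eq_fintype_card, Nat.coprime_self] at hk
    rw [Nat.card_eq_fintype_card] at hX
    omega
  have hpc2 : pc G (Tw (α⁻¹ * α⁻¹) X) = pc G X := by
    ext g
    exact (congrFun hpc (α⁻¹ g)).trans (congrFun hpc g)
  have hq : Nat.card (orbitRel.Quotient G (X × Tw (α⁻¹ * α⁻¹) X)) = 2 := by
    have := inner_pc_pc (G := G) (X := X) (Tw (α⁻¹ * α⁻¹) X)
    rw [hpc2, inner_pc_self o, (rank_eq_two_iff o).2 h2] at this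
    exact_mod_cast this.symm
  obtain ⟨q₁, q₂, hne, hq⟩ := Nat.card_eq_two_iff.1 hq
  have hq' : ∀ q, q ≠ q₁ → q = q₂ := fun q h => by
    have : q ∈ ({q₁, q₂} : Set _) := hq ▸ Set.mem_univ q
    exact this.resolve_left h
  let c : X → X → orbitRel.Quotient G (X × Tw (α⁻¹ * α⁻¹) X) := fun x y => Quotient.mk'' (x, y)
  have hc : ∀ (g : G) x y, c (g • x) ((α⁻¹ * α⁻¹) g • y) = c x y := fun g x y =>
    Quotient.sound' ⟨g, rfl⟩
  let B : Matrix X X ℤ := fun x y => if c x y = q₁ then 1 else 0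
  obtain ⟨k', l', b1, b2, b3, b4, b5⟩ := design h2 (α⁻¹ * α⁻¹) B (fun x y => by
    simp only [B]; split_ifs <;> simp) (fun g x y => by simp only [B, hc])
  have hAA : ∀ x y x' y', c x y = c x' y' → (A * A) x y = (A * A) x' y' := by
    intro x y x' y' h
    obtain ⟨g, hg⟩ := Quotient.exact' h
    obtain rfl : g • x' = x := congrArg Prod.fst hg
    obtain rfl : α⁻¹ (α⁻¹ g) • y' = y := congrArg Prod.snd hg
    rw [mul_apply, mul_apply, ← Equiv.sum_comp (toPerm (α⁻¹ g))]
    exact Finset.sum_congr rfl fun z _ => by rw [toPerm_apply, hA, hA]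
  have hex : ∀ q, ∃ x, c x o = q := by
    intro q
    induction q using Quotient.inductionOn' with
    | h z =>
      obtain ⟨g, hg⟩ := exists_smul_eq G z.2 (show Tw (α⁻¹ * α⁻¹) X from o)
      exact ⟨g • z.1, Quotient.sound' ⟨g, Prod.ext rfl hg⟩⟩
  obtain ⟨x₁, hx₁⟩ := hex q₁
  obtain ⟨x₂, hx₂⟩ := hex q₂
  have hAB : A * A = ((A * A) x₁ o - (A * A) x₂ o) • B +
      (A * A) x₂ o • of (fun (_ _ : X) => (1 : ℤ)) := by
    ext x y
    rw [Matrix.add_apply, Matrix.smul_apply, Matrix.smul_apply, of_apply, smul_eq_mul, smul_eq_mul,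
      show B x y = if c x y = q₁ then 1 else 0 from rfl]
    split_ifs with h
    · rw [hAA x y x₁ o (h.trans hx₁.symm)]; ring
    · rw [hAA x y x₂ o ((hq' _ h).trans hx₂.symm)]; ring
  generalize (A * A) x₁ o - (A * A) x₂ o = d at hAB
  generalize (A * A) x₂ o = y at hAB
  have hk1 : k' = (Finset.univ.filter fun x => c x o = q₁).card := by
    rw [← b1 o]; simp only [B, Finset.sum_boole]
  have hk2 := Finset.card_filter_add_card_filter_not (s := Finset.univ) fun x => c x o = q₁
  have hk3 : 0 < (Finset.univ.filter fun x => c x o = q₁).card :=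
    Finset.card_pos.2 ⟨x₁, by simpa using hx₁⟩
  have hk4 : 0 < (Finset.univ.filter fun x => ¬ c x o = q₁).card :=
    Finset.card_pos.2 ⟨x₂, by simpa [hx₂] using hne.symm⟩
  have hinv : ∀ g ∈ (stabilizer G o).map (α * α).toMonoidHom, ∀ x, c (g • x) o = c x o := by
    intro g hg x
    rw [← hc g x o, show (α⁻¹ * α⁻¹) g • o = o from (hmem _ g).1 hg]
  obtain ⟨x, hx⟩ : ∃ x : X, ∀ g ∈ (stabilizer G o).map (α * α).toMonoidHom, g • x = x := by
    by_contra hcon
    have e1 : _ ≠ 1 := fun h => hcon (exists_fixed_of_card_eq_one (fun x => c x o = q₁) _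
      (fun g hg x hx => by rwa [hinv g hg]) h)
    have e2 : _ ≠ 1 := fun h => hcon (exists_fixed_of_card_eq_one (fun x => ¬ c x o = q₁) _
      (fun g hg x hx => by rwa [hinv g hg]) h)
    rw [Finset.card_univ] at hk2
    set J : Matrix X X ℤ := of (fun _ _ => 1) with hJ
    have hJJ : J * J = (Fintype.card X : ℤ) • J := by ext; simp [hJ, mul_apply]
    have hJt : Jᵀ = J := rfl
    have a2' : Aᵀ * J = k • J := by rw [← hJt, ← transpose_mul, a3]; rfl
    have b2' : Bᵀ * J = k' • J := by rw [← hJt, ← transpose_mul, b3]; rfl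
    have e3 : (A * A)ᵀ * (A * A) = ((k - l) * (k - l)) • (1 : Matrix X X ℤ) +
        ((k - l) * l + l * k * k) • J := by
      rw [transpose_mul, Matrix.mul_assoc, ← Matrix.mul_assoc Aᵀ A, a4]
      simp only [Matrix.add_mul, Matrix.mul_add, Matrix.smul_mul, Matrix.mul_smul, Matrix.one_mul,
        a3, a4, a2']
      module
    have e4 : (A * A)ᵀ * (A * A) = (d * d * (k' - l')) • (1 : Matrix X X ℤ) +
        (d * d * l' + 2 * d * y * k' + y * y * Fintype.card X) • J := by
      rw [hAB]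
      simp only [transpose_add, transpose_smul, hJt, Matrix.add_mul, Matrix.mul_add,
        Matrix.smul_mul, Matrix.mul_smul, b3, b4, b2', hJJ]
      module
    have e5 : (A * A) * J = (k * k) • J := by
      rw [Matrix.mul_assoc, a2, Matrix.mul_smul, a2, smul_smul]
    rw [hAB, Matrix.add_mul, Matrix.smul_mul, Matrix.smul_mul, b2, hJJ] at e5
    obtain ⟨b, hb⟩ := exists_ne o
    have f1 := congrFun (congrFun (e3.symm.trans e4) o) o
    have f2 := congrFun (congrFun (e3.symm.trans e4) b) o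
    have f3 := congrFun (congrFun e5 o) o
    simp only [Matrix.add_apply, Matrix.smul_apply, one_apply_eq, one_apply_ne hb, hJ, of_apply, smul_eq_mul,
      mul_one, mul_zero, zero_add] at f1 f2 f3
    exact arith (d := d) (y := y) a5 b5 (by linear_combination f1 - f2) f3.symm hcop
      (by omega) (by omega)
  -- `α ^ 2` permutes the point stabilisers, hence so does `α`
  have key : ∀ m : ℕ, ∃ x : X, ∀ g : G, g • o = o → ((α * α) ^ m) g • x = x := by
    intro m
    induction m with
    | zero => exact ⟨o, fun g hg => hg⟩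
    | succ m ih =>
      obtain ⟨z, hz⟩ := ih
      obtain ⟨t, rfl⟩ := exists_smul_eq G o z
      refine ⟨(α * α) t • x, fun g hg => ?_⟩
      have := hx ((α * α) (t⁻¹ * ((α * α) ^ m) g * t)) ⟨_, by
        show _ • o = o
        rw [mul_smul, mul_smul, hz g hg, inv_smul_smul], rfl⟩
      rw [map_mul, map_mul, map_inv, mul_smul, mul_smul, inv_smul_eq_iff] at this
      rw [pow_succ', MulAut.mul_apply, this]
  obtain ⟨m, hm⟩ := hα
  obtain ⟨z, hz⟩ := key (m + 1)
  have e : (α * α) ^ (m + 1) = α := by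
    rw [← sq, ← pow_mul, show 2 * (m + 1) = 2 * m + 1 + 1 by ring, pow_succ, ← hm,
      pow_orderOf_eq_one, one_mul]
  rw [e] at hz
  exact ⟨z, by rintro _ ⟨g, hg, rfl⟩; exact hz g hg⟩

theorem map_eq_stabilizer [Finite G] [IsPretransitive G X] {o x : X} {α : MulAut G}
    (h : ∀ g ∈ (stabilizer G o).map α.toMonoidHom, g • x = x) :
    (stabilizer G o).map α.toMonoidHom = stabilizer G x :=
  Subgroup.eq_of_le_of_card_ge h (by
    rw [Subgroup.card_map_of_injective α.injective, card_stabilizer_eq o x])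

/-- An automorphism mapping a point stabiliser to a point stabiliser is induced by a
permutation. -/
theorem exists_perm [Finite X] [IsPretransitive G X] {o x : X} {α : MulAut G}
    (h : (stabilizer G o).map α.toMonoidHom = stabilizer G x) :
    ∃ σ : Equiv.Perm X, ∀ (g : G) y, σ (g • y) = α g • σ y := by
  choose t ht using exists_smul_eq G o
  have key : ∀ g k : G, α g • x = α k • x ↔ g • o = k • o := by
    intro g k
    rw [← inv_smul_eq_iff, ← mul_smul, ← mem_stabilizer_iff, ← h, ← map_inv, ← map_mul,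
      ← inv_smul_eq_iff (g := k), ← mul_smul]
    exact Subgroup.mem_map_iff_mem (f := α.toMonoidHom) α.injective
  refine ⟨Equiv.ofBijective (fun y => α (t y) • x) (Finite.injective_iff_bijective.1
    fun y z e => by rw [← ht y, ← ht z]; exact (key _ _).1 e), fun g y => ?_⟩
  show α (t (g • y)) • x = α g • α (t y) • x
  rw [← mul_smul, ← map_mul, key, ht, mul_smul, ht]

theorem exists_normalizer {Ω : Type*} [Finite Ω] (G : Subgroup (Equiv.Perm Ω))
    [IsPretransitive G Ω] {o x : Ω} {α : MulAut G}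
    (h : (stabilizer G o).map α.toMonoidHom = stabilizer G x) :
    ∃ σ : Equiv.Perm Ω, σ ∈ Subgroup.normalizer (G : Set (Equiv.Perm Ω)) ∧
      ∀ g : G, ((α g : G) : Equiv.Perm Ω) = σ * (g : Equiv.Perm Ω) * σ⁻¹ := by
  obtain ⟨σ, hσ⟩ := exists_perm h
  have h1 : ∀ g : G, ((α g : G) : Equiv.Perm Ω) = σ * (g : Equiv.Perm Ω) * σ⁻¹ := fun g => by
    rw [eq_mul_inv_iff_mul_eq]
    exact Equiv.ext fun y => (hσ g y).symm
  refine ⟨σ, Subgroup.mem_normalizer_iff.2 fun k => ⟨fun hk => h1 ⟨k, hk⟩ ▸ (α ⟨k, hk⟩).2,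
    fun hk => ?_⟩, h1⟩
  have := h1 (α.symm ⟨_, hk⟩)
  rw [α.apply_symm_apply, mul_left_inj, mul_right_inj] at this
  exact this ▸ (α.symm ⟨_, hk⟩).2

end CA.TwoAut
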